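import Mathlib
import Cfsg.Prelude.Def_GeometricClasses
import Cfsg.Prelude.Def_ClassicalGeometry

/-!
# CALL S5975, piece KJ (helper3): a quadratic field subalgebra of a matrix algebra over a finite
field of odd characteristic is `F[J]` with `J ^ 2 = n` for any prescribed non-square `n`
-/

set_option autoImplicit false

namespace Cfsg.Agent.Helper3

open Matrix Module

/-- PIECE KJ -/
theorem c3e_kj {F : Type*} [Field F] [Fintype F] {ι : Type} [Fintype ι] [DecidableEq ι]
    (K : Subalgebra F (Matrix ι ι F)) (hK : Cfsg.Geo.IsFieldSubalgebra 2 K) (h2 : (2 : F) ≠ 0)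
    (n : F) (hn : ¬ IsSquare n) :
    ∃ J : Matrix ι ι F, J ∈ K ∧ J * J = n • (1 : Matrix ι ι F) ∧
      ∀ y, y ∈ K ↔ ∃ a b : F, y = a • (1 : Matrix ι ι F) + b • J := by
  classical
  have hfr : Module.finrank F (Subalgebra.toSubmodule K) = 2 := hK.finrank_eq
  have h1K : (1 : Matrix ι ι F) ∈ K := K.one_mem
  -- `x ∈ K` outside the scalars
  obtain ⟨x, hxK, hx1⟩ : ∃ x ∈ K, x ∉ Submodule.span F {(1 : Matrix ι ι F)} := by
    by_contra hcon
    push Not at hcon
    have hle : Subalgebra.toSubmodule K ≤ Submodule.span F {(1 : Matrix ι ι F)} :=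
      fun y hy => hcon y hy
    have h1 := Submodule.finrank_mono hle
    have h3 : Module.finrank F (Submodule.span F {(1 : Matrix ι ι F)}) ≤ 1 := by
      have := finrank_span_le_card (R := F) ({(1 : Matrix ι ι F)} : Set (Matrix ι ι F))
      simpa using this
    omega
  have h10 : (1 : Matrix ι ι F) ≠ 0 := by
    intro h
    apply hx1
    have : x = 0 := by rw [← mul_one x, h, mul_zero]
    rw [this]
    exact Submodule.zero_mem _
  have hli : LinearIndependent F ![(1 : Matrix ι ι F), x] := by
    rw [LinearIndependent.pair_iff' h10]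
    intro a ha
    apply hx1
    rw [Submodule.mem_span_singleton]
    exact ⟨a, ha⟩
  have hspan : Submodule.span F {(1 : Matrix ι ι F), x} = Subalgebra.toSubmodule K := by
    apply Submodule.eq_of_le_of_finrank_eq
    · rw [Submodule.span_le]
      intro y hy
      rcases hy with rfl | rfl
      · exact h1K
      · exact hxK
    · rw [hfr, ← Matrix.range_cons_cons_empty, finrank_span_eq_card hli]
      simp
  have hmem : ∀ y, y ∈ K ↔ ∃ a b : F, a • (1 : Matrix ι ι F) + b • x = y := by
    intro y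
    rw [← Submodule.mem_span_pair, hspan]
    rfl
  -- the minimal polynomial of `x`
  obtain ⟨a₀, b₀, hxx⟩ := (hmem (x * x)).mp (K.mul_mem hxK hxK)
  obtain ⟨β, hβ⟩ : ∃ β : F, β = b₀ / 2 := ⟨_, rfl⟩
  have hβ2 : 2 * β = b₀ := by rw [hβ]; field_simp
  obtain ⟨y, hy⟩ : ∃ y : Matrix ι ι F, y = x - β • (1 : Matrix ι ι F) := ⟨_, rfl⟩
  obtain ⟨c, hc⟩ : ∃ c : F, c = a₀ + β * β := ⟨_, rfl⟩
  have hyK : y ∈ K := by
    rw [hy]
    exact K.sub_mem hxK (K.smul_mem h1K β)
  have hyy : y * y = c • (1 : Matrix ι ι F) := by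
    rw [hy, sub_mul, mul_sub, mul_sub, Matrix.smul_mul, Matrix.smul_mul, Matrix.mul_smul,
      Matrix.mul_smul, one_mul, mul_one, mul_one, ← hxx, hc, ← hβ2]
    module
  have hxy : x = y + β • (1 : Matrix ι ι F) := by rw [hy]; abel
  -- `c` is a non-square
  have hcns : ¬ IsSquare c := by
    rintro ⟨e, he⟩
    have hprod : (y + e • (1 : Matrix ι ι F)) * (y - e • (1 : Matrix ι ι F)) = 0 := by
      rw [add_mul, mul_sub, mul_sub, Matrix.smul_mul, Matrix.smul_mul, Matrix.mul_smul,
        Matrix.mul_smul, one_mul, mul_one, mul_one, hyy, he]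
      module
    by_cases hz : y - e • (1 : Matrix ι ι F) = 0
    · apply hx1
      rw [Submodule.mem_span_singleton]
      refine ⟨e + β, ?_⟩
      rw [hxy, sub_eq_zero.mp hz]
      module
    · obtain ⟨z, hzK, hz1⟩ := hK.inv _ (K.sub_mem hyK (K.smul_mem h1K e)) hz
      have h5 : y + e • (1 : Matrix ι ι F) = 0 := by
        calc y + e • (1 : Matrix ι ι F)
            = (y + e • (1 : Matrix ι ι F)) * ((y - e • (1 : Matrix ι ι F)) * z) := by
              rw [hz1, mul_one]
          _ = 0 := by rw [← mul_assoc, hprod, zero_mul]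
      apply hx1
      rw [Submodule.mem_span_singleton]
      refine ⟨-e + β, ?_⟩
      rw [hxy, eq_neg_of_add_eq_zero_left h5]
      module
  -- `n = c * t * t`
  have hchar : ringChar F ≠ 2 := by
    intro h
    apply h2
    have h3 := CharP.cast_eq_zero F (ringChar F)
    rw [h] at h3
    exact_mod_cast h3
  have hn0 : n ≠ 0 := by
    rintro rfl
    exact hn ⟨0, by ring⟩
  have hc0 : c ≠ 0 := by
    intro h
    apply hcns
    rw [h]
    exact ⟨0, by ring⟩
  have hnp : n ^ (Fintype.card F / 2) = -1 := by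
    rcases FiniteField.pow_dichotomy hchar hn0 with h | h
    · exact absurd ((FiniteField.isSquare_iff hchar hn0).mpr h) hn
    · exact h
  have hcp : c ^ (Fintype.card F / 2) = -1 := by
    rcases FiniteField.pow_dichotomy hchar hc0 with h | h
    · exact absurd ((FiniteField.isSquare_iff hchar hc0).mpr h) hcns
    · exact h
  have hsq : IsSquare (n / c) := by
    rw [FiniteField.isSquare_iff hchar (div_ne_zero hn0 hc0), div_pow, hnp, hcp]
    field_simp
  obtain ⟨t, ht⟩ := hsq
  have hnt : n = c * (t * t) := by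
    rw [← ht]
    field_simp
  have ht0 : t ≠ 0 := by
    rintro rfl
    apply hn0
    rw [hnt]
    ring
  refine ⟨t • y, K.smul_mem hyK t, ?_, ?_⟩
  · rw [Matrix.smul_mul, Matrix.mul_smul, hyy, hnt]
    module
  · intro y'
    constructor
    · intro hy'
      obtain ⟨a', b', hab⟩ := (hmem y').mp hy'
      refine ⟨a' + b' * β, b' / t, ?_⟩
      rw [← hab, hxy, smul_smul, div_mul_cancel₀ _ ht0]
      module
    · rintro ⟨a, b, rfl⟩
      exact K.add_mem (K.smul_mem h1K a) (K.smul_mem (K.smul_mem hyK t) b)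

end Cfsg.Agent.Helper3
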