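import Mathlib
import Cfsg.Agent.Helper13.TIDefs

set_option autoImplicit false

/-!
# CALL S5955, piece SQTI (helper3): `T ^ 2 = -1`, `B v (T v) = 0` gives an invariant t.i. plane
-/

namespace Cfsg.Agent.Helper3.TI5955

open Module Polynomial
open Cfsg.Agent.Helper42.SpForm Cfsg.Agent.Helper42.SpGroup Cfsg.Agent.Helper42.SpModels
open Cfsg.Agent.Helper13.TIsp Cfsg.Agent.Helper90.BG

section geom

variable {F : Type*} [Field F] {V : Type*} [AddCommGroup V] [Module F V] [FiniteDimensional F V]
  (B : LinearMap.BilinForm F V)

/-- SQTI -/
theorem ti_sq (halt : ∀ v, B v v = 0) (T : Module.End F V) (hT : Preserves B T)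
    (hT2 : T ^ 2 = -1) (v : V) (hv : B v (T v) = 0) :
    TI B (Submodule.span F {v, T v}) ∧
      (Submodule.span F {v, T v}).map T ≤ Submodule.span F {v, T v} := by
  have hskew : ∀ x y : V, B x y = - B y x := by
    intro x y
    have h := halt (x + y)
    simp only [map_add, LinearMap.add_apply, halt, zero_add, add_zero] at h
    exact eq_neg_of_add_eq_zero_right h
  have hv' : B (T v) v = 0 := by rw [hskew, hv, neg_zero]
  have hTT : T (T v) = -v := by
    have : (T ^ 2) v = (-1 : Module.End F V) v := by rw [hT2]
    rw [pow_two, Module.End.mul_apply] at this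
    rw [this]; simp
  have h3 : ∀ x ∈ ({v, T v} : Set V), ∀ y ∈ ({v, T v} : Set V), B x y = 0 := by
    intro x hx y hy
    rcases hx with rfl | hx
    · rcases hy with rfl | hy
      · exact halt _
      · rw [Set.mem_singleton_iff] at hy; rw [hy]; exact hv
    · rw [Set.mem_singleton_iff] at hx; rw [hx]
      rcases hy with rfl | hy
      · exact hv'
      · rw [Set.mem_singleton_iff] at hy; rw [hy]; exact halt _
  refine ⟨?_, ?_⟩
  · intro u hu w hw
    induction hu using Submodule.span_induction with
    | mem x hx =>
      induction hw using Submodule.span_induction with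
      | mem y hy => exact h3 x hx y hy
      | zero => simp
      | add y z _ _ hy hz => rw [map_add, hy, hz, add_zero]
      | smul c y _ hy => rw [map_smul, hy, smul_zero]
    | zero => simp
    | add x y _ _ hx hy => rw [map_add, LinearMap.add_apply, hx, hy, add_zero]
    | smul c x _ hx => rw [map_smul, LinearMap.smul_apply, hx, smul_zero]
  · rw [Submodule.map_span, Submodule.span_le]
    rintro _ ⟨x, hx, rfl⟩
    rcases hx with rfl | hx
    · exact Submodule.subset_span (by simp)
    · rw [Set.mem_singleton_iff] at hx; rw [hx, hTT]
      exact Submodule.neg_mem _ (Submodule.subset_span (by simp))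

end geom

end Cfsg.Agent.Helper3.TI5955
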