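import Mathlib
import Cfsg.Agent.Helper13.UnitGen

/-!
# Definitions for the two-generation of `SU_n(2)`, `n ≥ 5` (sub-CALL S2412C of S2412)

`F` is the field with four elements, the form is `Cfsg.hermForm n F 2 u v = ∑ i, u i * v i ^ 2`.
For a subgroup `M` of `SU_n(2)` the set `Φ = {v | utv hF v 1 ∈ M}` of transvection centres satisfies
`PhiCl Φ`.  `Edge Φ i j`: all the vectors `e_i + μ e_j` (`μ ≠ 0`) are in `Φ`.
-/

set_option autoImplicit false

namespace Cfsg.Agent.Helper3.SU2

variable {F : Type*} [Field F] [Fintype F] {n : ℕ}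

/-- closure properties of the set of transvection centres of a subgroup of `SU_n(2)` -/
structure PhiCl (Φ : Set (Fin n → F)) : Prop where
  zero : (0 : Fin n → F) ∈ Φ
  smul : ∀ (l : F) (v : Fin n → F), l ≠ 0 → v ∈ Φ → l • v ∈ Φ
  noniso : ∀ v : Fin n → F, Cfsg.hermForm n F 2 v v ≠ 0 → v ∈ Φ
  tv : ∀ x y : Fin n → F, x ∈ Φ → y ∈ Φ → Cfsg.hermForm n F 2 x x = 0 →
    y + Cfsg.hermForm n F 2 y x • x ∈ Φ

/-- full edge: all the vectors `e_i + μ e_j`, `μ ≠ 0`, are in `Φ` -/
def Edge (Φ : Set (Fin n → F)) (i j : Fin n) : Prop :=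
  ∀ μ : F, μ ≠ 0 → Pi.single i (1 : F) + μ • Pi.single j (1 : F) ∈ Φ

/-- window vector `e_i + e_j + e_k + e_l` -/
def win (i j k l : Fin n) : Fin n → F :=
  Pi.single i 1 + Pi.single j 1 + Pi.single k 1 + Pi.single l 1

/-- the support of a vector -/
noncomputable def supp (v : Fin n → F) : Finset (Fin n) := by
  classical exact Finset.univ.filter (fun i => v i ≠ 0)

theorem mem_supp (v : Fin n → F) (i : Fin n) : i ∈ supp v ↔ v i ≠ 0 := by
  classical
  unfold supp
  simp

theorem win_apply (i j k l a : Fin n) :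
    (win i j k l : Fin n → F) a =
      (if a = i then 1 else 0) + (if a = j then 1 else 0) + (if a = k then 1 else 0) +
        (if a = l then 1 else 0) := by
  unfold win
  simp [Pi.single_apply]

/-- the form in coordinates -/
theorem herm2_apply (u v : Fin n → F) : Cfsg.hermForm n F 2 u v = ∑ i, u i * v i ^ 2 := rfl

end Cfsg.Agent.Helper3.SU2
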