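import Mathlib
import Cfsg.Agent.Helper13.TIDefs

set_option autoImplicit false

/-!
# CALL S5955, piece CYCTI (helper3): the cyclic subspace of `v` is totally isotropic
-/

namespace Cfsg.Agent.Helper3.TI5955

open Module Polynomial
open Cfsg.Agent.Helper42.SpForm Cfsg.Agent.Helper42.SpGroup Cfsg.Agent.Helper42.SpModels
open Cfsg.Agent.Helper13.TIsp Cfsg.Agent.Helper90.BG

section geom

variable {F : Type*} [Field F] {V : Type*} [AddCommGroup V] [Module F V] [FiniteDimensional F V]
  (B : LinearMap.BilinForm F V)

theorem ti_cyc_skew (halt : ∀ v, B v v = 0) (x y : V) : B x y = - B y x := by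
  have h := halt (x + y)
  simp only [map_add, LinearMap.add_apply, halt, zero_add, add_zero] at h
  exact eq_neg_of_add_eq_zero_right h

theorem ti_cyc_pres (T : Module.End F V) (hT : Preserves B T) (a : ℕ) (x y : V) :
    B ((T ^ a) x) ((T ^ a) y) = B x y := by
  induction a generalizing x y with
  | zero => simp
  | succ n ih => rw [pow_succ, Module.End.mul_apply, Module.End.mul_apply, ih, hT]

/-- CYCTI: the cyclic subspace of `v` is totally isotropic. -/
theorem ti_cyc (halt : ∀ v, B v v = 0) (T : Module.End F V) (hT : Preserves B T) (r : ℕ)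
    (hr : Odd r) (hTr : T ^ r = 1) (v : V)
    (hv : ∀ j ∈ Finset.Icc 1 ((r - 1) / 2), B v ((T ^ j) v) = 0) :
    TI B (Submodule.span F (Set.range fun j : ℕ => (T ^ j) v)) ∧
      (Submodule.span F (Set.range fun j : ℕ => (T ^ j) v)).map T ≤
        Submodule.span F (Set.range fun j : ℕ => (T ^ j) v) := by
  have hrpos : 0 < r := hr.pos
  have h1 : ∀ j, j < r → B v ((T ^ j) v) = 0 := by
    intro j hj
    rcases Nat.eq_zero_or_pos j with rfl | hj0
    · simpa using halt v
    by_cases hle : j ≤ (r - 1) / 2
    · exact hv j (Finset.mem_Icc.mpr ⟨hj0, hle⟩)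
    · have hrj : r - j ∈ Finset.Icc 1 ((r - 1) / 2) := by
        obtain ⟨k, rfl⟩ := hr
        rw [Finset.mem_Icc]
        have : (2 * k + 1 - 1) / 2 = k := by omega
        rw [this] at hle ⊢
        omega
      have h2 := hv (r - j) hrj
      have h3 := ti_cyc_pres B T hT (r - j) v ((T ^ j) v)
      rw [← Module.End.mul_apply, ← pow_add, Nat.sub_add_cancel hj.le, hTr,
        Module.End.one_apply] at h3
      rw [← h3, ti_cyc_skew B halt, h2, neg_zero]
  have h2 : ∀ j, B v ((T ^ j) v) = 0 := by
    intro j
    have : T ^ j = T ^ (j % r) := by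
      conv_lhs => rw [← Nat.div_add_mod j r, pow_add, pow_mul, hTr, one_pow, one_mul]
    rw [this]
    exact h1 _ (Nat.mod_lt _ hrpos)
  have h3 : ∀ a b, B ((T ^ a) v) ((T ^ b) v) = 0 := by
    have key : ∀ a b, a ≤ b → B ((T ^ a) v) ((T ^ b) v) = 0 := by
      intro a b hab
      obtain ⟨c, rfl⟩ := Nat.exists_eq_add_of_le hab
      rw [pow_add, Module.End.mul_apply, ti_cyc_pres B T hT]
      exact h2 c
    intro a b
    rcases le_total a b with h | h
    · exact key a b h
    · rw [ti_cyc_skew B halt, key b a h, neg_zero]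
  refine ⟨?_, ?_⟩
  · intro u hu w hw
    induction hu using Submodule.span_induction with
    | mem x hx =>
      obtain ⟨a, rfl⟩ := hx
      induction hw using Submodule.span_induction with
      | mem y hy => obtain ⟨b, rfl⟩ := hy; exact h3 a b
      | zero => simp
      | add y z _ _ hy hz => rw [map_add, hy, hz, add_zero]
      | smul c y _ hy => rw [map_smul, hy, smul_zero]
    | zero => simp
    | add x y _ _ hx hy => rw [map_add, LinearMap.add_apply, hx, hy, add_zero]
    | smul c x _ hx => rw [map_smul, LinearMap.smul_apply, hx, smul_zero]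
  · rw [Submodule.map_span]
    apply Submodule.span_mono
    rintro _ ⟨_, ⟨j, rfl⟩, rfl⟩
    exact ⟨j + 1, by simp [pow_succ']⟩

end geom

end Cfsg.Agent.Helper3.TI5955
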