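import Mathlib

/-!
Feit–Higman (rank 2 BN-pairs), definitions shared by the pieces.

`altProd a b j = a * b * a * ⋯` (`j` factors).  A `HeckeCfg` is the matrix shadow of a rank 2
BN-pair on the set of chambers: two symmetric matrices satisfying the quadratic relations and
the braid relation of the dihedral Hecke algebra of order `2m`, such that the `2m` reduced
alternating products are 0/1 matrices with pairwise disjoint supports.
-/

set_option autoImplicit false

namespace Cfsg.Agent.Helper3.FH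

/-- alternating product `a * b * a * ⋯` with `j` factors -/
def altProd {R : Type*} [Monoid R] : R → R → ℕ → R
  | _, _, 0 => 1
  | a, b, (j + 1) => a * altProd b a j

@[simp] theorem altProd_zero {R : Type*} [Monoid R] (a b : R) : altProd a b 0 = 1 := rfl

theorem altProd_succ {R : Type*} [Monoid R] (a b : R) (j : ℕ) :
    altProd a b (j + 1) = a * altProd b a j := rfl

@[simp] theorem altProd_one {R : Type*} [Monoid R] (a b : R) : altProd a b 1 = a := by
  simp [altProd_succ]

theorem altProd_two {R : Type*} [Monoid R] (a b : R) : altProd a b 2 = a * b := by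
  simp [altProd_succ]

theorem altProd_add_two {R : Type*} [Monoid R] (a b : R) (j : ℕ) :
    altProd a b (j + 2) = a * b * altProd a b j := by
  rw [altProd_succ, altProd_succ, mul_assoc]

/-- the sequence `α₀ = 0, α₁ = 1, α_{j+2} = 2 x α_{j+1} - c α_j` -/
def alphaSeq (x c : ℝ) : ℕ → ℝ
  | 0 => 0
  | 1 => 1
  | (j + 2) => 2 * x * alphaSeq x c (j + 1) - c * alphaSeq x c j

@[simp] theorem alphaSeq_zero (x c : ℝ) : alphaSeq x c 0 = 0 := rfl

@[simp] theorem alphaSeq_one (x c : ℝ) : alphaSeq x c 1 = 1 := rfl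

theorem alphaSeq_add_two (x c : ℝ) (j : ℕ) :
    alphaSeq x c (j + 2) = 2 * x * alphaSeq x c (j + 1) - c * alphaSeq x c j := rfl

/-- the matrix shadow of a rank 2 BN-pair with dihedral Weyl group of order `2m` -/
structure HeckeCfg (Ω : Type*) [Fintype Ω] [DecidableEq Ω] where
  a : Matrix Ω Ω ℝ
  b : Matrix Ω Ω ℝ
  s : ℕ
  t : ℕ
  m : ℕ
  hs : 2 ≤ s
  ht : 2 ≤ t
  hm : 2 ≤ m
  a_symm : a.transpose = a
  b_symm : b.transpose = b
  a_sq : a * a = (s : ℝ) • (1 : Matrix Ω Ω ℝ) + ((s : ℝ) - 1) • a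
  b_sq : b * b = (t : ℝ) • (1 : Matrix Ω Ω ℝ) + ((t : ℝ) - 1) • b
  braid : altProd a b m = altProd b a m
  zero_one_a : ∀ j ≤ m, ∀ x y, altProd a b j x y = 0 ∨ altProd a b j x y = 1
  zero_one_b : ∀ j ≤ m, ∀ x y, altProd b a j x y = 0 ∨ altProd b a j x y = 1
  disj_aa : ∀ i j, i < j → j ≤ m → ∀ x y, altProd a b i x y * altProd a b j x y = 0
  disj_bb : ∀ i j, i < j → j ≤ m → ∀ x y, altProd b a i x y * altProd b a j x y = 0
  disj_ab : ∀ i j, 1 ≤ i → i ≤ m → 1 ≤ j → j < m →
    ∀ x y, altProd a b i x y * altProd b a j x y = 0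

namespace HeckeCfg

variable {Ω : Type*} [Fintype Ω] [DecidableEq Ω] (C : HeckeCfg Ω)

/-- the central element `ab + ba - (t-1)a - (s-1)b` -/
def z : Matrix Ω Ω ℝ :=
  C.a * C.b + C.b * C.a - ((C.t : ℝ) - 1) • C.a - ((C.s : ℝ) - 1) • C.b

/-- the span of the reduced alternating products -/
def H : Submodule ℝ (Matrix Ω Ω ℝ) :=
  Submodule.span ℝ ({M | ∃ j ≤ C.m, M = altProd C.a C.b j} ∪ {M | ∃ j ≤ C.m, M = altProd C.b C.a j})

/-- the parameter `x = (ζ + (s-1)(t-1))/2` attached to an eigenvalue `ζ` of `z` -/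
noncomputable def xOf (ζ : ℝ) : ℝ := (ζ + ((C.s : ℝ) - 1) * ((C.t : ℝ) - 1)) / 2

/-- `E` is a nonzero symmetric idempotent commuting with `a`, `b` on which `z` acts as `ζ` -/
structure IsEig (E : Matrix Ω Ω ℝ) (ζ : ℝ) : Prop where
  idem : E * E = E
  symm : E.transpose = E
  comm_a : E * C.a = C.a * E
  comm_b : E * C.b = C.b * E
  eig : C.z * E = ζ • E
  tr_pos : 0 < E.trace

/-- `E` is generic: the eigenvalue is neither `s + t` nor `-(st + 1)` -/
def Generic (ζ : ℝ) : Prop :=
  -((C.s : ℝ) + C.t) < 2 * C.xOf ζ ∧ 2 * C.xOf ζ < (C.s : ℝ) * C.t + 1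

/-- the configuration with the roles of `a` and `b` exchanged -/
def swap : HeckeCfg Ω where
  a := C.b
  b := C.a
  s := C.t
  t := C.s
  m := C.m
  hs := C.ht
  ht := C.hs
  hm := C.hm
  a_symm := C.b_symm
  b_symm := C.a_symm
  a_sq := C.b_sq
  b_sq := C.a_sq
  braid := C.braid.symm
  zero_one_a := C.zero_one_b
  zero_one_b := C.zero_one_a
  disj_aa := C.disj_bb
  disj_bb := C.disj_aa
  disj_ab := by
    intro i j hi1 hi hj1 hj x y
    rcases Nat.lt_or_ge i C.m with h | h
    · rw [mul_comm]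
      exact C.disj_ab j i hj1 hj.le hi1 h x y
    · have hi' : i = C.m := le_antisymm hi h
      subst hi'
      rw [← C.braid, mul_comm]
      exact C.disj_aa j C.m hj le_rfl x y

@[simp] theorem swap_a : C.swap.a = C.b := rfl
@[simp] theorem swap_b : C.swap.b = C.a := rfl
@[simp] theorem swap_s : C.swap.s = C.t := rfl
@[simp] theorem swap_t : C.swap.t = C.s := rfl
@[simp] theorem swap_m : C.swap.m = C.m := rfl

theorem swap_z : C.swap.z = C.z := by
  unfold z
  simp only [swap_a, swap_b, swap_s, swap_t]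
  abel

theorem swap_xOf (ζ : ℝ) : C.swap.xOf ζ = C.xOf ζ := by
  unfold xOf
  simp only [swap_s, swap_t]
  ring

theorem IsEig.swap {C : HeckeCfg Ω} {E : Matrix Ω Ω ℝ} {ζ : ℝ} (h : C.IsEig E ζ) :
    C.swap.IsEig E ζ where
  idem := h.idem
  symm := h.symm
  comm_a := h.comm_b
  comm_b := h.comm_a
  eig := by rw [swap_z]; exact h.eig
  tr_pos := h.tr_pos

theorem Generic.swap {C : HeckeCfg Ω} {ζ : ℝ} (h : C.Generic ζ) : C.swap.Generic ζ := by
  unfold Generic at h ⊢
  rw [swap_xOf]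
  simp only [swap_s, swap_t]
  constructor
  · linarith [h.1]
  · linarith [h.2]

end HeckeCfg

end Cfsg.Agent.Helper3.FH
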