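import Mathlib
import Cfsg.Prelude.Def_LieExceptional
import Cfsg.Agent.Helper6.BN
import Cfsg.Agent.Helper3.FHDefs

/-!
Feit–Higman (rank 2 BN-pairs), the chamber matrices of a BN-pair: for `n : G` the 0/1 matrix on
`G ⧸ B` of the relation `g⁻¹ h ∈ B n B`.
-/

set_option autoImplicit false

namespace Cfsg.Agent.Helper3.FH

open Cfsg Cfsg.Agent.Helper6

/-- the alternating list `[a, b, a, …]` of length `j` -/
def altList {R : Type*} : R → R → ℕ → List R
  | _, _, 0 => []
  | a, b, (j + 1) => a :: altList b a j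

@[simp] theorem altList_zero {R : Type*} (a b : R) : altList a b 0 = [] := rfl

theorem altList_succ {R : Type*} (a b : R) (j : ℕ) :
    altList a b (j + 1) = a :: altList b a j := rfl

@[simp] theorem altList_length {R : Type*} (a b : R) (j : ℕ) : (altList a b j).length = j := by
  induction j generalizing a b with
  | zero => rfl
  | succ j ih => rw [altList_succ, List.length_cons, ih]

theorem altList_prod {R : Type*} [Monoid R] (a b : R) (j : ℕ) :
    (altList a b j).prod = altProd a b j := by
  induction j generalizing a b with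
  | zero => rfl
  | succ j ih => rw [altList_succ, List.prod_cons, ih, altProd_succ]

theorem altList_mem {R : Type*} (a b : R) (j : ℕ) : ∀ x ∈ altList a b j, x = a ∨ x = b := by
  induction j generalizing a b with
  | zero => intro x hx; simp at hx
  | succ j ih =>
    intro x hx
    rw [altList_succ, List.mem_cons] at hx
    rcases hx with h | h
    · exact Or.inl h
    · exact (ih b a x h).symm

section

variable {G : Type*} [Group G] (P : Cfsg.BNPair G)

open Classical in
/-- indicator matrix on the chambers `G ⧸ B` of the relation `g⁻¹ h ∈ B n B` -/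
noncomputable def chamberMat (n : G) : Matrix (G ⧸ P.B) (G ⧸ P.B) ℝ :=
  fun x y => if x.out⁻¹ * y.out ∈ DC P n then 1 else 0

theorem out_rel_iff (n g h : G) :
    (g : G ⧸ P.B).out⁻¹ * (h : G ⧸ P.B).out ∈ DC P n ↔ g⁻¹ * h ∈ DC P n := by
  obtain ⟨b, hb⟩ := QuotientGroup.mk_out_eq_mul P.B g
  obtain ⟨c, hc⟩ := QuotientGroup.mk_out_eq_mul P.B h
  rw [hb, hc]
  constructor
  · intro hmem
    have := mul_mem_DC P b.2 (P.B.inv_mem c.2) hmem
    have e : (b : G) * ((g * b)⁻¹ * (h * c)) * (c : G)⁻¹ = g⁻¹ * h := by group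
    rwa [e] at this
  · intro hmem
    have := mul_mem_DC P (P.B.inv_mem b.2) c.2 hmem
    have e : (b : G)⁻¹ * (g⁻¹ * h) * (c : G) = (g * b)⁻¹ * (h * c) := by group
    rwa [e] at this

open Classical in
theorem chamberMat_mk (n g h : G) :
    chamberMat P n (g : G ⧸ P.B) (h : G ⧸ P.B) = if g⁻¹ * h ∈ DC P n then 1 else 0 := by
  unfold chamberMat
  simp only [out_rel_iff]

theorem chamberMat_mk_of_mem {n g h : G} (hm : g⁻¹ * h ∈ DC P n) :
    chamberMat P n (g : G ⧸ P.B) (h : G ⧸ P.B) = 1 := by
  classical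
  rw [chamberMat_mk, if_pos hm]

theorem chamberMat_mk_of_not_mem {n g h : G} (hm : g⁻¹ * h ∉ DC P n) :
    chamberMat P n (g : G ⧸ P.B) (h : G ⧸ P.B) = 0 := by
  classical
  rw [chamberMat_mk, if_neg hm]

theorem chamberMat_zero_or_one (n : G) (x y : G ⧸ P.B) :
    chamberMat P n x y = 0 ∨ chamberMat P n x y = 1 := by
  classical
  unfold chamberMat
  split_ifs
  · exact Or.inr rfl
  · exact Or.inl rfl

end

end Cfsg.Agent.Helper3.FH
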