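import Mathlib
import Cfsg.Agent.Helper96.C3SDefs

/-!
# CALL S5664, piece BSP1 (helper3)
-/

set_option autoImplicit false

namespace Cfsg.Agent.Helper3.C3S

open Module Cfsg.Agent.Helper96.C3S

variable {F K V : Type*} [Field F] [Field K] [Algebra F K] [AddCommGroup V] [Module F V]
  [Module K V] [IsScalarTower F K V]

theorem bsp1_kT_iso (φ : LinearMap.BilinForm K V) (alt : ∀ v, φ v v = 0) (a : V) (c : K)
    (u v : V) : φ (kT φ a c u) (kT φ a c v) = φ u v := by
  rw [kT_apply, kT_apply]
  simp only [map_add, map_smul, LinearMap.add_apply, LinearMap.smul_apply, smul_eq_mul, alt]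
  rw [skew alt a v]
  ring

theorem bsp1_fT_nd [Finite F] [Finite K] (φ : LinearMap.BilinForm K V)
    (nd : ∀ u, (∀ v, φ u v = 0) → u = 0) (u : V) (h : ∀ v, fT (F := F) φ u v = 0) : u = 0 := by
  apply nd
  intro v
  apply trace_nd (F := F)
  intro k
  have h1 := h (k • v)
  rw [fT_apply, map_smul, smul_eq_mul] at h1
  exact h1

theorem bsp1_p_inv [Fintype F] [Finite K] [Module.Finite K V] {φ : LinearMap.BilinForm K V}
    {P : Module.End F V → Prop} (h : Hyp φ P) (g : Module.End F V) (hg : P g) :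
    ∃ g' : Module.End F V, g * g' = 1 ∧ g' * g = 1 ∧ P g' := by
  have i1 : Module.Finite F K := Module.Finite.of_finite
  have i2 : Module.Finite F V := Module.Finite.trans K V
  have hinj : Function.Injective g := by
    rw [← LinearMap.ker_eq_bot, LinearMap.ker_eq_bot']
    intro v hv
    apply bsp1_fT_nd (F := F) φ h.nd
    intro u
    rw [← h.iso g hg, hv]
    simp
  have hbij : Function.Bijective g := ⟨hinj, LinearMap.injective_iff_surjective.mp hinj⟩
  have h1 : g * (LinearEquiv.ofBijective g hbij).symm.toLinearMap = 1 := by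
    apply LinearMap.ext
    intro v
    simp only [Module.End.mul_apply, LinearEquiv.coe_coe, Module.End.one_apply]
    exact (LinearEquiv.ofBijective g hbij).apply_symm_apply v
  have h2 : (LinearEquiv.ofBijective g hbij).symm.toLinearMap * g = 1 := by
    apply LinearMap.ext
    intro v
    simp only [Module.End.mul_apply, LinearEquiv.coe_coe, Module.End.one_apply]
    exact (LinearEquiv.ofBijective g hbij).symm_apply_apply v
  exact ⟨_, h1, h2, h.grp.inv _ _ hg h1 h2⟩

/-- PIECE BSP1 -/
theorem bsp1 [Fintype F] [Finite K] [Module.Finite K V] {φ : LinearMap.BilinForm K V}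
    {P : Module.End F V → Prop} (h : Hyp φ P) (a b : V) (hab : φ a b = 1)
    (hW : InW K P (Wstar F K a b)) (e ζ : K) (he : Algebra.trace F K e = 1)
    (hζ : Algebra.trace F K ζ = 0) :
    ∃ B : Module.End F V, P (1 + B) ∧ P (1 - B) ∧ (∀ v, B v ∈ Wstar F K a b) ∧
      (∀ v, (∀ x ∈ Wstar F K a b, fT (F := F) φ v x = 0) → B v = 0) ∧
      (∀ u v, fT (F := F) φ (B v) u = fT (F := F) φ (B u) v) ∧ B (e • a) = ζ • a := by
  obtain ⟨g, a₀, hg, ha₀, hWeq⟩ := hW
  obtain ⟨g', hgg', hg'g, hPg'⟩ := bsp1_p_inv h g hg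
  have hgg'v : ∀ v, g (g' v) = v := fun v => by
    have := congrArg (fun f : Module.End F V => f v) hgg'
    simpa using this
  have hg'gv : ∀ v, g' (g v) = v := fun v => by
    have := congrArg (fun f : Module.End F V => f v) hg'g
    simpa using this
  -- the family B_c
  have hBdef : ∀ c : K, ∀ v : V,
      (g * ((kT φ a₀ c).restrictScalars F - 1) * g') v = g ((c * φ (g' v) a₀) • a₀) := by
    intro c v
    simp only [Module.End.mul_apply, LinearMap.sub_apply, LinearMap.restrictScalars_apply,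
      Module.End.one_apply, kT_apply, add_sub_cancel_left]
  have hP1 : ∀ c : K, P (1 + g * ((kT φ a₀ c).restrictScalars F - 1) * g') := by
    intro c
    have : 1 + g * ((kT φ a₀ c).restrictScalars F - 1) * g' =
        g * (kT φ a₀ c).restrictScalars F * g' := by
      rw [mul_sub, sub_mul, mul_one, hgg']
      abel
    rw [this]
    exact h.grp.mul _ _ (h.grp.mul _ _ hg (h.lin _ (bsp1_kT_iso φ h.alt a₀ c))) hPg'
  have hneg : ∀ c : K, g * ((kT φ a₀ (-c)).restrictScalars F - 1) * g' =
      - (g * ((kT φ a₀ c).restrictScalars F - 1) * g') := by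
    intro c
    apply LinearMap.ext
    intro v
    rw [hBdef, LinearMap.neg_apply, hBdef, neg_mul, neg_smul, map_neg]
  -- the key pairing computation
  have hpair : ∀ (v : V) (k : K),
      fT (F := F) φ v (g (k • a₀)) = Algebra.trace F K (k * φ (g' v) a₀) := by
    intro v k
    conv_lhs => rw [← hgg'v v]
    rw [h.iso g hg, fT_apply, map_smul, smul_eq_mul]
  have hbW : b ∈ Wstar F K a b := ⟨0, 1, by simp, by simp⟩
  have hζW : ζ • a ∈ Wstar F K a b := ⟨ζ, 0, hζ, by simp⟩
  have hlam : φ (g' (e • a)) a₀ ≠ 0 := by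
    intro h0
    have hb' := hbW
    rw [hWeq] at hb'
    obtain ⟨k, hk⟩ := hb'
    have h1 : fT (F := F) φ (e • a) b = 1 := by
      rw [fT_apply, map_smul, LinearMap.smul_apply, hab, smul_eq_mul, mul_one, he]
    rw [hk, hpair, h0, mul_zero, map_zero] at h1
    exact zero_ne_one h1
  have hζ' := hζW
  rw [hWeq] at hζ'
  obtain ⟨k, hk⟩ := hζ'
  refine ⟨g * ((kT φ a₀ (k / φ (g' (e • a)) a₀)).restrictScalars F - 1) * g', hP1 _, ?_, ?_, ?_,
    ?_, ?_⟩
  · rw [sub_eq_add_neg, ← hneg]
    exact hP1 _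
  · intro v
    rw [hBdef, hWeq]
    exact ⟨_, rfl⟩
  · intro v hv
    rw [hBdef]
    have h0 : φ (g' v) a₀ = 0 := by
      apply trace_nd (F := F)
      intro k'
      rw [← hpair]
      apply hv
      rw [hWeq]
      exact ⟨k', rfl⟩
    rw [h0, mul_zero, zero_smul, map_zero]
  · intro u v
    have hpair2 : ∀ x y : V, fT (F := F) φ (g x) y = fT (F := F) φ x (g' y) := by
      intro x y
      conv_lhs => rw [← hgg'v y]
      exact h.iso g hg _ _
    have hsm : ∀ (c' : K) (x y : V), φ (c' • x) y = c' * φ x y := by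
      intro c' x y
      rw [map_smul, LinearMap.smul_apply, smul_eq_mul]
    rw [hBdef, hBdef, hpair2, hpair2, fT_apply, fT_apply, hsm, hsm, skew h.alt a₀ (g' u),
      skew h.alt a₀ (g' v)]
    congr 1
    ring
  · rw [hBdef, div_mul_cancel₀ _ hlam, ← hk]
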