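import Mathlib
import Cfsg.Agent.Helper96.C3SDefs
import Cfsg.Agent.Helper3.C3SBSP1

/-!
# CALL S5664, piece INV (helper3)
-/

set_option autoImplicit false

namespace Cfsg.Agent.Helper3.C3S

open Module Cfsg.Agent.Helper96.C3S

variable {F K V : Type*} [Field F] [Field K] [Algebra F K] [AddCommGroup V] [Module F V]
  [Module K V] [IsScalarTower F K V]

/-- PIECE INV -/
theorem p_inv [Fintype F] [Finite K] [Module.Finite K V] {φ : LinearMap.BilinForm K V}
    {P : Module.End F V → Prop} (h : Hyp φ P) (g : Module.End F V) (hg : P g) :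
    ∃ g' : Module.End F V, g * g' = 1 ∧ g' * g = 1 ∧ P g' :=
  bsp1_p_inv h g hg

end Cfsg.Agent.Helper3.C3S
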