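import Mathlib
import Cfsg.Agent.Helper87.SFDefs

/-!
# CALL S2752, piece GINV (helper3)
-/

set_option autoImplicit false

namespace Cfsg.Agent.Helper3

open Cfsg.Agent.Helper87 Cfsg.Agent.Helper87.SF

universe u

/-- GINV -/
theorem sf_good_inv {G : Type*} [Group G] [Finite G] (A B : Subgroup G) (hBA : B ≤ A)
    (hcard : Nat.card A = 2 * Nat.card B) (a x : G) (ha : a ∈ A) (haa : a * a = 1)
    (hx1 : x ≠ 1) (hxo : Odd (orderOf x)) (hBx : ∀ b ∈ B, b * x = x * b)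
    (hax : a * x * a⁻¹ = x⁻¹) : Good A := by
  have hx0 : orderOf x ≠ 0 := (orderOf_pos x).ne'
  have hxne1 : orderOf x ≠ 1 := by
    intro h
    exact hx1 (orderOf_eq_one_iff.mp h)
  obtain ⟨r, hr, hrd⟩ := Nat.exists_prime_and_dvd hxne1
  have hr2 : r ≠ 2 := by
    rintro rfl
    exact (Nat.not_even_iff_odd.mpr hxo) (even_iff_two_dvd.mpr hrd)
  obtain ⟨g, hg⟩ : ∃ g, g = x ^ (orderOf x / r) := ⟨_, rfl⟩
  have hgo : orderOf g = r := by
    rw [hg]
    exact orderOf_pow_orderOf_div hx0 hrd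
  have hainv : a⁻¹ = a := inv_eq_of_mul_eq_one_left haa
  have hag : a * g * a⁻¹ = g⁻¹ := by
    rw [hg]
    have h1 : a * x ^ (orderOf x / r) * a⁻¹ = (a * x * a⁻¹) ^ (orderOf x / r) := by
      rw [conj_pow]
    rw [h1, hax, inv_pow]
  have hkey : a * g⁻¹ * a * g = g ^ 2 := by
    have h1 : a * g⁻¹ * a⁻¹ = g := by
      have h2 := congrArg (·⁻¹) hag
      simp only [mul_inv_rev, inv_inv] at h2
      rw [← mul_assoc] at h2
      exact h2
    calc a * g⁻¹ * a * g = (a * g⁻¹ * a⁻¹) * g := by rw [hainv]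
      _ = g ^ 2 := by rw [h1, pow_two]
  refine ⟨B, a, g, r, hBA, ha, ?_, hr, hr2, ?_, Or.inl hcard⟩
  · intro b hb
    rw [hg]
    exact ((Commute.pow_right (hBx b hb) _).eq).symm
  · have hcop : (orderOf g).Coprime 2 := by
      rw [hgo]
      exact (Nat.coprime_primes hr Nat.prime_two).mpr hr2
    rw [hkey, hcop.orderOf_pow, hgo]

end Cfsg.Agent.Helper3
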