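import Cfsg.Statements.S1383
import Cfsg.Agent.S1448

/-!
# CALL BG83 (helper25, row S1383), piece CASEB1 (helper3, double)

From S1448 with `R = P`, `A = K`: `P = R₁ R₂` a central product, `R₁` non-abelian of order `p³`,
`R₂` cyclic with `Ω₁(R₂) = ⁅R₁, R₁⁆`.  Then `⁅P, P⁆ = ⁅R₁, R₁⁆` has order `p`, `Z(R₁) = ⁅R₁, R₁⁆`,
`Z(P) = R₂`, `R₁ ∩ R₂ = ⁅R₁, R₁⁆` and `|P| = p³ |R₂| / p`.
-/

set_option autoImplicit false

namespace Cfsg.Agent.Helper3

open Cfsg Subgroup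
open scoped commutatorElement

universe u

variable {G : Type u} [Group G]

/-- `|HK| * |H ∩ K| = |H| * |K|` when `H` normalizes `K`. -/
theorem bg83cb_card_sup (H K : Subgroup G) (h : H ≤ normalizer (K : Set G)) :
    Nat.card ↥(H ⊔ K) * Nat.card ↥(H ⊓ K) = Nat.card ↥H * Nat.card ↥K := by
  have h1 : K.relIndex (H ⊔ K) = K.relIndex H := by
    have := Subgroup.normal_subgroupOf_of_le_normalizer h
    have := Subgroup.normal_subgroupOf_sup_of_le_normalizer h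
    exact Nat.card_congr (QuotientGroup.quotientInfEquivProdNormalizerQuotient H K h).toEquiv.symm
  have h2 : (H ⊓ K).relIndex H = K.relIndex H := inf_relIndex_left H K
  have h3 : (⊥ : Subgroup G).relIndex K * K.relIndex (H ⊔ K) = (⊥ : Subgroup G).relIndex (H ⊔ K) :=
    relIndex_mul_relIndex _ _ _ bot_le le_sup_right
  have h4 : (⊥ : Subgroup G).relIndex (H ⊓ K) * (H ⊓ K).relIndex H = (⊥ : Subgroup G).relIndex H :=
    relIndex_mul_relIndex _ _ _ bot_le inf_le_left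
  rw [relIndex_bot_left, relIndex_bot_left] at h3 h4
  rw [← h3, ← h4, h1, h2]
  ring

/-- The join of two elementwise commuting subgroups is their product set. -/
theorem bg83cb_mem_sup (R₁ R₂ : Subgroup G) (hcomm : ∀ a ∈ R₁, ∀ b ∈ R₂, a * b = b * a) (x : G)
    (hx : x ∈ R₁ ⊔ R₂) : ∃ a ∈ R₁, ∃ b ∈ R₂, x = a * b := by
  let Q : Subgroup G :=
    { carrier := {x | ∃ a ∈ R₁, ∃ b ∈ R₂, x = a * b}
      one_mem' := ⟨1, R₁.one_mem, 1, R₂.one_mem, (mul_one 1).symm⟩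
      mul_mem' := by
        rintro _ _ ⟨a, ha, b, hb, rfl⟩ ⟨a', ha', b', hb', rfl⟩
        refine ⟨a * a', R₁.mul_mem ha ha', b * b', R₂.mul_mem hb hb', ?_⟩
        calc a * b * (a' * b') = a * (b * a') * b' := by simp only [mul_assoc]
          _ = a * (a' * b) * b' := by rw [hcomm a' ha' b hb]
          _ = a * a' * (b * b') := by simp only [mul_assoc]
      inv_mem' := by
        rintro _ ⟨a, ha, b, hb, rfl⟩
        refine ⟨a⁻¹, R₁.inv_mem ha, b⁻¹, R₂.inv_mem hb, ?_⟩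
        rw [mul_inv_rev]
        exact (hcomm a⁻¹ (R₁.inv_mem ha) b⁻¹ (R₂.inv_mem hb)).symm }
  have h1 : R₁ ≤ Q := fun a ha => ⟨a, ha, 1, R₂.one_mem, (mul_one a).symm⟩
  have h2 : R₂ ≤ Q := fun b hb => ⟨1, R₁.one_mem, b, hb, (one_mul b).symm⟩
  exact sup_le h1 h2 hx

theorem bg83cb_comm_left (a b g : G) (h : b * g = g * b) : ⁅a * b, g⁆ = ⁅a, g⁆ := by
  rw [commutatorElement_def, commutatorElement_def, mul_inv_rev]
  calc a * b * g * (b⁻¹ * a⁻¹) * g⁻¹ = a * (b * g) * b⁻¹ * a⁻¹ * g⁻¹ := by group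
    _ = a * (g * b) * b⁻¹ * a⁻¹ * g⁻¹ := by rw [h]
    _ = a * g * a⁻¹ * g⁻¹ := by group

theorem bg83cb_comm_right (a b g : G) (h : b * g = g * b) : ⁅g, a * b⁆ = ⁅g, a⁆ := by
  rw [commutatorElement_def, commutatorElement_def, mul_inv_rev]
  have h' : b * g⁻¹ = g⁻¹ * b := by
    calc b * g⁻¹ = g⁻¹ * (g * b) * g⁻¹ := by group
      _ = g⁻¹ * (b * g) * g⁻¹ := by rw [h]
      _ = g⁻¹ * b := by group
  calc g * (a * b) * g⁻¹ * (b⁻¹ * a⁻¹) = g * a * (b * g⁻¹) * b⁻¹ * a⁻¹ := by group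
    _ = g * a * (g⁻¹ * b) * b⁻¹ * a⁻¹ := by rw [h']
    _ = g * a * g⁻¹ * a⁻¹ := by group

/-- The group-theoretic core: a central product `P = R₁ R₂` as in S1448. -/
theorem bg83cb_core [Finite G] (p : ℕ) [Fact p.Prime] (P R₁ R₂ : Subgroup G)
    (hsup : R₁ ⊔ R₂ = P) (hcomm : ∀ a ∈ R₁, ∀ b ∈ R₂, a * b = b * a)
    (hna : ¬ IsMulCommutative ↥R₁) (hc1 : Nat.card ↥R₁ = p ^ 3) (hcyc : IsCyclic ↥R₂)
    (hΩ : Subgroup.closure {x : G | x ∈ R₂ ∧ x ^ p = 1} = ⁅R₁, R₁⁆) :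
    Nat.card ↥⁅P, P⁆ = p ∧ IsCyclic ↥(P ⊓ centralizer (P : Set G)) ∧
      Nat.card ↥P = p ^ 2 * Nat.card ↥(P ⊓ centralizer (P : Set G)) := by
  have hpp : p.Prime := Fact.out
  subst hsup
  -- `R₂` is abelian
  have hab : ∀ b ∈ R₂, ∀ b' ∈ R₂, b * b' = b' * b := by
    intro b hb b' hb'
    obtain ⟨g, hg⟩ := hcyc.exists_generator
    obtain ⟨m, hm⟩ := Subgroup.mem_zpowers_iff.mp (hg ⟨b, hb⟩)
    obtain ⟨n, hn⟩ := Subgroup.mem_zpowers_iff.mp (hg ⟨b', hb'⟩)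
    have e : (⟨b, hb⟩ : ↥R₂) * ⟨b', hb'⟩ = ⟨b', hb'⟩ * ⟨b, hb⟩ := by
      rw [← hm, ← hn, ← zpow_add, ← zpow_add, add_comm]
    exact congrArg Subtype.val e
  -- the elements of `⁅R₁, R₁⁆`
  have hT : ∀ x ∈ ⁅R₁, R₁⁆, x ∈ R₂ ∧ x ^ p = 1 := by
    intro x hx
    rw [← hΩ] at hx
    refine Subgroup.closure_induction (p := fun x _ => x ∈ R₂ ∧ x ^ p = 1) ?_ ?_ ?_ ?_ hx
    · intro y hy
      exact hy
    · exact ⟨R₂.one_mem, one_pow p⟩
    · intro y z _ _ hy hz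
      refine ⟨R₂.mul_mem hy.1 hz.1, ?_⟩
      have hc : Commute y z := hab y hy.1 z hz.1
      rw [hc.mul_pow, hy.2, hz.2, one_mul]
    · intro y _ hy
      exact ⟨R₂.inv_mem hy.1, by rw [inv_pow, hy.2, inv_one]⟩
  have hD2 : ⁅R₁, R₁⁆ ≤ R₂ := fun x hx => (hT x hx).1
  have hD1 : ⁅R₁, R₁⁆ ≤ R₁ := Subgroup.commutator_le_self R₁
  have hDne : ⁅R₁, R₁⁆ ≠ ⊥ := by
    intro h
    apply hna
    refine ⟨⟨fun a b => ?_⟩⟩
    have h1 : ⁅(a : G), (b : G)⁆ ∈ ⁅R₁, R₁⁆ := Subgroup.commutator_mem_commutator a.2 b.2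
    rw [h, Subgroup.mem_bot, commutatorElement_eq_one_iff_mul_comm] at h1
    exact Subtype.ext h1
  have hDcard : Nat.card ↥⁅R₁, R₁⁆ = p := by
    haveI : IsCyclic ↥R₂ := hcyc
    haveI : IsCyclic ↥⁅R₁, R₁⁆ :=
      isCyclic_of_injective (Subgroup.inclusion hD2) (Subgroup.inclusion_injective hD2)
    have h1 : Monoid.exponent ↥⁅R₁, R₁⁆ ∣ p := by
      apply Monoid.exponent_dvd_of_forall_pow_eq_one
      intro g
      exact Subtype.ext (hT g.1 g.2).2
    rw [IsCyclic.exponent_eq_card] at h1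
    rcases (Nat.dvd_prime hpp).mp h1 with h | h
    · exfalso
      exact hDne (Subgroup.card_eq_one.mp h)
    · exact h
  -- `Z(R₁) = ⁅R₁, R₁⁆`
  have hF : ∀ a ∈ R₁, (∀ x ∈ R₁, x * a = a * x) → a ∈ ⁅R₁, R₁⁆ := by
    have hDc : _root_.commutator ↥R₁ ≤ Subgroup.center ↥R₁ := by
      intro d hd
      have hd' : (d : G) ∈ ⁅R₁, R₁⁆ := by
        rw [← Subgroup.map_subtype_commutator]
        exact Subgroup.mem_map_of_mem R₁.subtype hd
      rw [Subgroup.mem_center_iff]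
      intro g
      exact Subtype.ext (hcomm g.1 g.2 d.1 (hD2 hd'))
    have hDcard' : Nat.card ↥(_root_.commutator ↥R₁) = p := by
      have e := Nat.card_congr ((_root_.commutator ↥R₁).equivMapOfInjective R₁.subtype
        (Subgroup.subtype_injective R₁)).toEquiv
      rw [Subgroup.map_subtype_commutator] at e
      exact e.trans hDcard
    have hZcard : Nat.card ↥(Subgroup.center ↥R₁) = p := by
      have hidx : Nat.card ↥(Subgroup.center ↥R₁) * (Subgroup.center ↥R₁).index = p ^ 3 := by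
        rw [Subgroup.card_mul_index, hc1]
      have hge : p ≤ Nat.card ↥(Subgroup.center ↥R₁) :=
        hDcard'.symm.le.trans (Subgroup.card_le_of_le hDc)
      have hdvd : (Subgroup.center ↥R₁).index ∣ p ^ 3 := Dvd.intro_left _ hidx
      obtain ⟨k, hk, hkeq⟩ := (Nat.dvd_prime_pow hpp).mp hdvd
      have hk0 : k ≠ 0 := by
        rintro rfl
        rw [pow_zero, Subgroup.index_eq_one] at hkeq
        apply hna
        refine ⟨⟨fun a b => ?_⟩⟩
        have hb : b ∈ Subgroup.center ↥R₁ := by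
          rw [hkeq]
          trivial
        exact (Subgroup.mem_center_iff.mp hb a)
      have hk1 : k ≠ 1 := by
        rintro rfl
        rw [pow_one] at hkeq
        apply hna
        haveI : Fact ((Subgroup.center ↥R₁).index.Prime) := ⟨by rw [hkeq]; exact hpp⟩
        haveI : IsCyclic (↥R₁ ⧸ Subgroup.center ↥R₁) :=
          isCyclic_of_prime_card (p := (Subgroup.center ↥R₁).index) rfl
        exact ⟨⟨commutative_of_cyclic_center_quotient (QuotientGroup.mk' (Subgroup.center ↥R₁))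
          (by rw [QuotientGroup.ker_mk'])⟩⟩
      have hk3 : k ≠ 3 := by
        rintro rfl
        rw [hkeq] at hidx
        have h1 : Nat.card ↥(Subgroup.center ↥R₁) = 1 := by
          have hpos : 0 < p ^ 3 := pow_pos hpp.pos 3
          exact Nat.eq_of_mul_eq_mul_right hpos (by rw [hidx, one_mul])
        have := hpp.two_le
        omega
      have hk2 : k = 2 := by omega
      subst hk2
      rw [hkeq] at hidx
      have hpos : 0 < p ^ 2 := pow_pos hpp.pos 2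
      exact Nat.eq_of_mul_eq_mul_right hpos (by rw [hidx]; ring)
    have hEq : _root_.commutator ↥R₁ = Subgroup.center ↥R₁ :=
      Subgroup.eq_of_le_of_card_ge hDc (by rw [hZcard, hDcard'])
    intro a ha hcen
    have h1 : (⟨a, ha⟩ : ↥R₁) ∈ Subgroup.center ↥R₁ := by
      rw [Subgroup.mem_center_iff]
      intro g
      exact Subtype.ext (hcen g.1 g.2)
    rw [← hEq] at h1
    rw [← Subgroup.map_subtype_commutator]
    exact ⟨⟨a, ha⟩, h1, rfl⟩
  -- `R₂` is central in `P`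
  have hR2c : R₂ ≤ centralizer ((R₁ ⊔ R₂ : Subgroup G) : Set G) := by
    intro b hb
    rw [Subgroup.mem_centralizer_iff]
    intro g hg
    obtain ⟨a, ha, b', hb', rfl⟩ := bg83cb_mem_sup R₁ R₂ hcomm g hg
    calc a * b' * b = a * (b' * b) := mul_assoc _ _ _
      _ = a * (b * b') := by rw [hab b' hb' b hb]
      _ = a * b * b' := (mul_assoc _ _ _).symm
      _ = b * a * b' := by rw [hcomm a ha b hb]
      _ = b * (a * b') := mul_assoc _ _ _
  have hZ : (R₁ ⊔ R₂) ⊓ centralizer ((R₁ ⊔ R₂ : Subgroup G) : Set G) = R₂ := by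
    apply le_antisymm
    · rintro z ⟨hz1, hz2⟩
      obtain ⟨a, ha, b, hb, rfl⟩ := bg83cb_mem_sup R₁ R₂ hcomm z hz1
      have haD : a ∈ ⁅R₁, R₁⁆ := by
        apply hF a ha
        intro x hx
        have h1 : x * (a * b) = a * b * x :=
          (Subgroup.mem_centralizer_iff.mp hz2) x ((le_sup_left : R₁ ≤ R₁ ⊔ R₂) hx)
        have h2 : x * b = b * x := hcomm x hx b hb
        have h3 : x * a * b = a * x * b := by
          calc x * a * b = x * (a * b) := mul_assoc _ _ _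
            _ = a * b * x := h1
            _ = a * (b * x) := mul_assoc _ _ _
            _ = a * (x * b) := by rw [h2]
            _ = a * x * b := (mul_assoc _ _ _).symm
        exact mul_right_cancel h3
      exact R₂.mul_mem (hD2 haD) hb
    · exact le_inf le_sup_right hR2c
  have hPD : ⁅R₁ ⊔ R₂, R₁ ⊔ R₂⁆ = ⁅R₁, R₁⁆ := by
    apply le_antisymm
    · rw [Subgroup.commutator_le]
      intro g₁ hg₁ g₂ hg₂
      obtain ⟨a₁, ha₁, b₁, hb₁, rfl⟩ := bg83cb_mem_sup R₁ R₂ hcomm g₁ hg₁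
      obtain ⟨a₂, ha₂, b₂, hb₂, rfl⟩ := bg83cb_mem_sup R₁ R₂ hcomm g₂ hg₂
      have e1 : ⁅a₁ * b₁, a₂ * b₂⁆ = ⁅a₁, a₂⁆ := by
        rw [bg83cb_comm_left a₁ b₁ (a₂ * b₂)
          ((Subgroup.mem_centralizer_iff.mp (hR2c hb₁)) (a₂ * b₂) hg₂).symm,
          bg83cb_comm_right a₂ b₂ a₁ (hcomm a₁ ha₁ b₂ hb₂).symm]
      rw [e1]
      exact Subgroup.commutator_mem_commutator ha₁ ha₂
    · exact Subgroup.commutator_mono le_sup_left le_sup_left
  have hinf : R₁ ⊓ R₂ = ⁅R₁, R₁⁆ := by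
    apply le_antisymm
    · rintro x ⟨hx1, hx2⟩
      exact hF x hx1 (fun y hy => hcomm y hy x hx2)
    · exact le_inf hD1 hD2
  have hnorm : R₁ ≤ normalizer (R₂ : Set G) := by
    have h1 : R₁ ≤ centralizer (R₂ : Set G) := by
      intro a ha
      rw [Subgroup.mem_centralizer_iff]
      intro b hb
      exact (hcomm a ha b hb).symm
    exact h1.trans (Subgroup.centralizer_le_normalizer _)
  have hcard := bg83cb_card_sup R₁ R₂ hnorm
  rw [hinf, hDcard, hc1] at hcard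
  refine ⟨?_, ?_, ?_⟩
  · rw [hPD]
    exact hDcard
  · rw [hZ]
    exact hcyc
  · rw [hZ]
    apply Nat.eq_of_mul_eq_mul_right hpp.pos
    rw [hcard]
    ring

variable [Finite G]

/-- CASEB1. (S1448 with `R = P`, `A = K`: `P = R₁ R₂`; `Z(R₁) = ⁅R₁, R₁⁆ = Ω₁(R₂)` has order
`p`, so `Z(P) = R₂`, `⁅P, P⁆ = ⁅R₁, R₁⁆`, `R₁ ∩ R₂ = Z(R₁)` and `|P| = p³ |R₂| / p`.) -/
theorem bg83_case_B_struct (p : ℕ) [Fact p.Prime] (hp2 : p ≠ 2) (P K : Subgroup G)
    (hP : IsPGroup p P) (hr : PRankLE p 2 ↥P) (hKP : K ≤ normalizer (P : Set G))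
    (hodd : Odd (Nat.card K)) (hcop : (Nat.card K).Coprime p) (hPK : ⁅P, K⁆ = P)
    (hnab : ⁅P, P⁆ ≠ ⊥) :
    Nat.card ↥⁅P, P⁆ = p ∧ IsCyclic ↥(P ⊓ centralizer (P : Set G)) ∧
      Nat.card ↥P = p ^ 2 * Nat.card ↥(P ⊓ centralizer (P : Set G)) := by
  have hP1 : P ≠ ⊥ := by
    rintro rfl
    exact hnab (Subgroup.commutator_bot_left ⊥)
  obtain ⟨-, h⟩ := Cfsg.Agent.S1448.result p hp2 P K hP hP1 hr hKP hcop hodd hPK
  rcases h with h | ⟨R₁, R₂, hsup, hcomm, hna, hc1, -, hcyc, hΩ⟩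
  · exfalso
    apply hnab
    rw [eq_bot_iff, Subgroup.commutator_le]
    intro a ha b hb
    rw [Subgroup.mem_bot, commutatorElement_eq_one_iff_mul_comm]
    exact congrArg Subtype.val (h.is_comm.comm ⟨a, ha⟩ ⟨b, hb⟩)
  · exact bg83cb_core p P R₁ R₂ hsup hcomm hna hc1 hcyc hΩ

end Cfsg.Agent.Helper3
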