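import Mathlib
import Cfsg.Prelude.Def_GeometricClasses
import Cfsg.Prelude.Def_ClassicalGeometry
import Cfsg.Agent.Helper94.SpGen

/-!
# CALL S5975, piece INV (helper3): a non-scalar symplectic involution with fixed space of
codimension two
-/

set_option autoImplicit false

namespace Cfsg.Agent.Helper3

open Matrix Module

/-- PIECE INV -/
theorem c3e_inv {F : Type*} [Field F] (h2 : (2 : F) ≠ 0) (d : ℕ) (hd : 2 ≤ d) :
    ∃ s : GL (Fin d ⊕ Fin d) F, s ∈ Cfsg.spGL d F ∧
      ((s ^ 2 : GL (Fin d ⊕ Fin d) F) : Matrix (Fin d ⊕ Fin d) (Fin d ⊕ Fin d) F) = 1 ∧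
      (∀ z : F, (s : Matrix (Fin d ⊕ Fin d) (Fin d ⊕ Fin d) F) ≠ z • 1) ∧
      Module.finrank F (LinearMap.ker
        (Matrix.toLin' (s : Matrix (Fin d ⊕ Fin d) (Fin d ⊕ Fin d) F) - 1)) = 2 * d - 2 := by
  classical
  obtain ⟨d', rfl⟩ : ∃ d', d = d' + 2 := ⟨d - 2, by omega⟩
  obtain ⟨e, he⟩ : ∃ e : Fin (d' + 2) ⊕ Fin (d' + 2) → F,
      e = fun i => if i = Sum.inl 0 ∨ i = Sum.inr 0 then -1 else 1 := ⟨_, rfl⟩
  have hee : ∀ i, e i * e i = 1 := by
    intro i
    rw [he]
    dsimp only
    split_ifs <;> ring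
  have hlr : ∀ i : Fin (d' + 2), e (Sum.inr i) * e (Sum.inl i) = 1 := by
    intro i
    rw [he]
    dsimp only
    by_cases hi : i = 0
    · subst hi
      simp
    · simp [hi]
  have hmul : (Matrix.diagonal e) * (Matrix.diagonal e) =
      (1 : Matrix (Fin (d' + 2) ⊕ Fin (d' + 2)) (Fin (d' + 2) ⊕ Fin (d' + 2)) F) := by
    rw [Matrix.diagonal_mul_diagonal, ← Matrix.diagonal_one]
    congr 1
    funext i
    exact hee i
  obtain ⟨s, hs⟩ : ∃ s : GL (Fin (d' + 2) ⊕ Fin (d' + 2)) F,
      (s : Matrix (Fin (d' + 2) ⊕ Fin (d' + 2)) (Fin (d' + 2) ⊕ Fin (d' + 2)) F) =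
        Matrix.diagonal e :=
    ⟨⟨Matrix.diagonal e, Matrix.diagonal e, hmul, hmul⟩, rfl⟩
  have h01 : (1 : Fin (d' + 2)) ≠ 0 := by
    intro h
    have := congrArg Fin.val h
    simp at this
  refine ⟨s, ?_, ?_, ?_, ?_⟩
  · rw [Cfsg.Agent.Helper94.mem_spGL_iff]
    intro u v
    rw [hs, Cfsg.Agent.Helper94.symp_explicit, Cfsg.Agent.Helper94.symp_explicit]
    apply Finset.sum_congr rfl
    intro i _
    rw [Matrix.mulVec_diagonal, Matrix.mulVec_diagonal, Matrix.mulVec_diagonal,
      Matrix.mulVec_diagonal]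
    linear_combination (u (Sum.inr i) * v (Sum.inl i) - u (Sum.inl i) * v (Sum.inr i)) * hlr i
  · rw [Units.val_pow_eq_pow_val, hs, pow_two, hmul]
  · intro z hz
    rw [hs] at hz
    have h1 := congrFun (congrFun hz (Sum.inl 0)) (Sum.inl 0)
    have h2' := congrFun (congrFun hz (Sum.inl 1)) (Sum.inl 1)
    rw [Matrix.diagonal_apply_eq, Matrix.smul_apply, Matrix.one_apply_eq, smul_eq_mul,
      mul_one] at h1 h2'
    rw [he] at h1 h2'
    simp [h01] at h1 h2'
    apply h2
    linear_combination h2' - h1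
  · rw [hs]
    have h1 : Matrix.toLin' (Matrix.diagonal e) - 1 =
        Matrix.toLin' (Matrix.diagonal (fun i => e i - 1)) := by
      apply LinearMap.ext
      intro v
      funext i
      rw [LinearMap.sub_apply, Matrix.toLin'_apply, Matrix.toLin'_apply, Pi.sub_apply,
        Matrix.mulVec_diagonal, Matrix.mulVec_diagonal, Module.End.one_apply]
      ring
    rw [h1]
    have h3 := LinearMap.finrank_range_add_finrank_ker
      (Matrix.toLin' (Matrix.diagonal (fun i => e i - 1)))
    have h4 : Module.finrank F (LinearMap.range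
        (Matrix.toLin' (Matrix.diagonal (fun i => e i - 1)))) = 2 := by
      have h5 := Matrix.rank_diagonal (fun i => e i - 1)
      rw [Matrix.rank, ← Matrix.toLin'_apply'] at h5
      rw [h5, Fintype.card_subtype]
      have h6 : (Finset.univ.filter (fun i : Fin (d' + 2) ⊕ Fin (d' + 2) => e i - 1 ≠ 0)) =
          {Sum.inl 0, Sum.inr 0} := by
        ext i
        simp only [Finset.mem_filter, Finset.mem_univ, true_and, Finset.mem_insert,
          Finset.mem_singleton]
        rw [he]
        dsimp only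
        constructor
        · intro h
          by_contra hcon
          rw [if_neg hcon] at h
          exact h (sub_self 1)
        · intro h
          rw [if_pos h]
          intro h7
          apply h2
          linear_combination -h7
      rw [h6]
      exact Finset.card_pair (by simp)
    have h8 : Module.finrank F (Fin (d' + 2) ⊕ Fin (d' + 2) → F) = 2 * (d' + 2) := by
      rw [Module.finrank_fintype_fun_eq_card, Fintype.card_sum, Fintype.card_fin]
      ring
    omega

end Cfsg.Agent.Helper3
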