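import Mathlib
import Cfsg.Agent.Helper96.C3SDefs
import Cfsg.Agent.Helper3.C3SBSP1

/-!
# CALL S5664, piece MAXA (helper3)
-/

set_option autoImplicit false

namespace Cfsg.Agent.Helper3.C3S

open Module Cfsg.Agent.Helper96.C3S

variable {F K V : Type*} [Field F] [Field K] [Algebra F K] [AddCommGroup V] [Module F V]
  [Module K V] [IsScalarTower F K V]

/-- PIECE MAXA -/
theorem max_A [Fintype F] [Finite K] [Module.Finite K V] {φ : LinearMap.BilinForm K V}
    {P : Module.End F V → Prop} (h : Hyp φ P) (a : V) (ha : a ≠ 0) (X : Set V) (hX : InW K P X)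
    (hmax : ∀ Y Z : Set V, InW K P Y → InW K P Z → Y ≠ Z →
      (Y ∩ Z).ncard ≤ (X ∩ Kline K a).ncard)
    (c : K) (w₀ : V) (hw₀ : w₀ ∈ X) (hw₀' : w₀ ∉ Kline K a) (hw₀c : (c * φ w₀ a) • a ∈ X) :
    ∀ w ∈ X, (c * φ w a) • a ∈ X := by
  have i1 : Module.Finite F K := Module.Finite.of_finite
  have i2 : Module.Finite F V := Module.Finite.trans K V
  have i3 : Finite V := Module.finite_of_finite F
  have hXin : InW K P X := hX
  obtain ⟨g₁, a₁, hg₁, ha₁, hXeq⟩ := hX
  have h0 : (0 : V) ∈ X := by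
    rw [hXeq]
    exact ⟨0, by simp⟩
  have hadd : ∀ x ∈ X, ∀ y ∈ X, x + y ∈ X := by
    rw [hXeq]
    rintro x ⟨k, rfl⟩ y ⟨k', rfl⟩
    exact ⟨k + k', by rw [add_smul, map_add]⟩
  have hneg : ∀ x ∈ X, -x ∈ X := by
    rw [hXeq]
    rintro x ⟨k, rfl⟩
    exact ⟨-k, by rw [neg_smul, map_neg]⟩
  have hPy : P ((kT φ a c).restrictScalars F) := h.lin _ (bsp1_kT_iso φ h.alt a c)
  have hyv : ∀ v, ((kT φ a c).restrictScalars F) v = v + (c * φ v a) • a := fun v => by
    rw [LinearMap.restrictScalars_apply, kT_apply]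
  have hyinj : Function.Injective ((kT φ a c).restrictScalars F) := by
    intro v v' hvv
    rw [hyv, hyv] at hvv
    have hd : v - v' = (c * φ v' a - c * φ v a) • a := by
      rw [sub_smul]
      exact sub_eq_sub_iff_add_eq_add.mpr (by rw [hvv, add_comm])
    have hφ : φ v a = φ v' a := by
      have h1 := congrArg (fun x => φ x a) hd
      simp only [map_sub, LinearMap.sub_apply, map_smul, LinearMap.smul_apply, h.alt,
        smul_zero] at h1
      exact sub_eq_zero.mp h1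
    rw [hφ, sub_self, zero_smul] at hd
    exact sub_eq_zero.mp hd
  have hYin : InW K P (((kT φ a c).restrictScalars F) '' X) := by
    refine ⟨((kT φ a c).restrictScalars F) * g₁, a₁, h.grp.mul _ _ hPy hg₁, ha₁, ?_⟩
    rw [hXeq]
    ext x
    constructor
    · rintro ⟨_, ⟨k, rfl⟩, rfl⟩
      exact ⟨k, rfl⟩
    · rintro ⟨k, rfl⟩
      exact ⟨_, ⟨k, rfl⟩, rfl⟩
  have hYX : ((kT φ a c).restrictScalars F) '' X = X := by
    by_contra hne
    have hle := hmax (((kT φ a c).restrictScalars F) '' X) X hYin hXin hne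
    have hsub : ((kT φ a c).restrictScalars F) '' ({w | w ∈ X ∧ (c * φ w a) • a ∈ X}) ⊆
        ((kT φ a c).restrictScalars F) '' X ∩ X := by
      rintro _ ⟨w, ⟨hw, hwc⟩, rfl⟩
      refine ⟨⟨w, hw, rfl⟩, ?_⟩
      rw [hyv]
      exact hadd _ hw _ hwc
    have hsub2 : X ∩ Kline K a ⊂ {w | w ∈ X ∧ (c * φ w a) • a ∈ X} := by
      refine ⟨?_, ?_⟩
      · rintro w ⟨hw, k, rfl⟩
        refine ⟨hw, ?_⟩
        rw [map_smul, LinearMap.smul_apply, h.alt, smul_zero, mul_zero, zero_smul]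
        exact h0
      · intro hcon
        exact hw₀' (hcon ⟨hw₀, hw₀c⟩).2
    have h1 := Set.ncard_le_ncard hsub (Set.toFinite _)
    rw [Set.ncard_image_of_injective _ hyinj] at h1
    have h2 := Set.ncard_lt_ncard hsub2 (Set.toFinite _)
    omega
  intro w hw
  have hyw : ((kT φ a c).restrictScalars F) w ∈ X := by
    rw [← hYX]
    exact ⟨w, hw, rfl⟩
  rw [hyv] at hyw
  have h3 := hadd _ hyw _ (hneg _ hw)
  have h4 : w + (c * φ w a) • a + -w = (c * φ w a) • a := by abel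
  rw [h4] at h3
  exact h3

end Cfsg.Agent.Helper3.C3S
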