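import Mathlib
import Cfsg.Prelude.Def_OddOrderLocal
import Cfsg.Prelude.Def_Solvable

/-!
# CALL C9 (helper1, S1376), piece FC: a complement acting regularly on a normal subgroup is a
Frobenius complement.
-/

set_option autoImplicit false

namespace Cfsg.Agent.Helper3

open Cfsg Subgroup

universe u

variable {G : Type u} [Group G] [Finite G]

/-- FC (pure). -/
theorem c9_frobc {M H E : Subgroup G} (hE : IsComplIn E H M) (hHn : M ≤ normalizer (H : Set G))
    (hE1 : E ≠ ⊥) (hH1 : H ≠ ⊥)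
    (hreg : ∀ e ∈ E, e ≠ 1 → ∀ y ∈ H, e * y = y * e → y = 1) :
    IsFrobeniusComplement (E.subgroupOf M) := by
  obtain ⟨hEM, hHM, hEH, hprod⟩ := hE
  refine ⟨?_, ?_, ?_⟩
  · intro hbot
    apply hE1
    rw [Subgroup.eq_bot_iff_forall]
    intro e he
    have h1 : (⟨e, hEM he⟩ : M) ∈ E.subgroupOf M := Subgroup.mem_subgroupOf.mpr he
    rw [hbot, Subgroup.mem_bot] at h1
    exact congrArg Subtype.val h1
  · intro htop
    apply hH1
    rw [Subgroup.eq_bot_iff_forall]
    intro y hy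
    have h1 : (⟨y, hHM hy⟩ : M) ∈ E.subgroupOf M := by
      rw [htop]
      exact Subgroup.mem_top _
    have h2 : y ∈ E ⊓ H := ⟨Subgroup.mem_subgroupOf.mp h1, hy⟩
    rw [hEH, Subgroup.mem_bot] at h2
    exact h2
  · intro g hg
    rw [Subgroup.eq_bot_iff_forall]
    rintro z ⟨hz1, hz2⟩
    obtain ⟨w, hw, hwz⟩ := hz2
    have hwE : (w : G) ∈ E := Subgroup.mem_subgroupOf.mp hw
    have hzE : (z : G) ∈ E := Subgroup.mem_subgroupOf.mp hz1
    have hzw : (z : G) = (g : G) * (w : G) * (g : G)⁻¹ := by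
      have := congrArg Subtype.val hwz
      simp only [MulDistribMulAction.toMonoidEnd_apply, MulDistribMulAction.toMonoidHom_apply,
        MulAut.smul_def, MulAut.conj_apply, Subgroup.coe_mul, InvMemClass.coe_inv] at this
      exact this.symm
    obtain ⟨a, ha, b, hb, hgab⟩ := hprod (g : G) g.2
    have hb1 : b ≠ 1 := by
      rintro rfl
      apply hg
      rw [Subgroup.mem_subgroupOf, hgab, mul_one]
      exact ha
    -- `z' = a⁻¹ z a = b w b⁻¹ ∈ E`
    have hz' : b * (w : G) * b⁻¹ ∈ E := by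
      have h1 : b * (w : G) * b⁻¹ = a⁻¹ * (z : G) * a := by
        rw [hzw, hgab]
        group
      rw [h1]
      exact E.mul_mem (E.mul_mem (E.inv_mem ha) hzE) ha
    -- `b (w b⁻¹ w⁻¹) ∈ H`
    have hwn : (w : G) * b⁻¹ * (w : G)⁻¹ ∈ H := by
      have hwM : (w : G) ∈ normalizer (H : Set G) := hHn w.2
      exact (Subgroup.mem_normalizer_iff.mp hwM b⁻¹).mp (H.inv_mem hb)
    have hc : b * (w : G) * b⁻¹ * (w : G)⁻¹ ∈ E ⊓ H := by
      refine ⟨E.mul_mem hz' (E.inv_mem hwE), ?_⟩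
      have h1 : b * (w : G) * b⁻¹ * (w : G)⁻¹ = b * ((w : G) * b⁻¹ * (w : G)⁻¹) := by group
      rw [h1]
      exact H.mul_mem hb hwn
    rw [hEH, Subgroup.mem_bot] at hc
    have hcomm : (w : G) * b = b * (w : G) := by
      have h1 : b * (w : G) = (b * (w : G) * b⁻¹ * (w : G)⁻¹) * ((w : G) * b) := by group
      rw [h1, hc, one_mul]
    have hw1 : (w : G) = 1 := by
      by_contra hne
      exact hb1 (hreg _ hwE hne b hb hcomm)
    have hz1' : (z : G) = 1 := by
      rw [hzw, hw1]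
      group
    exact Subtype.ext hz1'

end Cfsg.Agent.Helper3
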