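import Mathlib
import Cfsg.Prelude.Def_OddOrderLocal

/-!
# CA-groups: basic structure

`IsCA G`: the centralizer of every non-identity element is abelian.  Then commuting is an
equivalence relation on `G \ {1}`, the centralizers `C(x)` are TI-subgroups, they are Hall
subgroups, and two of them whose orders have a common prime divisor are conjugate.
-/

set_option autoImplicit false
set_option linter.style.haveILetI false

namespace Cfsg.Agent.Helper3

universe u

variable {G : Type u} [Group G]

/-- A CA-group: the centralizer of every non-identity element is abelian. -/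
def IsCA (G : Type u) [Group G] : Prop :=
  ∀ x : G, x ≠ 1 → ∀ a ∈ Subgroup.centralizer ({x} : Set G),
    ∀ b ∈ Subgroup.centralizer ({x} : Set G), a * b = b * a

theorem mem_cent_singleton {x z : G} :
    z ∈ Subgroup.centralizer ({x} : Set G) ↔ x * z = z * x := by
  rw [Subgroup.mem_centralizer_iff]
  constructor
  · intro h
    exact h x rfl
  · intro h y hy
    rw [Set.mem_singleton_iff] at hy
    rw [hy]
    exact h

theorem self_mem_cent (x : G) : x ∈ Subgroup.centralizer ({x} : Set G) :=
  mem_cent_singleton.mpr rfl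

theorem cent_ne_bot {x : G} (hx : x ≠ 1) : Subgroup.centralizer ({x} : Set G) ≠ ⊥ := by
  intro h
  have := self_mem_cent x
  rw [h] at this
  exact hx (Subgroup.mem_bot.mp this)

theorem IsCA.cent_eq (h : IsCA G) {x y : G} (hx : x ≠ 1) (hy : y ≠ 1)
    (hyx : y ∈ Subgroup.centralizer ({x} : Set G)) :
    Subgroup.centralizer ({y} : Set G) = Subgroup.centralizer ({x} : Set G) := by
  have hxy : x ∈ Subgroup.centralizer ({y} : Set G) :=
    mem_cent_singleton.mpr (mem_cent_singleton.mp hyx).symm
  ext z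
  constructor
  · intro hz
    exact mem_cent_singleton.mpr (h y hy x hxy z hz)
  · intro hz
    exact mem_cent_singleton.mpr (h x hx y hyx z hz)

theorem mem_cent_conj {x z g : G} :
    z ∈ Subgroup.centralizer ({g * x * g⁻¹} : Set G)
      ↔ g⁻¹ * z * g ∈ Subgroup.centralizer ({x} : Set G) := by
  rw [mem_cent_singleton, mem_cent_singleton]
  constructor
  · intro h
    calc x * (g⁻¹ * z * g) = g⁻¹ * (g * x * g⁻¹ * z) * g := by group
      _ = g⁻¹ * (z * (g * x * g⁻¹)) * g := by rw [h]
      _ = g⁻¹ * z * g * x := by group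
  · intro h
    calc g * x * g⁻¹ * z = g * (x * (g⁻¹ * z * g)) * g⁻¹ := by group
      _ = g * (g⁻¹ * z * g * x) * g⁻¹ := by rw [h]
      _ = z * (g * x * g⁻¹) := by group

theorem conj_ne_one_of_ne_one {x g : G} (hx : x ≠ 1) : g * x * g⁻¹ ≠ 1 := by
  intro h
  apply hx
  calc x = g⁻¹ * (g * x * g⁻¹) * g := by group
    _ = 1 := by rw [h]; group

theorem card_cent_conj (x u : G) :
    Nat.card (Subgroup.centralizer ({u * x * u⁻¹} : Set G))
      = Nat.card (Subgroup.centralizer ({x} : Set G)) := by
  refine Nat.card_congr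
    { toFun := fun z => ⟨u⁻¹ * (z : G) * u, mem_cent_conj.mp z.2⟩
      invFun := fun w => ⟨u * (w : G) * u⁻¹, mem_cent_conj.mpr (by
        have : u⁻¹ * (u * (w : G) * u⁻¹) * u = w := by group
        rw [this]
        exact w.2)⟩
      left_inv := fun z => Subtype.ext (by
        show u * (u⁻¹ * (z : G) * u) * u⁻¹ = z
        group)
      right_inv := fun w => Subtype.ext (by
        show u⁻¹ * (u * (w : G) * u⁻¹) * u = w
        group) }

/-- In a CA-group the centralizers of non-identity elements are TI-subgroups. -/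
theorem IsCA.isTI (h : IsCA G) {x : G} (hx : x ≠ 1) :
    Cfsg.IsTISubset ((Subgroup.centralizer ({x} : Set G) : Subgroup G) : Set G) := by
  intro g hg y hy hgy
  by_contra hy1
  apply hg
  have hy' : y ∈ Subgroup.centralizer ({x} : Set G) := hy
  have hgy' : g * y * g⁻¹ ∈ Subgroup.centralizer ({x} : Set G) := hgy
  have e1 := h.cent_eq hx hy1 hy'
  have e2 := h.cent_eq hx (conj_ne_one_of_ne_one hy1) hgy'
  rw [Subgroup.mem_normalizer_iff]
  intro n
  constructor
  · intro hn
    have h3 : g * n * g⁻¹ ∈ Subgroup.centralizer ({g * y * g⁻¹} : Set G) := by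
      rw [mem_cent_conj]
      have e : g⁻¹ * (g * n * g⁻¹) * g = n := by group
      rw [e, e1]
      exact hn
    rw [e2] at h3
    exact h3
  · intro hn
    have h3 : g * n * g⁻¹ ∈ Subgroup.centralizer ({g * y * g⁻¹} : Set G) := by
      rw [e2]
      exact hn
    rw [mem_cent_conj] at h3
    have e : g⁻¹ * (g * n * g⁻¹) * g = n := by group
    rw [e, e1] at h3
    exact h3

theorem IsCA.subgroup (h : IsCA G) (K : Subgroup G) : IsCA K := by
  intro x hx a ha b hb
  have hx' : (x : G) ≠ 1 := fun h' => hx (Subtype.ext h')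
  have ha' : (a : G) ∈ Subgroup.centralizer ({(x : G)} : Set G) := by
    rw [mem_cent_singleton]
    exact congrArg Subtype.val (mem_cent_singleton.mp ha)
  have hb' : (b : G) ∈ Subgroup.centralizer ({(x : G)} : Set G) := by
    rw [mem_cent_singleton]
    exact congrArg Subtype.val (mem_cent_singleton.mp hb)
  exact Subtype.ext (h x hx' a ha' b hb')

/-- In a CA-group, `C(x)` contains a Sylow `p`-subgroup of `G` for every prime `p` dividing
its order. -/
theorem IsCA.exists_sylow_le [Finite G] (h : IsCA G) {x : G} (hx : x ≠ 1) {p : ℕ}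
    [hp : Fact p.Prime] (hpx : p ∣ Nat.card (Subgroup.centralizer ({x} : Set G))) :
    ∃ (P : Sylow p G) (a : G), a ≠ 1 ∧ a ∈ (P : Subgroup G) ∧
      a ∈ Subgroup.centralizer ({x} : Set G) ∧
      (P : Subgroup G) ≤ Subgroup.centralizer ({x} : Set G) := by
  obtain ⟨a', ha'⟩ := exists_prime_orderOf_dvd_card' p hpx
  have hord : orderOf (a' : G) = p := by rw [Subgroup.orderOf_coe]; exact ha'
  have ha1 : (a' : G) ≠ 1 := by
    intro h1
    rw [h1, orderOf_one] at hord
    exact hp.out.one_lt.ne hord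
  have hpg : IsPGroup p (Subgroup.zpowers (a' : G)) :=
    IsPGroup.of_card (n := 1) (by rw [Nat.card_zpowers, hord, pow_one])
  obtain ⟨P, hP⟩ := hpg.exists_le_sylow
  have haP : (a' : G) ∈ (P : Subgroup G) := hP (Subgroup.mem_zpowers _)
  haveI : Nontrivial (P : Subgroup G) :=
    ⟨⟨⟨(a' : G), haP⟩, 1, fun h1 => ha1 (congrArg Subtype.val h1)⟩⟩
  have hc := IsPGroup.center_nontrivial (P.isPGroup')
  obtain ⟨⟨z, hz⟩, hz1⟩ := exists_ne (1 : Subgroup.center (P : Subgroup G))
  have hz1' : (z : G) ≠ 1 := by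
    intro h1
    apply hz1
    apply Subtype.ext
    apply Subtype.ext
    exact h1
  rw [Subgroup.mem_center_iff] at hz
  have hza : (z : G) ∈ Subgroup.centralizer ({(a' : G)} : Set G) := by
    rw [mem_cent_singleton]
    exact congrArg Subtype.val (hz ⟨(a' : G), haP⟩)
  have e1 := h.cent_eq hx ha1 a'.2
  have hzx : (z : G) ∈ Subgroup.centralizer ({x} : Set G) := by rw [← e1]; exact hza
  have e2 := h.cent_eq hx hz1' hzx
  refine ⟨P, (a' : G), ha1, haP, a'.2, ?_⟩
  intro w hw
  rw [← e2, mem_cent_singleton]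
  exact (congrArg Subtype.val (hz ⟨w, hw⟩)).symm

/-- In a CA-group two centralizers whose orders have a common prime divisor are conjugate. -/
theorem IsCA.exists_conj_mem [Finite G] (h : IsCA G) {x y : G} (hx : x ≠ 1) (hy : y ≠ 1)
    {p : ℕ} (hp : p.Prime)
    (hpx : p ∣ Nat.card (Subgroup.centralizer ({x} : Set G)))
    (hpy : p ∣ Nat.card (Subgroup.centralizer ({y} : Set G))) :
    ∃ u : G, u * x * u⁻¹ ∈ Subgroup.centralizer ({y} : Set G) := by
  haveI : Fact p.Prime := ⟨hp⟩
  obtain ⟨P, a, ha1, haP, hax, -⟩ := h.exists_sylow_le hx hpx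
  obtain ⟨Q, b, -, -, -, hQy⟩ := h.exists_sylow_le hy hpy
  obtain ⟨u, hu⟩ := MulAction.exists_smul_eq G P Q
  refine ⟨u, ?_⟩
  have huQ : u * a * u⁻¹ ∈ (Q : Subgroup G) := by
    rw [← hu, Sylow.coe_subgroup_smul, Subgroup.mem_smul_pointwise_iff_exists]
    exact ⟨a, haP, by simp [MulAut.smul_def]⟩
  have huy : u * a * u⁻¹ ∈ Subgroup.centralizer ({y} : Set G) := hQy huQ
  have e1 := h.cent_eq hy (conj_ne_one_of_ne_one ha1) huy
  rw [← e1, mem_cent_conj]
  have e : u⁻¹ * (u * x * u⁻¹) * u = x := by group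
  rw [e, mem_cent_singleton]
  exact (mem_cent_singleton.mp hax).symm

end Cfsg.Agent.Helper3
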