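import Mathlib
import Cfsg.Prelude.Def_Characters
import Cfsg.Agent.Helper80.CharOrtho

/-!
# Frobenius' formula for the number of ways of writing an element as a commutator (helper3)

Everything is in `namespace Cfsg.Agent.Helper3`.
-/

set_option autoImplicit false

namespace Cfsg.Agent.Helper3

open scoped ComplexConjugate

/-- Frobenius: the number of pairs `(a, b)` with `a b a⁻¹ b⁻¹ = g` is `|G| ∑_χ χ(g⁻¹)/χ(1)`. -/
theorem card_commutator_pairs {G : Type*} [Group G] [Fintype G] [DecidableEq G]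
    [Fintype (Cfsg.IrrCharacter G)] (g : G) :
    ((Finset.univ.filter (fun p : G × G => p.1 * p.2 * p.1⁻¹ * p.2⁻¹ = g)).card : ℂ)
      = (Fintype.card G : ℂ) * ∑ χ : Cfsg.IrrCharacter G, (χ : G → ℂ) g⁻¹ / (χ : G → ℂ) 1 := by
  classical
  have hG : (Fintype.card G : ℂ) ≠ 0 := by exact_mod_cast Fintype.card_ne_zero
  -- indicator via the regular character
  have h1 : ∀ a b : G, (if a * b * a⁻¹ * b⁻¹ = g then (1 : ℂ) else 0)
      = (Fintype.card G : ℂ)⁻¹ * ∑ χ : Cfsg.IrrCharacter G,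
          (χ : G → ℂ) 1 * (χ : G → ℂ) (a * b * a⁻¹ * b⁻¹ * g⁻¹) := by
    intro a b
    rw [Cfsg.Agent.Helper80.irr_sum_degree_mul]
    by_cases h : a * b * a⁻¹ * b⁻¹ = g
    · have h' : a * b * a⁻¹ * b⁻¹ * g⁻¹ = 1 := by rw [h]; group
      rw [if_pos h, if_pos h']
      field_simp
    · have h' : ¬ a * b * a⁻¹ * b⁻¹ * g⁻¹ = 1 := by
        intro h2; apply h
        exact mul_inv_eq_one.mp h2
      rw [if_neg h, if_neg h']
      simp
  have h2 : ((Finset.univ.filter (fun p : G × G => p.1 * p.2 * p.1⁻¹ * p.2⁻¹ = g)).card : ℂ)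
      = ∑ a : G, ∑ b : G, (if a * b * a⁻¹ * b⁻¹ = g then (1 : ℂ) else 0) := by
    rw [Finset.card_filter, Nat.cast_sum, ← Finset.univ_product_univ, Finset.sum_product]
    refine Finset.sum_congr rfl ?_
    intro a _
    refine Finset.sum_congr rfl ?_
    intro b _
    split_ifs <;> simp
  rw [h2]
  simp only [h1]
  -- inner sums
  have h3 : ∀ (χ : Cfsg.IrrCharacter G) (a : G),
      ∑ b : G, (χ : G → ℂ) (a * b * a⁻¹ * b⁻¹ * g⁻¹)
        = (Fintype.card G : ℂ) * (χ : G → ℂ) a⁻¹ * (χ : G → ℂ) (g⁻¹ * a) / (χ : G → ℂ) 1 := by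
    intro χ a
    rw [← Cfsg.Agent.Helper80.irr_sum_conj_mul χ a⁻¹ (g⁻¹ * a)]
    refine Finset.sum_congr rfl ?_
    intro b _
    have e : a * b * a⁻¹ * b⁻¹ * g⁻¹ = a * (b * a⁻¹ * b⁻¹ * g⁻¹) := by group
    have e2 : b * a⁻¹ * b⁻¹ * (g⁻¹ * a) = (b * a⁻¹ * b⁻¹ * g⁻¹) * a := by group
    rw [e, e2]
    exact Cfsg.Agent.Helper80.isCharacter_mul_comm
      (Cfsg.Agent.Helper80.isCharacter_of_irr χ.2) _ _
  have h4 : ∀ χ : Cfsg.IrrCharacter G,
      ∑ a : G, (χ : G → ℂ) a⁻¹ * (χ : G → ℂ) (g⁻¹ * a)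
        = (Fintype.card G : ℂ) * (χ : G → ℂ) g⁻¹ / (χ : G → ℂ) 1 := by
    intro χ
    have := Cfsg.Agent.Helper80.irr_conv χ χ g⁻¹
    rw [if_pos rfl] at this
    rw [← this]
    refine Finset.sum_congr rfl ?_
    intro a _
    congr 1
    exact Cfsg.Agent.Helper80.isCharacter_mul_comm
      (Cfsg.Agent.Helper80.isCharacter_of_irr χ.2) _ _
  have h5 : ∑ a : G, ∑ b : G, (Fintype.card G : ℂ)⁻¹ * ∑ χ : Cfsg.IrrCharacter G,
          (χ : G → ℂ) 1 * (χ : G → ℂ) (a * b * a⁻¹ * b⁻¹ * g⁻¹)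
      = (Fintype.card G : ℂ)⁻¹ * ∑ χ : Cfsg.IrrCharacter G, (χ : G → ℂ) 1 *
          ∑ a : G, ∑ b : G, (χ : G → ℂ) (a * b * a⁻¹ * b⁻¹ * g⁻¹) := by
    simp only [Finset.mul_sum]
    calc ∑ a : G, ∑ b : G, ∑ χ : Cfsg.IrrCharacter G, (Fintype.card G : ℂ)⁻¹ *
            ((χ : G → ℂ) 1 * (χ : G → ℂ) (a * b * a⁻¹ * b⁻¹ * g⁻¹))
        = ∑ a : G, ∑ χ : Cfsg.IrrCharacter G, ∑ b : G, (Fintype.card G : ℂ)⁻¹ *
            ((χ : G → ℂ) 1 * (χ : G → ℂ) (a * b * a⁻¹ * b⁻¹ * g⁻¹)) :=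
          Finset.sum_congr rfl (fun a _ => Finset.sum_comm)
      _ = ∑ χ : Cfsg.IrrCharacter G, ∑ a : G, ∑ b : G, (Fintype.card G : ℂ)⁻¹ *
            ((χ : G → ℂ) 1 * (χ : G → ℂ) (a * b * a⁻¹ * b⁻¹ * g⁻¹)) := Finset.sum_comm
  rw [h5]
  simp only [h3]
  have h6 : ∀ χ : Cfsg.IrrCharacter G,
      (χ : G → ℂ) 1 * ∑ a : G, (Fintype.card G : ℂ) * (χ : G → ℂ) a⁻¹ * (χ : G → ℂ) (g⁻¹ * a)
        / (χ : G → ℂ) 1
      = (Fintype.card G : ℂ) * ((Fintype.card G : ℂ) * ((χ : G → ℂ) g⁻¹ / (χ : G → ℂ) 1)) := by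
    intro χ
    have hχ1 := Cfsg.Agent.Helper80.irr_one_ne_zero χ
    have : ∑ a : G, (Fintype.card G : ℂ) * (χ : G → ℂ) a⁻¹ * (χ : G → ℂ) (g⁻¹ * a)
        / (χ : G → ℂ) 1
        = (Fintype.card G : ℂ) / (χ : G → ℂ) 1 *
          ∑ a : G, (χ : G → ℂ) a⁻¹ * (χ : G → ℂ) (g⁻¹ * a) := by
      rw [Finset.mul_sum]
      refine Finset.sum_congr rfl ?_
      intro a _
      ring
    rw [this, h4 χ]
    field_simp
  simp only [h6]
  rw [← Finset.mul_sum, ← Finset.mul_sum]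
  field_simp

/-- An element is a commutator iff `∑_χ χ(g)/χ(1) ≠ 0`. -/
theorem isCommutator_iff {G : Type*} [Group G] [Finite G] (g : G) :
    (∃ a b : G, g = a * b * a⁻¹ * b⁻¹) ↔
      ∑ᶠ χ : Cfsg.IrrCharacter G, (χ : G → ℂ) g / (χ : G → ℂ) 1 ≠ 0 := by
  classical
  have : Fintype G := Fintype.ofFinite G
  have : Fintype (Cfsg.IrrCharacter G) := Fintype.ofFinite _
  have hG : (Fintype.card G : ℂ) ≠ 0 := by exact_mod_cast Fintype.card_ne_zero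
  rw [finsum_eq_sum_of_fintype]
  have hconj : ∑ χ : Cfsg.IrrCharacter G, (χ : G → ℂ) g⁻¹ / (χ : G → ℂ) 1
      = conj (∑ χ : Cfsg.IrrCharacter G, (χ : G → ℂ) g / (χ : G → ℂ) 1) := by
    rw [map_sum]
    refine Finset.sum_congr rfl ?_
    intro χ _
    rw [map_div₀, Cfsg.Agent.Helper80.isCharacter_inv (Cfsg.Agent.Helper80.isCharacter_of_irr χ.2),
      Cfsg.Agent.Helper80.irr_one_eq]
    simp
  have hcard := card_commutator_pairs g
  rw [hconj] at hcard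
  constructor
  · rintro ⟨a, b, hab⟩ h0
    rw [h0, map_zero, mul_zero] at hcard
    have : (Finset.univ.filter (fun p : G × G => p.1 * p.2 * p.1⁻¹ * p.2⁻¹ = g)).card = 0 := by
      exact_mod_cast hcard
    rw [Finset.card_eq_zero, Finset.filter_eq_empty_iff] at this
    exact this (Finset.mem_univ (a, b)) hab.symm
  · intro hne
    have hcne : ((Finset.univ.filter (fun p : G × G => p.1 * p.2 * p.1⁻¹ * p.2⁻¹ = g)).card : ℂ)
        ≠ 0 := by
      rw [hcard]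
      refine mul_ne_zero hG ?_
      intro h
      apply hne
      have := congrArg (starRingEnd ℂ) h
      simpa using this
    have hpos : (Finset.univ.filter (fun p : G × G => p.1 * p.2 * p.1⁻¹ * p.2⁻¹ = g)).card ≠ 0 := by
      intro h; apply hcne; rw [h]; simp
    obtain ⟨p, hp⟩ := Finset.card_ne_zero.mp hpos
    rw [Finset.mem_filter] at hp
    exact ⟨p.1, p.2, hp.2.symm⟩

end Cfsg.Agent.Helper3
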