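import Mathlib
import Cfsg.Prelude.Def_Characters
import Cfsg.Agent.Helper79.Basic
import Cfsg.Agent.Helper79.TISylow
import Cfsg.Agent.Helper3.Induced
import Cfsg.Agent.Helper25.Coh2

/-!
# Generic lemmas for the integrality of the Dade map (helper3)

* `orbit_weighted_sum_int`: an invariant integer-valued function on a finite `Γ`-set, weighted by
  `|Stab x| / |Γ|`, sums to an integer.
* `coset_sum_coprime_of_normalizes`: Glauberman-type coset sum for a subgroup normalised by `x`.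
* `exists_semidirect_proj`: projection of an internal semidirect product onto the complement.
* `classInner_genChar_char_int`, `isGeneralizedCharacter_of_classInner_int`.
-/

set_option autoImplicit false

namespace Cfsg.Agent.Helper3

open scoped ComplexConjugate

/-- Weighted orbit counting: an invariant integer-valued function, weighted by
`|Stab x| / |Γ|`, sums to an integer. -/
theorem orbit_weighted_sum_int {Γ : Type*} [Group Γ] [Fintype Γ] {X : Type*} [Fintype X]
    [MulAction Γ X] (F : X → ℂ) (hF : ∀ (γ : Γ) (x : X), F (γ • x) = F x)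
    (hint : ∀ x, ∃ z : ℤ, F x = z) :
    ∃ z : ℤ, ∑ x : X, F x * ((Nat.card (MulAction.stabilizer Γ x) : ℂ) / (Nat.card Γ : ℂ))
      = z := by
  classical
  have hΓ : (Nat.card Γ : ℂ) ≠ 0 := by exact_mod_cast Nat.card_pos.ne'
  rw [← Finset.sum_fiberwise (s := Finset.univ)
    (g := fun x : X => (Quotient.mk'' x : MulAction.orbitRel.Quotient Γ X))]
  have key : ∀ ω : MulAction.orbitRel.Quotient Γ X,
      ∑ x ∈ Finset.univ.filter (fun x : X => (Quotient.mk'' x : MulAction.orbitRel.Quotient Γ X) = ω),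
        F x * ((Nat.card (MulAction.stabilizer Γ x) : ℂ) / (Nat.card Γ : ℂ)) = F ω.out := by
    intro ω
    have hmem : ∀ x : X, (Quotient.mk'' x : MulAction.orbitRel.Quotient Γ X) = ω ↔
        x ∈ MulAction.orbit Γ ω.out := by
      intro x
      rw [← MulAction.orbitRel_apply, ← Quotient.eq'']
      constructor
      · intro h; rw [h]; exact (Quotient.out_eq' ω).symm
      · intro h; rw [h]; exact Quotient.out_eq' ω
    have hterm : ∀ x ∈ Finset.univ.filter
        (fun x : X => (Quotient.mk'' x : MulAction.orbitRel.Quotient Γ X) = ω),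
        F x * ((Nat.card (MulAction.stabilizer Γ x) : ℂ) / (Nat.card Γ : ℂ))
          = F ω.out * ((Nat.card (MulAction.stabilizer Γ ω.out) : ℂ) / (Nat.card Γ : ℂ)) := by
      intro x hx
      rw [Finset.mem_filter] at hx
      obtain ⟨γ, rfl⟩ := MulAction.mem_orbit_iff.mp ((hmem x).mp hx.2)
      rw [hF, MulAction.stabilizer_smul_eq_stabilizer_map_conj,
        Subgroup.card_map_of_injective (MulAut.conj γ).injective]
    rw [Finset.sum_congr rfl hterm, Finset.sum_const, nsmul_eq_mul]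
    have hcard : (Finset.univ.filter
        (fun x : X => (Quotient.mk'' x : MulAction.orbitRel.Quotient Γ X) = ω)).card
          * Nat.card (MulAction.stabilizer Γ ω.out) = Nat.card Γ := by
      have h1 := MulAction.card_orbit_mul_card_stabilizer_eq_card_group Γ ω.out
      rw [Nat.card_eq_fintype_card, Nat.card_eq_fintype_card, ← h1]
      congr 1
      rw [← Set.toFinset_card]
      congr 1
      ext x
      simp [hmem]
    have hcard' : ((Finset.univ.filter
        (fun x : X => (Quotient.mk'' x : MulAction.orbitRel.Quotient Γ X) = ω)).card : ℂ)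
          * (Nat.card (MulAction.stabilizer Γ ω.out) : ℂ) = (Nat.card Γ : ℂ) := by
      exact_mod_cast hcard
    field_simp
    linear_combination F ω.out * hcard'
  rw [Finset.sum_congr rfl (fun ω _ => key ω)]
  choose z hz using hint
  refine ⟨∑ ω : MulAction.orbitRel.Quotient Γ X, z ω.out, ?_⟩
  push_cast
  exact Finset.sum_congr rfl (fun ω _ => hz ω.out)

/-- Glauberman-type coset sum: for `x` of order prime to `|K|`, `K` normalised by `x`, `C = C_K(x)` and `F`
constant on `K`-classes, `|C| * ∑_{k ∈ K} F (x k) = |K| * ∑_{c ∈ C} F (x c)`. -/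
theorem coset_sum_coprime_of_normalizes {G : Type*} [Group G] (K C : Subgroup G) [Fintype K] [Fintype C] (x : G)
    (hxK : ∀ k ∈ K, x⁻¹ * k * x ∈ K)
    (hcop : (orderOf x).Coprime (Nat.card K)) (hCK : C ≤ K)
    (hC1 : ∀ c ∈ C, c * x = x * c) (hC2 : ∀ k ∈ K, k * x = x * k → k ∈ C)
    (F : G → ℂ) (hF : ∀ k ∈ K, ∀ g, F (k * g * k⁻¹) = F g) :
    (Nat.card C : ℂ) * ∑ k : K, F (x * k) = (Nat.card K : ℂ) * ∑ c : C, F (x * c) := by
  classical
  have hψmem : ∀ kc : K × C, x⁻¹ * (kc.1 : G) * x * (kc.2 : G) * (kc.1 : G)⁻¹ ∈ K := fun kc =>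
    K.mul_mem (K.mul_mem (hxK _ kc.1.2) (hCK kc.2.2))
      (K.inv_mem kc.1.2)
  let ψ : K × C → K := fun kc => ⟨x⁻¹ * (kc.1 : G) * x * (kc.2 : G) * (kc.1 : G)⁻¹, hψmem kc⟩
  have hψ : ∀ kc : K × C, x * (ψ kc : G) = (kc.1 : G) * (x * (kc.2 : G)) * (kc.1 : G)⁻¹ := by
    intro kc
    show x * (x⁻¹ * (kc.1 : G) * x * (kc.2 : G) * (kc.1 : G)⁻¹) = _
    group
  -- first evaluation of the sum over `K × C`
  have hS1 : ∑ kc : K × C, F (x * (ψ kc : G)) = (Nat.card K : ℂ) * ∑ c : C, F (x * c) := by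
    have : ∀ kc : K × C, F (x * (ψ kc : G)) = F (x * (kc.2 : G)) := fun kc => by
      rw [hψ kc, hF _ kc.1.2]
    rw [Fintype.sum_congr _ _ this, Fintype.sum_prod_type]
    simp [Finset.sum_const, Finset.card_univ, Nat.card_eq_fintype_card]
  -- fibres of `ψ`
  have hfib : ∀ kc kc' : K × C, ψ kc = ψ kc' →
      ∃ t : C, kc' = (kc.1 * ⟨t, hCK t.2⟩, ⟨(t : G)⁻¹ * kc.2 * t, C.mul_mem (C.mul_mem (C.inv_mem t.2) kc.2.2) t.2⟩) := by
    rintro ⟨k, c⟩ ⟨k', c'⟩ h
    have h1 : x * (ψ (k, c) : G) = x * (ψ (k', c') : G) := by rw [h]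
    rw [hψ, hψ] at h1
    simp only at h1
    have h2 : x * (c : G) = ((k : G)⁻¹ * k') * (x * (c' : G)) * ((k : G)⁻¹ * k')⁻¹ := by
      calc x * (c : G) = (k : G)⁻¹ * ((k : G) * (x * (c : G)) * (k : G)⁻¹) * k := by group
        _ = (k : G)⁻¹ * ((k' : G) * (x * (c' : G)) * (k' : G)⁻¹) * k := by rw [h1]
        _ = _ := by group
    have htx := Cfsg.Agent.Helper79.coprime_conj_aux K x hcop c c' ((k : G)⁻¹ * k') (hCK c.2) (hCK c'.2)
      (hC1 c c.2) (hC1 c' c'.2) h2
    have htK : (k : G)⁻¹ * k' ∈ K := K.mul_mem (K.inv_mem k.2) k'.2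
    have htC : (k : G)⁻¹ * k' ∈ C := hC2 _ htK htx
    refine ⟨⟨(k : G)⁻¹ * k', htC⟩, ?_⟩
    have h3 : (c' : G) = ((k : G)⁻¹ * k')⁻¹ * c * ((k : G)⁻¹ * k') := by
      have h4 : x * (c : G) = x * (((k : G)⁻¹ * k') * (c' : G) * ((k : G)⁻¹ * k')⁻¹) := by
        rw [h2, ← mul_assoc, ← mul_assoc, ← mul_assoc, htx]
      have h5 := mul_left_cancel h4
      rw [h5]; group
    refine Prod.ext ?_ ?_
    · ext; simp
    · ext; simpa using h3
  have hle : ∀ y : K, (Finset.univ.filter (fun kc : K × C => ψ kc = y)).card ≤ Fintype.card C := by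
    intro y
    by_cases hne : (Finset.univ.filter (fun kc : K × C => ψ kc = y)).Nonempty
    · obtain ⟨kc₀, hkc₀⟩ := hne
      rw [Finset.mem_filter] at hkc₀
      have hsub : Finset.univ.filter (fun kc : K × C => ψ kc = y) ⊆
          (Finset.univ : Finset C).image (fun t : C => ((kc₀.1 * ⟨t, hCK t.2⟩,
            ⟨(t : G)⁻¹ * kc₀.2 * t, C.mul_mem (C.mul_mem (C.inv_mem t.2) kc₀.2.2) t.2⟩) : K × C)) := by
        intro kc hkc
        rw [Finset.mem_filter] at hkc
        obtain ⟨t, ht⟩ := hfib kc₀ kc (hkc₀.2.trans hkc.2.symm)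
        exact Finset.mem_image.mpr ⟨t, Finset.mem_univ _, ht.symm⟩
      calc _ ≤ _ := Finset.card_le_card hsub
        _ ≤ (Finset.univ : Finset C).card := Finset.card_image_le
        _ = Fintype.card C := Finset.card_univ
    · rw [Finset.not_nonempty_iff_eq_empty.mp hne]; simp
  have hsum : ∑ y : K, (Finset.univ.filter (fun kc : K × C => ψ kc = y)).card
      = ∑ _y : K, Fintype.card C := by
    rw [← Finset.card_eq_sum_card_fiberwise (f := ψ) (s := Finset.univ) (t := Finset.univ)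
      (fun _ _ => Finset.mem_coe.mpr (Finset.mem_univ _))]
    simp [Finset.card_univ, Fintype.card_prod]
  have heq : ∀ y : K, (Finset.univ.filter (fun kc : K × C => ψ kc = y)).card = Fintype.card C :=
    fun y => (Finset.sum_eq_sum_iff_of_le (fun y _ => hle y)).mp hsum y (Finset.mem_univ _)
  -- second evaluation
  have hS2 : ∑ kc : K × C, F (x * (ψ kc : G)) = (Nat.card C : ℂ) * ∑ k : K, F (x * k) := by
    rw [← Finset.sum_fiberwise (s := Finset.univ) (g := ψ) (f := fun kc => F (x * (ψ kc : G))),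
      Finset.mul_sum]
    refine Finset.sum_congr rfl (fun y _ => ?_)
    rw [Finset.sum_congr rfl (g := fun _ => F (x * (y : G)))
      (fun kc hkc => by rw [(Finset.mem_filter.mp hkc).2]), Finset.sum_const, heq y,
      Nat.card_eq_fintype_card, nsmul_eq_mul]
  rw [← hS2, hS1]

/-- Projection of an internal semidirect product `N ⊔ K` (`N` normalising `K`, `N ⊓ K = ⊥`)
onto `N`. -/
theorem exists_semidirect_proj {G : Type*} [Group G] (N K : Subgroup G)
    (hN : N ≤ Subgroup.normalizer (K : Set G)) (hdisj : N ⊓ K = ⊥) :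
    ∃ φ : ↥(N ⊔ K) →* ↥N, ∀ (y : N) (k : K) (h : (y : G) * (k : G) ∈ N ⊔ K),
      φ ⟨(y : G) * k, h⟩ = y := by
  obtain ⟨e, he⟩ := Cfsg.Agent.Helper79.exists_equiv_sup N K hN hdisj
  have hkey : ∀ (y : N) (k : K) (h : (y : G) * (k : G) ∈ N ⊔ K),
      e.symm ⟨(y : G) * k, h⟩ = (y, k) := by
    intro y k h
    rw [Equiv.symm_apply_eq]
    exact Subtype.ext (he (y, k)).symm
  have hmul : ∀ m m' : ↥(N ⊔ K), (e.symm (m * m')).1 = (e.symm m).1 * (e.symm m').1 := by
    intro m m'
    obtain ⟨⟨y, k⟩, rfl⟩ := e.surjective m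
    obtain ⟨⟨y', k'⟩, rfl⟩ := e.surjective m'
    rw [Equiv.symm_apply_apply, Equiv.symm_apply_apply]
    have hk1 : (y' : G)⁻¹ * (k : G) * (y' : G) ∈ K := by
      have h1 : (y' : G)⁻¹ ∈ Subgroup.normalizer (K : Set G) := hN (N.inv_mem y'.2)
      have h2 := (Subgroup.mem_normalizer_iff.mp h1 (k : G)).mp k.2
      simpa using h2
    have hprod : e (y, k) * e (y', k')
        = e (y * y', ⟨(y' : G)⁻¹ * (k : G) * (y' : G), hk1⟩ * k') := by
      apply Subtype.ext
      rw [Subgroup.coe_mul, he, he, he]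
      simp only [Subgroup.coe_mul]
      group
    rw [hprod, Equiv.symm_apply_apply]
  refine ⟨MonoidHom.mk' (fun m => (e.symm m).1) hmul, ?_⟩
  intro y k h
  show (e.symm ⟨(y : G) * k, h⟩).1 = y
  rw [hkey]

/-- The inner product of a generalized character with a character is an integer. -/
theorem classInner_genChar_char_int {G : Type*} [Group G] [Fintype G] {θ ψ : G → ℂ}
    (hθ : Cfsg.IsGeneralizedCharacter G θ) (hψ : Cfsg.IsCharacter G ψ) :
    ∃ z : ℤ, Cfsg.classInner θ ψ = z := by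
  obtain ⟨χ₁, χ₂, h₁, h₂, rfl⟩ := hθ
  obtain ⟨n₁, hn₁⟩ := classInner_isCharacter_nat h₁ hψ
  obtain ⟨n₂, hn₂⟩ := classInner_isCharacter_nat h₂ hψ
  refine ⟨(n₁ : ℤ) - n₂, ?_⟩
  have : Cfsg.classInner (χ₁ - χ₂) ψ = Cfsg.classInner χ₁ ψ - Cfsg.classInner χ₂ ψ := by
    unfold Cfsg.classInner
    rw [← mul_sub, ← Finset.sum_sub_distrib]
    congr 1
    refine Finset.sum_congr rfl (fun g _ => ?_)
    simp only [Pi.sub_apply]
    ring
  rw [this, hn₁, hn₂]
  push_cast
  ring

/-- A class function whose inner products with all irreducible characters are integers is a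
generalized character. -/
theorem isGeneralizedCharacter_of_classInner_int {G : Type*} [Group G] [Fintype G] (θ : G → ℂ)
    (hθ : Cfsg.IsClassFunction G θ)
    (h : ∀ χ : Cfsg.IrrCharacter G, ∃ z : ℤ, Cfsg.classInner θ χ = (z : ℂ)) :
    Cfsg.IsGeneralizedCharacter G θ := by
  classical
  have : Fintype (Cfsg.IrrCharacter G) := Fintype.ofFinite _
  choose z hz using h
  refine ⟨∑ χ : Cfsg.IrrCharacter G, (z χ).toNat • (χ : G → ℂ),
    ∑ χ : Cfsg.IrrCharacter G, (-z χ).toNat • (χ : G → ℂ), ?_, ?_, ?_⟩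
  · exact Cfsg.Agent.Helper79.isCharacter_sum _ _ (fun χ _ =>
      Cfsg.Agent.Helper79.isCharacter_nsmul (Cfsg.Agent.Helper79.irr_isCharacter χ) _)
  · exact Cfsg.Agent.Helper79.isCharacter_sum _ _ (fun χ _ =>
      Cfsg.Agent.Helper79.isCharacter_nsmul (Cfsg.Agent.Helper79.irr_isCharacter χ) _)
  · conv_lhs => rw [classFunction_eq_sum θ hθ]
    rw [← Finset.sum_sub_distrib]
    refine Finset.sum_congr rfl (fun χ _ => ?_)
    have h1 : ((z χ : ℤ) : ℂ) = (((z χ).toNat : ℕ) : ℂ) - (((-z χ).toNat : ℕ) : ℂ) := by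
      have h2 : (z χ : ℤ) = ((z χ).toNat : ℤ) - ((-z χ).toNat : ℤ) := by omega
      exact_mod_cast congrArg (fun t : ℤ => (t : ℂ)) h2
    rw [hz χ, h1, sub_smul, Nat.cast_smul_eq_nsmul, Nat.cast_smul_eq_nsmul]

end Cfsg.Agent.Helper3
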