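import Mathlib
import Cfsg.Prelude.Def_Characters
import Cfsg.Prelude.Def_OddOrderChar
import Cfsg.Agent.Helper25.Dade
import Cfsg.Agent.Helper25.DadeCount
import Cfsg.Agent.Helper3.DadeZ1

/-!
# The Dade map and subsets of `A` (helper3)

For a finset `B ⊆ A` we put `dzH H B = ⋂_{b ∈ B} H b` and
`dzG H χ y B = |dzH H B|⁻¹ ∑_{k ∈ dzH H B} χ (y k)`.  The main result is the inclusion-exclusion
formula `dz_incl_excl`:
`∑_{B ⊆ A nonempty, a-stable} (-1)^(|B|+1) dzG H χ a B = dzG H χ a {a}` for `a ∈ A`.
-/

set_option autoImplicit false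
set_option linter.unusedSectionVars false

namespace Cfsg.Agent.Helper3

open Classical
open Cfsg

noncomputable section

variable {G : Type*} [Group G]

/-- Conjugation of a finset by an element. -/
def dzConj (x : G) (B : Finset G) : Finset G := B.image (fun b => x * b * x⁻¹)

theorem mem_dzConj {x g : G} {B : Finset G} : g ∈ dzConj x B ↔ x⁻¹ * g * x ∈ B := by
  unfold dzConj
  rw [Finset.mem_image]
  constructor
  · rintro ⟨b, hb, rfl⟩
    have : x⁻¹ * (x * b * x⁻¹) * x = b := by group
    rw [this]; exact hb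
  · intro h
    exact ⟨x⁻¹ * g * x, h, by group⟩

theorem dzConj_one (B : Finset G) : dzConj (1 : G) B = B := by
  ext g; rw [mem_dzConj]; simp

theorem dzConj_mul (x y : G) (B : Finset G) : dzConj (x * y) B = dzConj x (dzConj y B) := by
  ext g
  rw [mem_dzConj, mem_dzConj, mem_dzConj]
  have : (x * y)⁻¹ * g * (x * y) = y⁻¹ * (x⁻¹ * g * x) * y := by group
  rw [this]

theorem card_dzConj (x : G) (B : Finset G) : (dzConj x B).card = B.card := by
  unfold dzConj
  apply Finset.card_image_of_injective
  intro b b' h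
  simpa using h

theorem dzConj_inv_cancel (x : G) (B : Finset G) : dzConj x⁻¹ (dzConj x B) = B := by
  rw [← dzConj_mul, inv_mul_cancel, dzConj_one]

theorem dzConj_cancel_inv (x : G) (B : Finset G) : dzConj x (dzConj x⁻¹ B) = B := by
  rw [← dzConj_mul, mul_inv_cancel, dzConj_one]

theorem dzConj_injective (x : G) : Function.Injective (dzConj x) := by
  intro B B' h
  rw [← dzConj_inv_cancel x B, h, dzConj_inv_cancel]

/-- The conjugation action of a subgroup on the finsets of the group. -/
@[reducible] def dzAct (L : Subgroup G) : MulAction ↥L (Finset G) where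
  smul x B := dzConj (x : G) B
  one_smul B := dzConj_one B
  mul_smul x y B := dzConj_mul (x : G) (y : G) B

/-- `B` is a nonempty subset of `A`. -/
def dzOk (A : Set G) (B : Finset G) : Prop := B.Nonempty ∧ ∀ b ∈ B, b ∈ A

/-- The intersection of the `H b`, `b ∈ B`. -/
def dzH (H : G → Subgroup G) (B : Finset G) : Subgroup G := ⨅ b ∈ B, H b

theorem mem_dzH {H : G → Subgroup G} {B : Finset G} {k : G} :
    k ∈ dzH H B ↔ ∀ b ∈ B, k ∈ H b := by
  unfold dzH
  simp [Subgroup.mem_iInf]

theorem dzH_singleton (H : G → Subgroup G) (a : G) : dzH H {a} = H a := by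
  ext k; rw [mem_dzH]; simp

theorem dzH_insert (H : G → Subgroup G) (a : G) (B : Finset G) :
    dzH H (insert a B) = H a ⊓ dzH H B := by
  ext k
  rw [Subgroup.mem_inf, mem_dzH, mem_dzH]
  simp

variable {A : Set G} {L : Subgroup G} {H : G → Subgroup G}

theorem dzOk_conj (hD : DadeHypothesis A L H) {x : G} (hx : x ∈ L) {B : Finset G}
    (hB : dzOk A B) : dzOk A (dzConj x B) := by
  refine ⟨?_, ?_⟩
  · obtain ⟨b, hb⟩ := hB.1
    exact ⟨x * b * x⁻¹, Finset.mem_image_of_mem _ hb⟩
  · intro g hg
    rw [mem_dzConj] at hg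
    have := hD.conj_mem x hx _ (hB.2 _ hg)
    have e : x * (x⁻¹ * g * x) * x⁻¹ = g := by group
    rwa [e] at this

theorem dzOk_conj_iff (hD : DadeHypothesis A L H) {x : G} (hx : x ∈ L) {B : Finset G} :
    dzOk A (dzConj x B) ↔ dzOk A B := by
  constructor
  · intro h
    have := dzOk_conj hD (L.inv_mem hx) h
    rwa [dzConj_inv_cancel] at this
  · exact dzOk_conj hD hx

variable [Finite G]

theorem dz_conj_mem_dzH (hD : DadeHypothesis A L H) {x : G} (hx : x ∈ L) {B : Finset G}
    (hB : ∀ b ∈ B, b ∈ A) {k : G} (hk : k ∈ dzH H B) : x * k * x⁻¹ ∈ dzH H (dzConj x B) := by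
  rw [mem_dzH] at hk ⊢
  intro g hg
  rw [mem_dzConj] at hg
  have h1 := Cfsg.Agent.Helper25.dade_conj_mem_H hD (hB _ hg) hx (hk _ hg)
  have e : x * (x⁻¹ * g * x) * x⁻¹ = g := by group
  rwa [e] at h1

theorem dz_conj_mem_dzH_iff (hD : DadeHypothesis A L H) {x : G} (hx : x ∈ L) {B : Finset G}
    (hB : ∀ b ∈ B, b ∈ A) {k : G} : x * k * x⁻¹ ∈ dzH H (dzConj x B) ↔ k ∈ dzH H B := by
  constructor
  · intro h
    have hB' : ∀ b ∈ dzConj x B, b ∈ A := by
      intro g hg
      rw [mem_dzConj] at hg
      have := hD.conj_mem x hx _ (hB _ hg)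
      have e : x * (x⁻¹ * g * x) * x⁻¹ = g := by group
      rwa [e] at this
    have := dz_conj_mem_dzH hD (L.inv_mem hx) hB' h
    rw [dzConj_inv_cancel] at this
    have e : x⁻¹ * (x * k * x⁻¹) * x⁻¹⁻¹ = k := by group
    rwa [e] at this
  · exact dz_conj_mem_dzH hD hx hB

/-- An element of some `H b` centralising `a ∈ A` lies in `H a`. -/
theorem dz_mem_H_of_comm (hD : DadeHypothesis A L H) {a b k : G} (ha : a ∈ A) (hb : b ∈ A)
    (hk : k ∈ H b) (hc : k * a = a * k) : k ∈ H a := by
  have hm : k ∈ Subgroup.centralizer ({a} : Set G) := by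
    rw [Subgroup.mem_centralizer_iff]
    intro y hy
    rw [Set.mem_singleton_iff] at hy
    subst hy
    exact hc.symm
  rw [← hD.sup_eq a ha] at hm
  have hnorm : ∀ c ∈ L ⊓ Subgroup.centralizer ({a} : Set G), ∀ n ∈ H a, c * n * c⁻¹ ∈ H a :=
    fun c hc n hn => hD.conj_mem_H a ha c hc.2 n hn
  obtain ⟨n, hn, c, hc', hmc⟩ := Cfsg.Agent.Helper25.exists_mul_of_mem_sup_of_normalizes hnorm hm
  have hpow : ∀ j : ℕ, ∃ n' ∈ H a, (n * c) ^ j = n' * c ^ j := by
    intro j
    induction j with
    | zero => exact ⟨1, (H a).one_mem, by simp⟩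
    | succ j ih =>
      obtain ⟨n', hn', e⟩ := ih
      refine ⟨n' * (c ^ j * n * (c ^ j)⁻¹),
        (H a).mul_mem hn' (hnorm _ (Subgroup.pow_mem _ hc' j) n hn), ?_⟩
      rw [pow_succ, e, pow_succ]; group
  obtain ⟨n', hn', e⟩ := hpow (orderOf k)
  rw [← hmc, pow_orderOf_eq_one] at e
  have hck : c ^ orderOf k ∈ H a ⊓ (L ⊓ Subgroup.centralizer ({a} : Set G)) := by
    have : c ^ orderOf k = n'⁻¹ := by
      rw [eq_inv_iff_mul_eq_one]
      have h4 : n' * c ^ orderOf k = 1 := e.symm
      calc c ^ orderOf k * n' = n'⁻¹ * (n' * c ^ orderOf k) * n' := by group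
        _ = 1 := by rw [h4]; group
    exact ⟨this ▸ (H a).inv_mem hn', Subgroup.pow_mem _ hc' _⟩
  rw [hD.inf_eq_bot a ha, Subgroup.mem_bot] at hck
  have d1 : orderOf c ∣ Nat.card (H b) :=
    (orderOf_dvd_of_pow_eq_one hck).trans (Subgroup.orderOf_dvd_natCard _ hk)
  have d2 : orderOf c ∣ Nat.card ↥(L ⊓ Subgroup.centralizer ({a} : Set G)) :=
    Subgroup.orderOf_dvd_natCard _ hc'
  have hc1 : orderOf c = 1 := Nat.eq_one_of_dvd_coprimes (hD.coprime b hb a ha) d1 d2
  rw [orderOf_eq_one_iff] at hc1
  rw [hmc, hc1, mul_one]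
  exact hn

/-- `dzH H B` meets `L` trivially. -/
theorem dzH_inf_eq_bot (hD : DadeHypothesis A L H) {B : Finset G} (hB : dzOk A B) :
    L ⊓ dzH H B = ⊥ := by
  obtain ⟨b, hb⟩ := hB.1
  rw [eq_bot_iff]
  intro k hk
  have hkb : k ∈ H b := (mem_dzH.mp hk.2) b hb
  have h1 : k ∈ H b ⊓ (L ⊓ Subgroup.centralizer ({b} : Set G)) :=
    ⟨hkb, hk.1, hD.le_centralizer b (hB.2 b hb) hkb⟩
  rw [hD.inf_eq_bot b (hB.2 b hb)] at h1
  exact h1


section Avg

variable {G : Type*} [Group G] [Fintype G] {A : Set G} {L : Subgroup G} {H : G → Subgroup G}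

/-- The average of `χ` over the coset `y * dzH H B`. -/
def dzG (H : G → Subgroup G) (χ : G → ℂ) (y : G) (B : Finset G) : ℂ :=
  (Nat.card (dzH H B) : ℂ)⁻¹ * ∑ k ∈ Finset.univ.filter (fun k : G => k ∈ dzH H B), χ (y * k)

theorem dzG_singleton (H : G → Subgroup G) (χ : G → ℂ) (a : G) :
    dzG H χ a {a} = (Nat.card (H a) : ℂ)⁻¹ *
      ∑ k ∈ Finset.univ.filter (fun k : G => k ∈ H a), χ (a * k) := by
  unfold dzG
  rw [dzH_singleton]

theorem dzConj_inv_eq_of_eq {a : G} {B : Finset G} (hst : dzConj a B = B) : dzConj a⁻¹ B = B := by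
  conv_lhs => rw [← hst]
  exact dzConj_inv_cancel a B

/-- Conjugation invariance of the averages. -/
theorem dzG_conj (hD : DadeHypothesis A L H) {χ : G → ℂ} (hχ : IsClassFunction G χ) {x : G}
    (hx : x ∈ L) {B : Finset G} (hB : ∀ b ∈ B, b ∈ A) (y : G) :
    dzG H χ (x * y * x⁻¹) (dzConj x B) = dzG H χ y B := by
  unfold dzG
  have hcard : Nat.card (dzH H (dzConj x B)) = Nat.card (dzH H B) := by
    rw [← Cfsg.Agent.Helper25.card_filter_mem_subgroup,
      ← Cfsg.Agent.Helper25.card_filter_mem_subgroup]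
    refine Finset.card_nbij' (fun k => x⁻¹ * k * x) (fun k => x * k * x⁻¹) ?_ ?_ ?_ ?_
    · intro k hk
      simp only [Finset.coe_filter, Finset.mem_univ, true_and, Set.mem_ofPred_eq] at hk ⊢
      rw [← dz_conj_mem_dzH_iff hD hx hB]
      have e : x * (x⁻¹ * k * x) * x⁻¹ = k := by group
      rwa [e]
    · intro k hk
      simp only [Finset.coe_filter, Finset.mem_univ, true_and, Set.mem_ofPred_eq] at hk ⊢
      exact dz_conj_mem_dzH hD hx hB hk
    · intro k _; group
    · intro k _; group
  rw [hcard]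
  congr 1
  refine Finset.sum_nbij' (fun k => x⁻¹ * k * x) (fun k => x * k * x⁻¹) ?_ ?_ ?_ ?_ ?_
  · intro k hk
    simp only [Finset.mem_filter, Finset.mem_univ, true_and] at hk ⊢
    rw [← dz_conj_mem_dzH_iff hD hx hB]
    have e : x * (x⁻¹ * k * x) * x⁻¹ = k := by group
    rwa [e]
  · intro k hk
    simp only [Finset.mem_filter, Finset.mem_univ, true_and] at hk ⊢
    exact dz_conj_mem_dzH hD hx hB hk
  · intro k _; group
  · intro k _; group
  · intro k _
    have e : x * y * x⁻¹ * k = x * (y * (x⁻¹ * k * x)) * x⁻¹ := by group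
    rw [e, hχ]

/-- The key equation: adding `a` to an `a`-stable set `B` does not change the average over the
coset `a * dzH H B`. -/
theorem dzG_insert (hD : DadeHypothesis A L H) {χ : G → ℂ} (hχ : IsClassFunction G χ) {a : G}
    (ha : a ∈ A) {B : Finset G} (hB : dzOk A B) (hst : dzConj a B = B) :
    dzG H χ a (insert a B) = dzG H χ a B := by
  have haL : a ∈ L := hD.subset ha
  obtain ⟨b, hb⟩ := hB.1
  have hxK : ∀ k ∈ dzH H B, a⁻¹ * k * a ∈ dzH H B := by
    intro k hk
    have h1 := dz_conj_mem_dzH hD (L.inv_mem haL) hB.2 hk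
    rw [dzConj_inv_eq_of_eq hst, inv_inv] at h1
    exact h1
  have hKb : dzH H B ≤ H b := fun k hk => mem_dzH.mp hk b hb
  have hcop : (orderOf a).Coprime (Nat.card (dzH H B)) := by
    have h1 : orderOf a ∣ Nat.card ↥(L ⊓ Subgroup.centralizer ({a} : Set G)) :=
      Subgroup.orderOf_dvd_natCard _ (Cfsg.Agent.Helper25.dade_mem_inf hD ha)
    have h2 : Nat.card (dzH H B) ∣ Nat.card (H b) := Subgroup.card_dvd_of_le hKb
    exact Nat.Coprime.coprime_dvd_left h1
      (Nat.Coprime.coprime_dvd_right h2 (hD.coprime b (hB.2 b hb) a ha).symm)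
  have hCK : dzH H (insert a B) ≤ dzH H B := by
    rw [dzH_insert]; exact inf_le_right
  have hC1 : ∀ c ∈ dzH H (insert a B), c * a = a * c := by
    intro c hc
    rw [dzH_insert] at hc
    exact (Cfsg.Agent.Helper25.dade_commute hD ha hc.1).eq.symm
  have hC2 : ∀ k ∈ dzH H B, k * a = a * k → k ∈ dzH H (insert a B) := by
    intro k hk hka
    rw [dzH_insert]
    exact ⟨dz_mem_H_of_comm hD ha (hB.2 b hb) (hKb hk) hka, hk⟩
  have key := coset_sum_coprime_of_normalizes (dzH H B) (dzH H (insert a B)) a hxK hcop hCK hC1 hC2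
    χ (fun k _ g => hχ g k)
  have s1 : ∑ k : ↥(dzH H B), χ (a * k)
      = ∑ k ∈ Finset.univ.filter (fun k : G => k ∈ dzH H B), χ (a * k) :=
    (Finset.sum_subtype (Finset.univ.filter (fun k : G => k ∈ dzH H B)) (by simp)
      (fun k => χ (a * k))).symm
  have s2 : ∑ k : ↥(dzH H (insert a B)), χ (a * k)
      = ∑ k ∈ Finset.univ.filter (fun k : G => k ∈ dzH H (insert a B)), χ (a * k) :=
    (Finset.sum_subtype (Finset.univ.filter (fun k : G => k ∈ dzH H (insert a B))) (by simp)
      (fun k => χ (a * k))).symm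
  rw [s1, s2] at key
  have hK0 : (Nat.card (dzH H B) : ℂ) ≠ 0 := by exact_mod_cast Nat.card_pos.ne'
  have hC0 : (Nat.card (dzH H (insert a B)) : ℂ) ≠ 0 := by exact_mod_cast Nat.card_pos.ne'
  unfold dzG
  field_simp
  linear_combination -key

theorem dzConj_erase_self {a : G} {B : Finset G} (hst : dzConj a B = B) :
    dzConj a (B.erase a) = B.erase a := by
  ext g
  rw [mem_dzConj, Finset.mem_erase, Finset.mem_erase, ← mem_dzConj, hst]
  constructor
  · rintro ⟨h1, h2⟩
    refine ⟨fun h => h1 ?_, h2⟩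
    rw [h]; group
  · rintro ⟨h1, h2⟩
    refine ⟨fun h => h1 ?_, h2⟩
    have : g = a * (a⁻¹ * g * a) * a⁻¹ := by group
    rw [this, h]; group

theorem dzConj_insert_self {a : G} {B : Finset G} (hst : dzConj a B = B) :
    dzConj a (insert a B) = insert a B := by
  ext g
  rw [mem_dzConj, Finset.mem_insert, Finset.mem_insert, ← mem_dzConj, hst]
  constructor
  · rintro (h | h)
    · left
      have : g = a * (a⁻¹ * g * a) * a⁻¹ := by group
      rw [this, h]; group
    · right; exact h
  · rintro (h | h)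
    · left; rw [h]; group
    · right; exact h

/-- Inclusion-exclusion over the `a`-stable nonempty subsets of `A`. -/
theorem dz_incl_excl (hD : DadeHypothesis A L H) {χ : G → ℂ} (hχ : IsClassFunction G χ) {a : G}
    (ha : a ∈ A) :
    ∑ B ∈ Finset.univ.filter (fun B : Finset G => dzOk A B ∧ dzConj a B = B),
      (-1 : ℂ) ^ (B.card + 1) * dzG H χ a B = dzG H χ a {a} := by
  set S : Finset (Finset G) :=
    Finset.univ.filter (fun B : Finset G => dzOk A B ∧ dzConj a B = B) with hS
  have hmemS : ∀ B : Finset G, B ∈ S ↔ dzOk A B ∧ dzConj a B = B := by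
    intro B; rw [hS]; simp
  have haS : ({a} : Finset G) ∈ S := by
    rw [hmemS]
    refine ⟨⟨Finset.singleton_nonempty a, ?_⟩, ?_⟩
    · intro b hb
      rw [Finset.mem_singleton] at hb
      rw [hb]; exact ha
    · ext g
      rw [mem_dzConj, Finset.mem_singleton, Finset.mem_singleton]
      constructor
      · intro h
        have : g = a * (a⁻¹ * g * a) * a⁻¹ := by group
        rw [this, h]; group
      · intro h; rw [h]; group
  rw [← Finset.add_sum_erase S _ haS]
  have hzero : ∑ B ∈ S.erase {a}, (-1 : ℂ) ^ (B.card + 1) * dzG H χ a B = 0 := by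
    refine Finset.sum_involution
      (fun B _ => if a ∈ B then B.erase a else insert a B) ?_ ?_ ?_ ?_
    · intro B hB
      rw [Finset.mem_erase, hmemS] at hB
      obtain ⟨hne, hok, hst⟩ := hB
      by_cases haB : a ∈ B
      · rw [if_pos haB]
        have hne' : (B.erase a).Nonempty := by
          by_contra hcon
          rw [Finset.not_nonempty_iff_eq_empty, Finset.erase_eq_empty_iff] at hcon
          rcases hcon with h | h
          · rw [h] at haB; exact absurd haB (Finset.notMem_empty a)
          · exact hne h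
        have hok' : dzOk A (B.erase a) := ⟨hne', fun b hb => hok.2 b (Finset.mem_of_mem_erase hb)⟩
        have h1 := dzG_insert hD hχ ha hok' (dzConj_erase_self hst)
        rw [Finset.insert_erase haB] at h1
        have hc : B.card = (B.erase a).card + 1 := by
          rw [Finset.card_erase_of_mem haB]
          have : 0 < B.card := Finset.card_pos.mpr hok.1
          omega
        rw [h1, hc]
        ring
      · rw [if_neg haB]
        have h1 := dzG_insert hD hχ ha hok hst
        rw [h1, Finset.card_insert_of_notMem haB]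
        ring
    · intro B hB _
      by_cases haB : a ∈ B
      · rw [if_pos haB]
        intro h
        rw [← h] at haB
        exact Finset.notMem_erase a B haB
      · rw [if_neg haB]
        intro h
        rw [← h] at haB
        exact haB (Finset.mem_insert_self a B)
    · intro B hB
      rw [Finset.mem_erase, hmemS] at hB ⊢
      obtain ⟨hne, hok, hst⟩ := hB
      by_cases haB : a ∈ B
      · rw [if_pos haB]
        have hne' : (B.erase a).Nonempty := by
          by_contra hcon
          rw [Finset.not_nonempty_iff_eq_empty, Finset.erase_eq_empty_iff] at hcon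
          rcases hcon with h | h
          · rw [h] at haB; exact absurd haB (Finset.notMem_empty a)
          · exact hne h
        refine ⟨?_, ⟨hne', fun b hb => hok.2 b (Finset.mem_of_mem_erase hb)⟩,
          dzConj_erase_self hst⟩
        intro h
        have : a ∈ B.erase a := by rw [h]; exact Finset.mem_singleton_self a
        exact Finset.notMem_erase a B this
      · rw [if_neg haB]
        refine ⟨?_, ⟨Finset.insert_nonempty a B, ?_⟩, dzConj_insert_self hst⟩
        · intro h
          obtain ⟨b, hb⟩ := hok.1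
          have hb' : b ∈ insert a B := Finset.mem_insert_of_mem hb
          rw [h, Finset.mem_singleton] at hb'
          rw [hb'] at hb
          exact haB hb
        · intro b hb
          rw [Finset.mem_insert] at hb
          rcases hb with h | h
          · rw [h]; exact ha
          · exact hok.2 b h
    · intro B hB
      by_cases haB : a ∈ B
      · simp only [if_pos haB, Finset.notMem_erase, if_false]
        exact Finset.insert_erase haB
      · simp only [if_neg haB, Finset.mem_insert_self, if_true]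
        exact Finset.erase_insert haB
  rw [hzero, add_zero, Finset.card_singleton]
  norm_num

end Avg

end

end Cfsg.Agent.Helper3
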