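import Mathlib
import Cfsg.Prelude.Def_Characters
import Cfsg.Prelude.Def_OddOrderChar
import Cfsg.Agent.Helper3.DadeZ2
import Cfsg.Agent.S1500

/-!
# The Dade map sends generalized characters to generalized characters (helper3)

`dade_isGeneralizedCharacter`: under the Dade hypothesis for `(A, L, H)`, if `α` is a generalized
character of `L` vanishing off `A`, then `dadeIsometry A L H α` is a generalized character of `G`
(Peterfalvi (2.7)).  The proof computes `⟨α^τ, χ⟩ = ⟨α, ψ⟩_L` with `ψ = dzPsi` an alternating sum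
over the nonempty subsets `B` of `A`, and shows integrality orbit by orbit.
-/

set_option autoImplicit false
set_option linter.unusedSectionVars false
set_option linter.style.haveILetI false

namespace Cfsg.Agent.Helper3

open Classical
open Cfsg
open scoped ComplexConjugate

noncomputable section

variable {G : Type*} [Group G] [Fintype G] {A : Set G} {L : Subgroup G} [Fintype L]
  {H : G → Subgroup G}

attribute [local instance] dzAct

/-- The function on `L` whose inner product with `α` computes `⟨α^τ, χ⟩`. -/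
def dzPsi (A : Set G) (L : Subgroup G) (H : G → Subgroup G) (χ : G → ℂ) : ↥L → ℂ :=
  fun y => ∑ B ∈ Finset.univ.filter (fun B : Finset G => dzOk A B ∧ dzConj (y : G) B = B),
    (-1 : ℂ) ^ (B.card + 1) * dzG H χ y B

theorem dzPsi_apply_of_mem (hD : DadeHypothesis A L H) {χ : G → ℂ} (hχ : IsClassFunction G χ)
    (a : L) (ha : (a : G) ∈ A) :
    dzPsi A L H χ a = (Nat.card (H a) : ℂ)⁻¹ * ∑ᶠ u ∈ (H a : Set G), χ (a * u) := by
  unfold dzPsi
  rw [dz_incl_excl hD hχ ha, dzG_singleton, Cfsg.Agent.Helper25.finsum_mem_eq_sum_univ_filter]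
  rfl

/-- The sum attached to a subset `B`. -/
def dzT (L : Subgroup G) [Fintype L] (H : G → Subgroup G) (α : L → ℂ) (χ : G → ℂ)
    (B : Finset G) : ℂ :=
  ∑ y : L, if dzConj (y : G) B = B then α y * conj (dzG H χ y B) else 0

theorem classInner_dzPsi (α : L → ℂ) (χ : G → ℂ) :
    classInner α (dzPsi A L H χ)
      = (Nat.card L : ℂ)⁻¹ * ∑ B : Finset G,
          if dzOk A B then (-1 : ℂ) ^ (B.card + 1) * dzT L H α χ B else 0 := by
  unfold classInner dzPsi dzT
  congr 1
  have h1 : ∀ y : L, α y * conj (∑ B ∈ Finset.univ.filter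
        (fun B : Finset G => dzOk A B ∧ dzConj (y : G) B = B),
        (-1 : ℂ) ^ (B.card + 1) * dzG H χ y B)
      = ∑ B : Finset G, if dzOk A B then
          (if dzConj (y : G) B = B then (-1 : ℂ) ^ (B.card + 1) * (α y * conj (dzG H χ y B))
            else 0) else 0 := by
    intro y
    rw [map_sum, Finset.mul_sum, Finset.sum_filter]
    refine Finset.sum_congr rfl (fun B _ => ?_)
    by_cases h1 : dzOk A B
    · by_cases h2 : dzConj (y : G) B = B
      · rw [if_pos ⟨h1, h2⟩, if_pos h1, if_pos h2]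
        simp only [map_mul, map_pow, map_neg, map_one]
        ring
      · rw [if_neg (fun h => h2 h.2), if_pos h1, if_neg h2]
    · rw [if_neg (fun h => h1 h.1), if_neg h1]
  rw [Finset.sum_congr rfl (fun y _ => h1 y), Finset.sum_comm]
  refine Finset.sum_congr rfl (fun B _ => ?_)
  by_cases h1 : dzOk A B
  · simp only [if_pos h1]
    rw [Finset.mul_sum]
    refine Finset.sum_congr rfl (fun y _ => ?_)
    by_cases h2 : dzConj (y : G) B = B
    · rw [if_pos h2, if_pos h2]
    · rw [if_neg h2, if_neg h2, mul_zero]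
  · simp only [if_neg h1]
    exact Finset.sum_const_zero

/-- Conjugation invariance of `dzT`. -/
theorem dzT_conj (hD : DadeHypothesis A L H) {α : L → ℂ} (hα : IsClassFunction L α) {χ : G → ℂ}
    (hχ : IsClassFunction G χ) (x : L) {B : Finset G} (hB : ∀ b ∈ B, b ∈ A) :
    dzT L H α χ (dzConj (x : G) B) = dzT L H α χ B := by
  unfold dzT
  rw [← Equiv.sum_comp (MulAut.conj x).toEquiv]
  refine Finset.sum_congr rfl (fun y _ => ?_)
  have hcoe : (((MulAut.conj x).toEquiv y : L) : G) = (x : G) * (y : G) * (x : G)⁻¹ := by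
    simp [MulAut.conj_apply]
  have hval : (MulAut.conj x).toEquiv y = x * y * x⁻¹ := by
    simp [MulAut.conj_apply]
  have hcond : dzConj (((MulAut.conj x).toEquiv y : L) : G) (dzConj (x : G) B) = dzConj (x : G) B
      ↔ dzConj (y : G) B = B := by
    rw [hcoe, ← dzConj_mul]
    have e : (x : G) * (y : G) * (x : G)⁻¹ * (x : G) = (x : G) * (y : G) := by group
    rw [e, dzConj_mul]
    exact (dzConj_injective (x : G)).eq_iff
  by_cases h : dzConj (y : G) B = B
  · rw [if_pos (hcond.mpr h), if_pos h, hcoe, dzG_conj hD hχ x.2 hB, hval, hα]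
  · rw [if_neg (fun h' => h (hcond.mp h')), if_neg h]

/-- Integrality: for a nonempty `B ⊆ A`, `dzT` is an integer multiple of the order of the
stabilizer of `B` in `L`. -/
theorem dzT_int (hD : DadeHypothesis A L H) {α : L → ℂ} (hα : IsGeneralizedCharacter L α)
    {χ : G → ℂ} (hχ : IsCharacter G χ) {B : Finset G} (hB : dzOk A B) :
    ∃ z : ℤ, dzT L H α χ B = z * (Nat.card (MulAction.stabilizer ↥L B) : ℂ) := by
  have hχcl : IsClassFunction G χ := Cfsg.Agent.Helper79.isCharacter_isClassFunction hχ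
  set N₀ : Subgroup ↥L := MulAction.stabilizer ↥L B with hN₀
  set N : Subgroup G := N₀.map L.subtype with hNdef
  set K : Subgroup G := dzH H B with hKdef
  have hNL : N ≤ L := Subgroup.map_subtype_le N₀
  have hmemN : ∀ y : G, y ∈ N → dzConj y B = B := by
    intro y hy
    obtain ⟨y₀, hy₀, rfl⟩ := Subgroup.mem_map.mp hy
    exact MulAction.mem_stabilizer_iff.mp hy₀
  have hN : N ≤ Subgroup.normalizer (K : Set G) := by
    intro y hy
    rw [Subgroup.mem_normalizer_iff]
    intro k
    have h1 := dz_conj_mem_dzH_iff (k := k) hD (hNL hy) hB.2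
    rw [hmemN y hy] at h1
    exact h1.symm
  have hdisj : N ⊓ K = ⊥ := by
    rw [eq_bot_iff, ← dzH_inf_eq_bot hD hB]
    exact inf_le_inf_right _ hNL
  obtain ⟨φ, hφ⟩ := exists_semidirect_proj N K hN hdisj
  obtain ⟨e, he⟩ := Cfsg.Agent.Helper79.exists_equiv_sup N K hN hdisj
  let ι : ↥N →* ↥L := Subgroup.inclusion hNL
  have hα' : IsGeneralizedCharacter ↥(N ⊔ K) (fun m => α (ι (φ m))) := by
    obtain ⟨χ₁, χ₂, h₁, h₂, rfl⟩ := hα
    exact ⟨fun m => χ₁ ((ι.comp φ) m), fun m => χ₂ ((ι.comp φ) m),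
      Cfsg.Agent.Helper79.isCharacter_comp h₁ (ι.comp φ),
      Cfsg.Agent.Helper79.isCharacter_comp h₂ (ι.comp φ), rfl⟩
  have hχ' : IsCharacter ↥(N ⊔ K) (fun m => χ m) :=
    Cfsg.Agent.Helper79.isCharacter_restrict hχ (N ⊔ K)
  haveI : Fintype ↥(N ⊔ K) := Fintype.ofFinite _
  haveI : Fintype ↥N := Fintype.ofFinite _
  haveI : Fintype ↥K := Fintype.ofFinite _
  haveI : Fintype ↥N₀ := Fintype.ofFinite _
  obtain ⟨z, hz⟩ := classInner_genChar_char_int hα' hχ'
  refine ⟨z, ?_⟩
  rw [← hz]
  have hNK0 : (Nat.card ↥(N ⊔ K) : ℂ) ≠ 0 := by exact_mod_cast Nat.card_pos.ne'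
  have hN0 : (Nat.card ↥N : ℂ) ≠ 0 := by exact_mod_cast Nat.card_pos.ne'
  have hK0 : (Nat.card ↥K : ℂ) ≠ 0 := by exact_mod_cast Nat.card_pos.ne'
  have hcardNK : (Nat.card ↥(N ⊔ K) : ℂ) = (Nat.card ↥N : ℂ) * (Nat.card ↥K : ℂ) := by
    rw [← Nat.cast_mul, ← Nat.card_prod, Nat.card_congr e]
  have hcardN : Nat.card ↥N₀ = Nat.card ↥N :=
    (Subgroup.card_map_of_injective (K := N₀) L.subtype_injective).symm
  -- the inner product as a double sum
  have hφe : ∀ p : ↥N × ↥K, φ (e p) = p.1 := by
    intro p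
    have h1 : e p = ⟨(p.1 : G) * (p.2 : G), by rw [← he p]; exact (e p).2⟩ := Subtype.ext (he p)
    rw [h1, hφ]
  have hsum1 : ∑ m : ↥(N ⊔ K), α (ι (φ m)) * conj (χ m)
      = ∑ y : ↥N, α (ι y) * conj (∑ k : ↥K, χ ((y : G) * (k : G))) := by
    rw [← Equiv.sum_comp e, Fintype.sum_prod_type]
    refine Finset.sum_congr rfl (fun y _ => ?_)
    rw [map_sum, Finset.mul_sum]
    refine Finset.sum_congr rfl (fun k _ => ?_)
    rw [hφe, he]
  have hdzG : ∀ y : G, dzG H χ y B = (Nat.card ↥K : ℂ)⁻¹ * ∑ k : ↥K, χ (y * (k : G)) := by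
    intro y
    unfold dzG
    congr 1
    exact Finset.sum_subtype (Finset.univ.filter (fun k : G => k ∈ K)) (by simp)
      (fun k => χ (y * k))
  -- `dzT` as a sum over `N`
  have hT : dzT L H α χ B = ∑ y : ↥N, α (ι y) * conj (dzG H χ (y : G) B) := by
    unfold dzT
    rw [← Finset.sum_filter]
    have h1 : ∑ y ∈ Finset.univ.filter (fun y : ↥L => dzConj (y : G) B = B),
          α y * conj (dzG H χ (y : G) B)
        = ∑ y : ↥N₀, α (y : ↥L) * conj (dzG H χ ((y : ↥L) : G) B) :=
      Finset.sum_subtype (Finset.univ.filter (fun y : ↥L => dzConj (y : G) B = B))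
        (by
          intro y
          simp only [Finset.mem_filter, Finset.mem_univ, true_and]
          rw [hN₀, MulAction.mem_stabilizer_iff]
          exact Iff.rfl)
        (fun y => α y * conj (dzG H χ (y : G) B))
    rw [h1]
    refine Fintype.sum_equiv (Subgroup.equivMapOfInjective N₀ L.subtype L.subtype_injective).toEquiv
      _ _ (fun y => ?_)
    have h2 : ι ((Subgroup.equivMapOfInjective N₀ L.subtype L.subtype_injective).toEquiv y)
        = (y : ↥L) := by
      apply Subtype.ext
      simp [ι]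
    have h3 : (((Subgroup.equivMapOfInjective N₀ L.subtype L.subtype_injective).toEquiv y : ↥N) : G)
        = ((y : ↥L) : G) := by
      simp
    rw [h2, h3]
  rw [hT]
  unfold classInner
  rw [hsum1, hcardNK, hcardN]
  have h4 : ∀ y : ↥N, α (ι y) * conj (dzG H χ (y : G) B)
      = (Nat.card ↥K : ℂ)⁻¹ * (α (ι y) * conj (∑ k : ↥K, χ ((y : G) * (k : G)))) := by
    intro y
    rw [hdzG, map_mul, map_inv₀, Complex.conj_natCast]
    ring
  rw [Finset.sum_congr rfl (fun y _ => h4 y), ← Finset.mul_sum]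
  field_simp

theorem isClassFunction_of_isGeneralizedCharacter {Γ : Type*} [Group Γ] {θ : Γ → ℂ}
    (h : IsGeneralizedCharacter Γ θ) : IsClassFunction Γ θ := by
  obtain ⟨χ₁, χ₂, h₁, h₂, rfl⟩ := h
  intro g x
  simp only [Pi.sub_apply]
  rw [Cfsg.Agent.Helper79.isCharacter_isClassFunction h₁ g x,
    Cfsg.Agent.Helper79.isCharacter_isClassFunction h₂ g x]

/-- Integrality of the inner products of the Dade image with the characters of `G`. -/
theorem dade_classInner_int (hD : DadeHypothesis A L H) (α : L → ℂ)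
    (hα : IsGeneralizedCharacter L α) (hαA : ∀ x : L, (x : G) ∉ A → α x = 0)
    {χ : G → ℂ} (hχ : IsCharacter G χ) :
    ∃ z : ℤ, classInner (dadeIsometry A L H α) χ = z := by
  have hαcl : IsClassFunction L α := isClassFunction_of_isGeneralizedCharacter hα
  have hχcl : IsClassFunction G χ := Cfsg.Agent.Helper79.isCharacter_isClassFunction hχ
  have h1 := (Cfsg.Agent.S1500.result A L H hD α hαcl hαA).2 χ (dzPsi A L H χ) hχcl
    (fun a ha => dzPsi_apply_of_mem hD hχcl a ha)
  rw [h1, classInner_dzPsi]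
  -- the invariant integer-valued function
  set F : Finset G → ℂ := fun B =>
    if dzOk A B then (-1 : ℂ) ^ (B.card + 1) * dzT L H α χ B
      / (Nat.card (MulAction.stabilizer ↥L B) : ℂ) else 0 with hF
  have hstab0 : ∀ B : Finset G, (Nat.card (MulAction.stabilizer ↥L B) : ℂ) ≠ 0 := by
    intro B; exact_mod_cast Nat.card_pos.ne'
  have hL0 : (Nat.card ↥L : ℂ) ≠ 0 := by exact_mod_cast Nat.card_pos.ne'
  have hFinv : ∀ (x : ↥L) (B : Finset G), F (x • B) = F B := by
    intro x B
    have hsm : x • B = dzConj (x : G) B := rfl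
    simp only [hF]
    by_cases hB : dzOk A B
    · have hB' : dzOk A (x • B) := by rw [hsm]; exact dzOk_conj hD x.2 hB
      rw [if_pos hB, if_pos hB']
      have hc1 : (x • B).card = B.card := by rw [hsm]; exact card_dzConj _ _
      have hc2 : Nat.card (MulAction.stabilizer ↥L (x • B))
          = Nat.card (MulAction.stabilizer ↥L B) := by
        rw [MulAction.stabilizer_smul_eq_stabilizer_map_conj,
          Subgroup.card_map_of_injective (MulAut.conj x).injective]
      have hc3 : dzT L H α χ (x • B) = dzT L H α χ B := by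
        rw [hsm]; exact dzT_conj hD hαcl hχcl x hB.2
      rw [hc1, hc2, hc3]
    · have hB' : ¬ dzOk A (x • B) := by
        rw [hsm, dzOk_conj_iff hD x.2]; exact hB
      rw [if_neg hB, if_neg hB']
  have hFint : ∀ B : Finset G, ∃ z : ℤ, F B = z := by
    intro B
    simp only [hF]
    by_cases hB : dzOk A B
    · rw [if_pos hB]
      obtain ⟨z, hz⟩ := dzT_int hD hα hχ hB
      refine ⟨(-1) ^ (B.card + 1) * z, ?_⟩
      rw [hz]
      push_cast
      have := hstab0 B
      field_simp
    · rw [if_neg hB]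
      exact ⟨0, by simp⟩
  obtain ⟨z, hz⟩ := orbit_weighted_sum_int (Γ := ↥L) F hFinv hFint
  refine ⟨z, ?_⟩
  rw [← hz, Finset.mul_sum]
  refine Finset.sum_congr rfl (fun B _ => ?_)
  simp only [hF]
  by_cases hB : dzOk A B
  · rw [if_pos hB, if_pos hB]
    have := hstab0 B
    field_simp
  · rw [if_neg hB, if_neg hB]
    simp

/-- **Peterfalvi (2.7)**: the Dade map sends generalized characters of `L` vanishing off `A` to
generalized characters of `G`. -/
theorem dade_isGeneralizedCharacter (hD : DadeHypothesis A L H) (α : L → ℂ)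
    (hα : IsGeneralizedCharacter L α) (hαA : ∀ x : L, (x : G) ∉ A → α x = 0) :
    IsGeneralizedCharacter G (dadeIsometry A L H α) := by
  have hαcl : IsClassFunction L α := isClassFunction_of_isGeneralizedCharacter hα
  refine isGeneralizedCharacter_of_classInner_int _
    (Cfsg.Agent.Helper25.dadeIsometry_isClassFunction hD hαcl) (fun χ => ?_)
  exact dade_classInner_int hD α hα hαA (Cfsg.Agent.Helper79.irr_isCharacter χ)

end

end Cfsg.Agent.Helper3
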