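import Mathlib
import Cfsg.Prelude.Def_GeometricClasses
import Cfsg.Prelude.Def_LieClassical
import Cfsg.Agent.Helper69.E4Def
import Cfsg.Agent.Helper69.E5Def
import Cfsg.Agent.Helper42.SpGroup

set_option autoImplicit false

/-!
# CALL S6002, piece INVB (helper3): canonical form of a symplectic `x` with `x ^ 2 = -1`
-/

namespace Cfsg.Agent.Helper3
open Cfsg.Agent.Helper69
open scoped Matrix
open Cfsg.Agent.Helper42.SpForm Cfsg.Agent.Helper42.SpGroup

theorem e5_invb_two_sq {F : Type*} [Field F] [Fintype F] (h2 : (2 : F) ≠ 0) (c : F) :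
    ∃ α β : F, α ^ 2 + β ^ 2 = c := by
  have hodd : Fintype.card F % 2 = 1 := by
    apply FiniteField.odd_card_of_char_ne_two
    intro h
    have : CharP F 2 := ringChar.of_eq h
    exact h2 (by exact_mod_cast CharP.cast_eq_zero F 2)
  obtain ⟨a, b, hab⟩ := FiniteField.exists_root_sum_quadratic (R := F) (f := Polynomial.X ^ 2)
    (g := Polynomial.X ^ 2 - Polynomial.C c) (Polynomial.degree_X_pow 2)
    (Polynomial.degree_X_pow_sub_C (by decide) _) hodd
  refine ⟨a, b, ?_⟩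
  simp at hab
  linear_combination hab

theorem e5_invb_abs {F : Type*} [Field F] [Fintype F] (h2 : (2 : F) ≠ 0) {V : Type*}
    [AddCommGroup V] [Module F V] [FiniteDimensional F V] (B : LinearMap.BilinForm F V)
    (halt : ∀ v, B v v = 0) (hnd : ∀ v, (∀ w, B v w = 0) → v = 0) (T : Module.End F V)
    (hT : ∀ u w, B (T u) (T w) = B u w) (hT2 : ∀ v, T (T v) = -v)
    (hdim : 2 < Module.finrank F V) :
    ∃ e₁ e₂ : V, B e₁ (T e₁) = 1 ∧ B e₂ (T e₂) = 1 ∧ B e₂ e₁ = 0 ∧ B e₂ (T e₁) = 0 := by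
  have hskew : ∀ u w, B u w = - B w u := by
    intro u w
    have h := halt (u + w)
    simp only [map_add, LinearMap.add_apply, halt, zero_add, add_zero] at h
    exact eq_neg_of_add_eq_zero_right h
  have hscale : ∀ (u : V) (α β : F),
      B (α • u + β • T u) (T (α • u + β • T u)) = (α ^ 2 + β ^ 2) * B u (T u) := by
    intro u α β
    have h1 : B (T u) u = - B u (T u) := hskew _ _
    simp only [map_add, map_smul, LinearMap.add_apply, LinearMap.smul_apply, smul_eq_mul, hT2,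
      halt, h1, map_neg]
    ring
  have hpolar : ∀ W : Submodule F V, (∀ w ∈ W, T w ∈ W) → (∀ w ∈ W, B w (T w) = 0) →
      ∀ w ∈ W, ∀ w' ∈ W, B w w' = 0 := by
    intro W hW hQ
    have h1 : ∀ w ∈ W, ∀ w' ∈ W, B w (T w') = 0 := by
      intro w hw w' hw'
      have h3 := hQ (w + w') (W.add_mem hw hw')
      simp only [map_add, LinearMap.add_apply, hQ w hw, hQ w' hw', zero_add, add_zero] at h3
      have h4 : B w' (T w) = B w (T w') := by
        rw [hskew w' (T w)]
        have : B (T w) w' = B (T w) (T (-(T w'))) := by rw [map_neg, hT2, neg_neg]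
        rw [this, hT, map_neg, neg_neg]
      rw [h4] at h3
      have h5 : (2 : F) * B w (T w') = 0 := by linear_combination h3
      exact (mul_eq_zero.mp h5).resolve_left h2
    intro w hw w' hw'
    have : B w w' = B w (T (-(T w'))) := by rw [map_neg, hT2, neg_neg]
    rw [this]
    exact h1 w hw _ (W.neg_mem (hW w' hw'))
  have hnontriv : ∃ v : V, v ≠ 0 := by
    by_contra hcon
    push Not at hcon
    have : Module.finrank F V = 0 := by
      have : Subsingleton V := ⟨fun a b => by rw [hcon a, hcon b]⟩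
      exact Module.finrank_zero_of_subsingleton
    omega
  have hex1 : ∃ u, B u (T u) ≠ 0 := by
    by_contra hcon
    push Not at hcon
    obtain ⟨v, hv⟩ := hnontriv
    apply hv
    apply hnd
    intro w
    exact hpolar ⊤ (fun _ _ => trivial) (fun w _ => hcon w) v trivial w trivial
  obtain ⟨u, hu⟩ := hex1
  obtain ⟨α, β, hαβ⟩ := e5_invb_two_sq h2 (B u (T u))⁻¹
  obtain ⟨e₁, he₁⟩ : ∃ e₁, e₁ = α • u + β • T u := ⟨_, rfl⟩
  have hQ1 : B e₁ (T e₁) = 1 := by rw [he₁, hscale, hαβ, inv_mul_cancel₀ hu]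
  obtain ⟨W, hWmem⟩ : ∃ W : Submodule F V, ∀ w, w ∈ W ↔ B w e₁ = 0 ∧ B w (T e₁) = 0 := by
    refine ⟨LinearMap.ker (B.flip e₁) ⊓ LinearMap.ker (B.flip (T e₁)), fun w => ?_⟩
    rw [Submodule.mem_inf, LinearMap.mem_ker, LinearMap.mem_ker]
    exact Iff.rfl
  have hWT : ∀ w ∈ W, T w ∈ W := by
    intro w hw
    rw [hWmem] at hw ⊢
    constructor
    · have : B (T w) e₁ = B (T w) (T (-(T e₁))) := by rw [map_neg, hT2, neg_neg]
      rw [this, hT, map_neg, hw.2, neg_zero]
    · rw [hT]; exact hw.1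
  have hex2 : ∃ w ∈ W, B w (T w) ≠ 0 := by
    by_contra hcon
    push Not at hcon
    have hW0 := hpolar W hWT hcon
    have hTe : B (T e₁) e₁ = -1 := by rw [hskew, hQ1]
    have hπ : ∀ w₀ : V, w₀ - B w₀ (T e₁) • e₁ + B w₀ e₁ • T e₁ ∈ W := by
      intro w₀
      rw [hWmem]
      constructor
      · simp only [map_add, map_sub, map_smul, LinearMap.add_apply, LinearMap.sub_apply,
          LinearMap.smul_apply, smul_eq_mul, halt, hTe]
        ring
      · simp only [map_add, map_sub, map_smul, LinearMap.add_apply, LinearMap.sub_apply,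
          LinearMap.smul_apply, smul_eq_mul, halt, hQ1]
        ring
    have hzero : ∀ w₀ : V, w₀ - B w₀ (T e₁) • e₁ + B w₀ e₁ • T e₁ = 0 := by
      intro w₀
      apply hnd
      intro v
      have hv : v = (v - B v (T e₁) • e₁ + B v e₁ • T e₁) +
          (B v (T e₁) • e₁ - B v e₁ • T e₁) := by abel
      have h6 := (hWmem _).mp (hπ w₀)
      rw [hv, map_add, hW0 _ (hπ w₀) _ (hπ v), zero_add, map_sub, map_smul, map_smul, h6.1, h6.2]
      simp
    have hspan : (⊤ : Submodule F V) ≤ Submodule.span F {e₁, T e₁} := by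
      intro w₀ _
      have h7 := hzero w₀
      have h8 : w₀ = B w₀ (T e₁) • e₁ - B w₀ e₁ • T e₁ := by
        rw [← sub_eq_zero, ← h7]; abel
      rw [h8]
      exact Submodule.sub_mem _
        (Submodule.smul_mem _ _ (Submodule.subset_span (by simp)))
        (Submodule.smul_mem _ _ (Submodule.subset_span (by simp)))
    have h8 : Module.finrank F V ≤ 2 := by
      classical
      have h9 := Submodule.finrank_mono hspan
      rw [finrank_top] at h9
      have h10 := finrank_span_finset_le_card (R := F) ({e₁, T e₁} : Finset V)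
      have hc : ({e₁, T e₁} : Finset V).card ≤ 2 := Finset.card_le_two
      simp only [Set.finrank] at h10
      rw [Finset.coe_insert, Finset.coe_singleton] at h10
      omega
    omega
  obtain ⟨w, hwW, hw⟩ := hex2
  obtain ⟨α₂, β₂, hαβ₂⟩ := e5_invb_two_sq h2 (B w (T w))⁻¹
  have hmem : α₂ • w + β₂ • T w ∈ W := W.add_mem (W.smul_mem _ hwW) (W.smul_mem _ (hWT w hwW))
  refine ⟨e₁, α₂ • w + β₂ • T w, hQ1, ?_, ((hWmem _).mp hmem).1, ((hWmem _).mp hmem).2⟩
  rw [hscale, hαβ₂, inv_mul_cancel₀ hw]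

theorem e5_canon_inv_neg {F : Type*} [Field F] [Fintype F] (h2 : (2 : F) ≠ 0)
    (x : Matrix (Fin 2 ⊕ Fin 2) (Fin 2 ⊕ Fin 2) F)
    (hx : xᵀ * Matrix.J (Fin 2) F * x = Matrix.J (Fin 2) F) (hx2 : x ^ 2 = -1) :
    ∃ (B : Matrix (Fin 2 ⊕ Fin 2) (Fin 4) F) (Bi : Matrix (Fin 4) (Fin 2 ⊕ Fin 2) F),
      B * Bi = 1 ∧ Bi * B = 1 ∧ x * B = B * e5NB F ∧
      Bᵀ * Matrix.J (Fin 2) F * B = e5GA F := by
  classical
  obtain ⟨ω, hω⟩ : ∃ ω : LinearMap.BilinForm F (Fin 2 ⊕ Fin 2 → F), ω = stdForm 2 := ⟨_, rfl⟩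
  obtain ⟨T, hTdef⟩ : ∃ T : Module.End F (Fin 2 ⊕ Fin 2 → F), T = Matrix.toLin' x := ⟨_, rfl⟩
  have hTap : ∀ v, T v = x *ᵥ v := fun v => by rw [hTdef, Matrix.toLin'_apply]
  have hT : ∀ u w, ω (T u) (T w) = ω u w := by
    rw [hω, hTdef]
    exact (mem_iff_preserves x).mp (SymplecticGroup.mem_iff'.mpr hx)
  have hT2 : ∀ v, T (T v) = -v := by
    intro v
    rw [hTap, hTap, Matrix.mulVec_mulVec, ← pow_two, hx2, Matrix.neg_mulVec, Matrix.one_mulVec]
  have hdim : 2 < Module.finrank F (Fin 2 ⊕ Fin 2 → F) := by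
    rw [Module.finrank_fintype_fun_eq_card]
    simp
  have halt : ∀ v, ω v v = 0 := by rw [hω]; exact stdForm_self 2
  have hnd : ∀ v, (∀ w, ω v w = 0) → v = 0 := by rw [hω]; exact stdForm_nondeg 2
  obtain ⟨e₁, e₂, h11, h22, h21, h2T1⟩ := e5_invb_abs h2 ω halt hnd T hT hT2 hdim
  have hskew : ∀ u w, ω u w = - ω w u := by
    intro u w
    have h := halt (u + w)
    simp only [map_add, LinearMap.add_apply, halt, zero_add, add_zero] at h
    exact eq_neg_of_add_eq_zero_right h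
  have hTr : ∀ u w, ω (T u) w = - ω u (T w) := by
    intro u w
    have : ω (T u) w = ω (T u) (T (-(T w))) := by rw [map_neg, hT2, neg_neg]
    rw [this, hT, map_neg]
  obtain ⟨c, hc⟩ : ∃ c : Fin 4 → (Fin 2 ⊕ Fin 2 → F), c = ![e₁, T e₁, e₂, T e₂] := ⟨_, rfl⟩
  obtain ⟨Bm, hBm⟩ : ∃ Bm : Matrix (Fin 2 ⊕ Fin 2) (Fin 4) F, Bm = Matrix.of fun i k => c k i :=
    ⟨_, rfl⟩
  have hgram : ∀ k l, (Bmᵀ * Matrix.J (Fin 2) F * Bm) k l = ω (c k) (c l) := by
    intro k l
    rw [Matrix.mul_assoc, hω, stdForm, Matrix.toBilin'_apply', hBm]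
    rfl
  have hxB : ∀ i k, (x * Bm) i k = T (c k) i := by
    intro i k
    rw [hTap, hBm]
    rfl
  have hG : Bmᵀ * Matrix.J (Fin 2) F * Bm = e5GA F := by
    ext k l
    rw [hgram, hc]
    fin_cases k <;> fin_cases l <;>
      simp [e5GA, halt, h11, h22, h21, h2T1, hT, hTr, hskew e₁ e₂, hskew e₁ (T e₂)]
  have hNB : x * Bm = Bm * e5NB F := by
    ext i k
    rw [hxB, Matrix.mul_apply, Fin.sum_univ_four, hBm, hc]
    fin_cases k <;> simp [e5NB, hT2]
  have hGA2 : e5GA F * e5GA F = -1 := by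
    ext i j
    fin_cases i <;> fin_cases j <;> simp [e5GA, Matrix.mul_apply, Fin.sum_univ_four]
  have hinv : (-(e5GA F) * Bmᵀ * Matrix.J (Fin 2) F) * Bm = 1 := by
    rw [Matrix.mul_assoc, Matrix.mul_assoc, ← Matrix.mul_assoc Bmᵀ, hG, Matrix.neg_mul, hGA2,
      neg_neg]
  refine ⟨Bm, -(e5GA F) * Bmᵀ * Matrix.J (Fin 2) F, ?_, hinv, hNB, hG⟩
  exact (Matrix.mul_eq_one_comm_of_equiv finSumFinEquiv).mpr hinv

end Cfsg.Agent.Helper3
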