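import Mathlib
import Cfsg.Prelude.Def_Characters

/-!
# Representations over an arbitrary field and their complexification (helper3)

* `kchar_add_of_isCompl`, `kirreducible_of_minimal`: complementary subrepresentations and
  minimal subrepresentations over any field.
* `kchar_prod`: the character of a product representation.
* `complexify ρ b`: for an `F`-representation `ρ` with a basis `b` indexed by `Fin n` and an
  `F`-algebra structure on `ℂ`, the complex representation on `Fin n → ℂ` with the same matrices.
-/

set_option autoImplicit false

namespace Cfsg.Agent.Helper3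

open Representation

universe u v w

section General

variable {k : Type w} [Field k] {G : Type u} [Group G]

/-- The character of a representation on complementary invariant subspaces is the sum of the
characters (any field). -/
theorem kchar_add_of_isCompl {V : Type v} [AddCommGroup V] [Module k V] [FiniteDimensional k V]
    (ρ : Representation k G V) (W₀ W₁ : Subrepresentation ρ)
    (h : IsCompl W₀.toSubmodule W₁.toSubmodule) :
    ρ.character = W₀.toRepresentation.character + W₁.toRepresentation.character := by
  classical
  ext g
  let N : Bool → Submodule k V := fun b => if b then W₀.toSubmodule else W₁.toSubmodule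
  have hint : DirectSum.IsInternal N := by
    rw [DirectSum.isInternal_submodule_iff_isCompl N (i := true) (j := false) (by simp)
      (by ext b; cases b <;> simp)]
    simpa [N] using h
  have hf : ∀ b, Set.MapsTo (ρ g) (N b) (N b) := by
    intro b v hv
    cases b
    · exact W₁.apply_mem_toSubmodule g hv
    · exact W₀.apply_mem_toSubmodule g hv
  have := LinearMap.trace_eq_sum_trace_restrict hint hf
  simp only [character, Pi.add_apply]
  rw [this]
  simp only [Fintype.sum_bool]
  rfl

/-- Push a subrepresentation of a subrepresentation forward to the ambient representation. -/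
def ksubrepMap {V : Type v} [AddCommGroup V] [Module k V] {ρ : Representation k G V}
    (W : Subrepresentation ρ) (U : Subrepresentation W.toRepresentation) : Subrepresentation ρ where
  toSubmodule := U.toSubmodule.map W.toSubmodule.subtype
  apply_mem_toSubmodule g v hv := by
    obtain ⟨w, hw, rfl⟩ := hv
    exact ⟨W.toRepresentation g w, U.apply_mem_toSubmodule g hw, rfl⟩

/-- A nonzero subrepresentation of minimal dimension is irreducible (any field). -/
theorem kirreducible_of_minimal {V : Type v} [AddCommGroup V] [Module k V] [FiniteDimensional k V]
    (ρ : Representation k G V) (W : Subrepresentation ρ) (hW : W.toSubmodule ≠ ⊥)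
    (hmin : ∀ W' : Subrepresentation ρ, W'.toSubmodule ≠ ⊥ →
      Module.finrank k W.toSubmodule ≤ Module.finrank k W'.toSubmodule) :
    W.toRepresentation.IsIrreducible := by
  have hnt : Nontrivial W.toSubmodule := (Submodule.nontrivial_iff_ne_bot).mpr hW
  refine { exists_pair_ne := ⟨⊥, ⊤, ?_⟩, eq_bot_or_eq_top := ?_ }
  · intro h
    have : (⊥ : Submodule k W.toSubmodule) = ⊤ := congrArg Subrepresentation.toSubmodule h
    exact bot_ne_top this
  · intro U
    by_cases hU : U.toSubmodule = ⊥
    · left
      exact Subrepresentation.toSubmodule_injective hU
    · right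
      apply Subrepresentation.toSubmodule_injective
      show U.toSubmodule = ⊤
      apply Submodule.eq_top_of_finrank_eq
      apply le_antisymm (Submodule.finrank_le _)
      have h1 : (ksubrepMap W U).toSubmodule ≠ ⊥ := by
        show U.toSubmodule.map W.toSubmodule.subtype ≠ ⊥
        intro h
        apply hU
        apply Submodule.map_injective_of_injective W.toSubmodule.injective_subtype
        rw [h, Submodule.map_bot]
      have h2 := hmin (ksubrepMap W U) h1
      have h3 : Module.finrank k (ksubrepMap W U).toSubmodule = Module.finrank k U.toSubmodule :=
        Submodule.finrank_map_subtype_eq _ _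
      omega

/-- The character of a product representation. -/
theorem kchar_prod {V : Type v} [AddCommGroup V] [Module k V] [FiniteDimensional k V]
    {W : Type v} [AddCommGroup W] [Module k W] [FiniteDimensional k W]
    (ρ : Representation k G V) (σ : Representation k G W) (g : G) :
    (ρ.prod σ).character g = ρ.character g + σ.character g := by
  show LinearMap.trace k _ ((ρ g).prodMap (σ g)) = _
  exact LinearMap.trace_prodMap' (ρ g) (σ g)

end General

section Complexify

variable {F : Type w} [Field F] [Algebra F ℂ] {G : Type u} [Group G]

/-- The complexification of a representation over `F` with respect to a basis. -/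
noncomputable def complexify {V : Type v} [AddCommGroup V] [Module F V] {n : ℕ}
    (ρ : Representation F G V) (b : Module.Basis (Fin n) F V) :
    Representation ℂ G (Fin n → ℂ) :=
  ((Matrix.toLinAlgEquiv' : Matrix (Fin n) (Fin n) ℂ ≃ₐ[ℂ] _).toMulEquiv.toMonoidHom).comp
    (((algebraMap F ℂ).mapMatrix (m := Fin n)).toMonoidHom.comp
      (((LinearMap.toMatrixAlgEquiv b : (V →ₗ[F] V) ≃ₐ[F] Matrix (Fin n) (Fin n) F)
        ).toMulEquiv.toMonoidHom.comp ρ))

theorem complexify_toMatrix' {V : Type v} [AddCommGroup V] [Module F V] {n : ℕ}
    (ρ : Representation F G V) (b : Module.Basis (Fin n) F V) (g : G) :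
    LinearMap.toMatrix' (complexify ρ b g)
      = (LinearMap.toMatrix b b (ρ g)).map (algebraMap F ℂ) := by
  show LinearMap.toMatrix' (Matrix.toLinAlgEquiv'
    ((algebraMap F ℂ).mapMatrix (LinearMap.toMatrixAlgEquiv b (ρ g)))) = _
  have h : ∀ M : Matrix (Fin n) (Fin n) ℂ, LinearMap.toMatrix' (Matrix.toLinAlgEquiv' M) = M :=
    fun M => LinearMap.toMatrix'_toLin' M
  rw [h, RingHom.mapMatrix_apply]
  rfl

theorem complexify_character {V : Type v} [AddCommGroup V] [Module F V] {n : ℕ}
    (ρ : Representation F G V) (b : Module.Basis (Fin n) F V) (g : G) :
    (complexify ρ b).character g = algebraMap F ℂ (ρ.character g) := by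
  have h1 : (complexify ρ b).character g = (LinearMap.toMatrix' (complexify ρ b g)).trace := by
    simp only [character]
    rw [LinearMap.trace_eq_matrix_trace ℂ (Pi.basisFun ℂ (Fin n))]
    rfl
  rw [h1, complexify_toMatrix']
  simp only [character]
  rw [LinearMap.trace_eq_matrix_trace F b, Matrix.trace, Matrix.trace, map_sum]
  rfl

end Complexify

end Cfsg.Agent.Helper3
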