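import Mathlib
import Cfsg.Prelude.Def_Characters
import Cfsg.Agent.Helper3.FForm1
import Cfsg.Agent.Helper3.CharBasic
import Cfsg.Agent.Helper3.Induced
import Cfsg.Agent.Helper3.Frobenius
import Cfsg.Agent.Helper75.InnerLin
import Cfsg.Agent.Helper79.Basic
import Cfsg.Agent.Helper25.Coh1

/-!
# Characters afforded by representations over a subfield of `ℂ` (helper3)

For a field `F` with an algebra structure on `ℂ`:

* `IsFChar F G χ`, `IsFIrrChar F G χ`: `χ` is the complexified character of a
  (resp. irreducible) finite-dimensional `F`-representation of `G`.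
* `isFChar_zero`, `isFChar_add`, `IsFChar.isCharacter`.
* `IsFChar.mem_span`: an `F`-character is a sum of `F`-irreducible characters.
* `classInner_fIrr_of_ne`: distinct `F`-irreducible characters are orthogonal.
* `isFIrrChar_of_mem_span`: an irreducible complex character which is a `ℤ`-combination of
  `F`-irreducible characters is itself afforded by an `F`-representation.
-/

set_option autoImplicit false
set_option linter.style.haveILetI false

namespace Cfsg.Agent.Helper3

open Cfsg
open scoped ComplexConjugate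

universe u

section FChar

variable (F : Type) [Field F] [Algebra F ℂ] (G : Type u) [Group G]

/-- `χ` is the (complexified) character of a finite-dimensional representation over `F`. -/
def IsFChar (χ : G → ℂ) : Prop :=
  ∃ (V : Type u) (_ : AddCommGroup V) (_ : Module F V) (_ : FiniteDimensional F V)
    (ρ : Representation F G V), ∀ g, χ g = algebraMap F ℂ (ρ.character g)

/-- `χ` is the (complexified) character of an irreducible representation over `F`. -/
def IsFIrrChar (χ : G → ℂ) : Prop :=
  ∃ (V : Type u) (_ : AddCommGroup V) (_ : Module F V) (_ : FiniteDimensional F V)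
    (ρ : Representation F G V), ρ.IsIrreducible ∧ ∀ g, χ g = algebraMap F ℂ (ρ.character g)

variable {F G}

theorem IsFIrrChar.isFChar {χ : G → ℂ} (h : IsFIrrChar F G χ) : IsFChar F G χ := by
  obtain ⟨V, i1, i2, i3, ρ, -, hρ⟩ := h
  exact ⟨V, i1, i2, i3, ρ, hρ⟩

theorem isFChar_zero : IsFChar F G (0 : G → ℂ) := by
  refine ⟨PUnit.{u+1}, inferInstance, inferInstance, inferInstance, 1, fun g => ?_⟩
  show (0 : ℂ) = algebraMap F ℂ (LinearMap.trace F PUnit.{u+1} ((1 : Representation F G PUnit.{u+1}) g))
  rw [Subsingleton.elim ((1 : Representation F G PUnit.{u+1}) g) 0, map_zero, map_zero]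

theorem isFChar_add {χ ψ : G → ℂ} (hχ : IsFChar F G χ) (hψ : IsFChar F G ψ) :
    IsFChar F G (χ + ψ) := by
  obtain ⟨V, i1, i2, i3, ρ, hρ⟩ := hχ
  obtain ⟨W, j1, j2, j3, σ, hσ⟩ := hψ
  refine ⟨V × W, inferInstance, inferInstance, inferInstance, ρ.prod σ, fun g => ?_⟩
  rw [kchar_prod, map_add, Pi.add_apply, hρ, hσ]

theorem IsFChar.isCharacter {χ : G → ℂ} (h : IsFChar F G χ) : IsCharacter G χ := by
  obtain ⟨V, i1, i2, i3, ρ, hρ⟩ := h
  exact ⟨Module.finrank F V, complexify ρ (Module.finBasis F V),
    funext fun g => (complexify_character ρ _ g).trans (hρ g).symm⟩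

theorem fchar_mem_closure_aux [Finite G] (n : ℕ) :
    ∀ (V : Type u) [AddCommGroup V] [Module F V] [FiniteDimensional F V]
      (ρ : Representation F G V), Module.finrank F V = n →
      (fun g => algebraMap F ℂ (ρ.character g)) ∈
        AddSubmonoid.closure {θ : G → ℂ | IsFIrrChar F G θ} := by
  haveI : CharZero F := (algebraMap F ℂ).charZero
  haveI : NeZero (Nat.card G : F) := ⟨by exact_mod_cast Nat.card_pos.ne'⟩
  induction n using Nat.strong_induction_on with
  | _ n ih =>
    intro V _ _ _ ρ hn
    by_cases hV : Subsingleton V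
    · have : (fun g => algebraMap F ℂ (ρ.character g)) = 0 := by
        ext g
        simp only [Representation.character, Pi.zero_apply]
        rw [Subsingleton.elim (ρ g) 0, map_zero, map_zero]
      rw [this]; exact zero_mem _
    · rw [not_subsingleton_iff_nontrivial] at hV
      classical
      let S : Set ℕ := {k | ∃ W : Subrepresentation ρ, W.toSubmodule ≠ ⊥ ∧
        Module.finrank F W.toSubmodule = k}
      have hS : S.Nonempty := ⟨_, ⊤, (top_ne_bot : (⊤ : Submodule F V) ≠ ⊥), rfl⟩
      obtain ⟨W, hW, hWk⟩ := Nat.sInf_mem hS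
      have hmin : ∀ W' : Subrepresentation ρ, W'.toSubmodule ≠ ⊥ →
          Module.finrank F W.toSubmodule ≤ Module.finrank F W'.toSubmodule := fun W' hW' => by
        rw [hWk]; exact Nat.sInf_le ⟨W', hW', rfl⟩
      have hirr := kirreducible_of_minimal ρ W hW hmin
      obtain ⟨W₁, hc⟩ := exists_isCompl W
      have hc' : IsCompl W.toSubmodule W₁.toSubmodule :=
        IsCompl.of_eq (congrArg Subrepresentation.toSubmodule hc.inf_eq_bot)
          (congrArg Subrepresentation.toSubmodule hc.sup_eq_top)
      have hsum : (fun g => algebraMap F ℂ (ρ.character g)) =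
          (fun g => algebraMap F ℂ (W.toRepresentation.character g)) +
          (fun g => algebraMap F ℂ (W₁.toRepresentation.character g)) := by
        ext g
        rw [kchar_add_of_isCompl ρ W W₁ hc']
        simp
      rw [hsum]
      apply add_mem
      · exact AddSubmonoid.subset_closure
          ⟨_, inferInstance, inferInstance, inferInstance, _, hirr, fun g => rfl⟩
      · have h1 := Submodule.finrank_add_eq_of_isCompl hc'
        have hnt : Nontrivial W.toSubmodule := (Submodule.nontrivial_iff_ne_bot).mpr hW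
        have h2 : 0 < Module.finrank F W.toSubmodule := Module.finrank_pos
        exact ih (Module.finrank F W₁.toSubmodule) (by omega) _ _ rfl

/-- An `F`-character is a sum of `F`-irreducible characters. -/
theorem IsFChar.mem_closure [Finite G] {χ : G → ℂ} (h : IsFChar F G χ) :
    χ ∈ AddSubmonoid.closure {θ : G → ℂ | IsFIrrChar F G θ} := by
  obtain ⟨V, i1, i2, i3, ρ, hρ⟩ := h
  have : χ = fun g => algebraMap F ℂ (ρ.character g) := funext hρ
  rw [this]
  exact fchar_mem_closure_aux _ V ρ rfl

theorem IsFChar.mem_span [Finite G] {χ : G → ℂ} (h : IsFChar F G χ) :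
    χ ∈ Submodule.span ℤ {θ : G → ℂ | IsFIrrChar F G θ} := by
  have h1 := h.mem_closure
  exact (AddSubmonoid.closure_le
    (S := (Submodule.span ℤ {θ : G → ℂ | IsFIrrChar F G θ}).toAddSubmonoid)).mpr
    Submodule.subset_span h1

/-- Distinct `F`-irreducible characters are orthogonal. -/
theorem classInner_fIrr_of_ne [Fintype G] {θ ψ : G → ℂ} (hθ : IsFIrrChar F G θ)
    (hψ : IsFIrrChar F G ψ) (h : θ ≠ ψ) : classInner ψ θ = 0 := by
  classical
  haveI : CharZero F := (algebraMap F ℂ).charZero
  have hcard : (Nat.card G : F) ≠ 0 := by exact_mod_cast Nat.card_pos.ne'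
  haveI : Invertible (Nat.card G : F) := invertibleOfNonzero hcard
  obtain ⟨n, τ, hτ⟩ := hθ.isFChar.isCharacter
  obtain ⟨V, i1, i2, i3, ρ, hρi, hρ⟩ := hθ
  obtain ⟨W, j1, j2, j3, σ, hσi, hσ⟩ := hψ
  haveI := hρi
  haveI := hσi
  haveI : IsEmpty (ρ.Equiv σ) := ⟨fun φ => h (funext fun g => by
    rw [hρ, hσ, Representation.char_iso φ])⟩
  have key := Representation.card_inv_mul_sum_char_mul_char_eq_finrank ρ σ
  rw [Module.finrank_zero_of_subsingleton] at key
  have key2 := congrArg (algebraMap F ℂ) key
  simp only [map_mul, map_inv₀, map_natCast, map_sum, Nat.cast_zero, map_zero] at key2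
  unfold classInner
  rw [← key2]
  congr 1
  apply Finset.sum_congr rfl
  intro g _
  have h1 : θ g⁻¹ = conj (θ g) := by rw [← hτ]; exact character_inv τ g
  rw [← hσ, ← hρ, h1]

/-- An irreducible complex character lying in the `ℤ`-span of the `F`-irreducible characters
is itself `F`-irreducible (in particular afforded by an `F`-representation). -/
theorem isFIrrChar_of_mem_span [Finite G] {χ : G → ℂ} (hχ : IsIrrCharacter G χ)
    (hmem : χ ∈ Submodule.span ℤ {θ : G → ℂ | IsFIrrChar F G θ}) : IsFIrrChar F G χ := by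
  classical
  have : Fintype G := Fintype.ofFinite G
  obtain ⟨c, hc, hsum⟩ := Submodule.mem_span_set.mp hmem
  have hχeq : χ = ∑ θ ∈ c.support, ((c θ : ℤ) : ℂ) • θ := by
    rw [← hsum, Finsupp.sum]
    apply Finset.sum_congr rfl
    intro θ _
    rw [Int.cast_smul_eq_zsmul]
  have hχchar : IsCharacter G χ := Helper79.isCharacter_of_irr hχ
  have h1 : classInner χ χ = 1 := Helper75.classInner_irr_self hχ
  have h2 : ∀ ψ : G → ℂ,
      classInner χ ψ = ∑ θ ∈ c.support, ((c θ : ℤ) : ℂ) * classInner θ ψ := by
    intro ψ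
    calc classInner χ ψ = classInner (∑ θ ∈ c.support, ((c θ : ℤ) : ℂ) • θ) ψ := by
          rw [← hχeq]
      _ = _ := by
        rw [Helper75.classInner_sum_left]
        apply Finset.sum_congr rfl
        intro θ _
        rw [Helper75.classInner_smul_left]
  have h3 : ∃ θ₀ ∈ c.support, classInner θ₀ χ ≠ 0 := by
    by_contra hcon
    push Not at hcon
    have := h2 χ
    rw [h1, Finset.sum_eq_zero (fun θ hθ => by rw [hcon θ hθ, mul_zero])] at this
    exact one_ne_zero this
  obtain ⟨θ₀, hθ₀s, hθ₀ne⟩ := h3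
  have hθ₀F : IsFIrrChar F G θ₀ := hc hθ₀s
  have hθ₀char : IsCharacter G θ₀ := hθ₀F.isFChar.isCharacter
  obtain ⟨n, hn⟩ := classInner_isCharacter_nat hθ₀char hχchar
  obtain ⟨d, hd⟩ := classInner_isCharacter_nat hθ₀char hθ₀char
  have hn' : classInner χ θ₀ = (n : ℂ) := by
    rw [classInner_conj θ₀ χ, hn, Complex.conj_natCast]
  have h4 : classInner χ θ₀ = ((c θ₀ : ℤ) : ℂ) * (d : ℂ) := by
    rw [h2 θ₀, Finset.sum_eq_single θ₀]
    · rw [hd]
    · intro θ hθ hne
      rw [classInner_fIrr_of_ne hθ₀F (hc hθ) hne.symm, mul_zero]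
    · intro h; exact absurd hθ₀s h
  have h5 : (n : ℤ) = c θ₀ * d := by
    have : ((n : ℤ) : ℂ) = ((c θ₀ * d : ℤ) : ℂ) := by
      push_cast; rw [← hn', h4]
    exact_mod_cast this
  have hn0 : n ≠ 0 := by
    rintro rfl
    apply hθ₀ne; rw [hn]; simp
  have h6 : classInner (θ₀ - (n : ℂ) • χ) (θ₀ - (n : ℂ) • χ)
      = (((d : ℤ) - n * n : ℤ) : ℂ) := by
    rw [Helper75.classInner_sub_left, Helper75.classInner_sub_right,
      Helper75.classInner_sub_right, Helper75.classInner_smul_left,
      Helper75.classInner_smul_left, Helper75.classInner_smul_right,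
      Helper75.classInner_smul_right, hd, hn, hn', h1]
    simp only [Complex.conj_natCast]
    push_cast
    ring
  have h7 : (0 : ℤ) ≤ (d : ℤ) - n * n := Helper25.int_nonneg_of_classInner_self _ _ h6
  have hnpos : (1 : ℤ) ≤ n := by omega
  have hdpos : (1 : ℤ) ≤ d := by nlinarith
  have hcpos : 1 ≤ c θ₀ := by
    by_contra hc0
    have hc0' : c θ₀ ≤ 0 := by omega
    nlinarith
  have hn1 : n = 1 := by
    have : (n : ℤ) ≤ 1 := by nlinarith
    omega
  have hd1 : d = 1 := by
    subst hn1
    have : (d : ℤ) ≤ 1 := by nlinarith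
    omega
  subst hn1 hd1
  have h8 : classInner (θ₀ - ((1 : ℕ) : ℂ) • χ) (θ₀ - ((1 : ℕ) : ℂ) • χ) = 0 := by
    rw [h6]; simp
  have h9 := Helper25.eq_zero_of_classInner_self _ h8
  have h10 : θ₀ = χ := by
    have := sub_eq_zero.mp h9
    rw [this]; simp
  rw [← h10]
  exact hθ₀F

end FChar

end Cfsg.Agent.Helper3
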