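import Mathlib
import Cfsg.Prelude.Def_Characters
import Cfsg.Agent.Helper3.FForm2
import Cfsg.Agent.Helper3.IndFun

/-!
# Monomial representations over a subfield of `ℂ` (helper3)

* `fRegRep F G`: the left regular representation on `G → F`.
* `monoProj E μ`: the projection onto the functions `f` with `f (x * e) = μ e⁻¹ * f x`
  (`E ≤ G`, `μ : E →* F`); `monoSub E μ` its range, a subrepresentation.
* `monoSub_character`: its character is the induced function of `μ`.
* `isFChar_indFun_linear`: the function induced from a linear character with values in `F` is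
  the character of a representation over `F`.
-/

set_option autoImplicit false
set_option linter.style.haveILetI false

namespace Cfsg.Agent.Helper3

open Cfsg

universe u

section Monomial

variable {F : Type} [Field F] {G : Type u} [Group G]

/-- The left regular representation of `G` on functions `G → F`. -/
def fRegRep (F : Type) [Field F] (G : Type u) [Group G] : Representation F G (G → F) where
  toFun g := LinearMap.funLeft F F (fun x => g⁻¹ * x)
  map_one' := by ext f x; simp
  map_mul' g h := by ext f x; simp [mul_assoc]

theorem fRegRep_apply (g : G) (f : G → F) (x : G) : fRegRep F G g f x = f (g⁻¹ * x) := rfl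

/-- The projection onto the functions `f` with `f (x * e) = μ e⁻¹ * f x`. -/
noncomputable def monoProj (E : Subgroup G) [Fintype E] (μ : E →* F) :
    (G → F) →ₗ[F] (G → F) where
  toFun f x := (Fintype.card E : F)⁻¹ * ∑ e : E, μ e * f (x * e)
  map_add' f₁ f₂ := by
    ext x
    simp only [Pi.add_apply, mul_add, Finset.sum_add_distrib]
  map_smul' c f := by
    ext x
    simp only [Pi.smul_apply, smul_eq_mul, RingHom.id_apply, Finset.mul_sum]
    apply Finset.sum_congr rfl
    intro e _
    ring

theorem monoProj_apply (E : Subgroup G) [Fintype E] (μ : E →* F) (f : G → F) (x : G) :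
    monoProj E μ f x = (Fintype.card E : F)⁻¹ * ∑ e : E, μ e * f (x * e) := rfl

theorem monoProj_idem [CharZero F] (E : Subgroup G) [Fintype E] (μ : E →* F) (f : G → F) :
    monoProj E μ (monoProj E μ f) = monoProj E μ f := by
  ext x
  rw [monoProj_apply, monoProj_apply]
  have h : ∀ e : E, ∑ e' : E, μ e * (μ e' * f (x * e * e')) = ∑ e'' : E, μ e'' * f (x * e'') := by
    intro e
    refine Fintype.sum_bijective (fun e' => e * e') (Group.mulLeft_bijective e) _ _ ?_
    intro e'
    rw [map_mul, Subgroup.coe_mul, mul_assoc, mul_assoc]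
  have hc : (Fintype.card E : F) ≠ 0 := by exact_mod_cast Fintype.card_ne_zero
  have h2 : ∀ e : E, μ e * monoProj E μ f (x * e)
      = (Fintype.card E : F)⁻¹ * ∑ e'' : E, μ e'' * f (x * e'') := by
    intro e
    rw [← h e, monoProj_apply, Finset.mul_sum, Finset.mul_sum, Finset.mul_sum]
    apply Finset.sum_congr rfl
    intro e' _
    ring
  simp only [h2]
  rw [Finset.sum_const, Finset.card_univ, nsmul_eq_mul]
  field_simp

theorem monoProj_comm (E : Subgroup G) [Fintype E] (μ : E →* F) (g : G) (f : G → F) :
    monoProj E μ (fRegRep F G g f) = fRegRep F G g (monoProj E μ f) := by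
  ext x
  rw [fRegRep_apply, monoProj_apply, monoProj_apply]
  simp only [fRegRep_apply, mul_assoc]

/-- The monomial subrepresentation of the regular representation. -/
noncomputable def monoSub (E : Subgroup G) [Fintype E] (μ : E →* F) :
    Subrepresentation (fRegRep F G) where
  toSubmodule := LinearMap.range (monoProj E μ)
  apply_mem_toSubmodule g v hv := by
    obtain ⟨f, rfl⟩ := hv
    exact ⟨fRegRep F G g f, monoProj_comm E μ g f⟩

theorem monoSub_character [CharZero F] [Fintype G] [DecidableEq G] (E : Subgroup G) [Fintype E]
    [DecidablePred (· ∈ E)] (μ : E →* F) (g : G) :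
    (monoSub E μ).toRepresentation.character g
      = (Fintype.card E : F)⁻¹ *
        ∑ x : G, if h : x⁻¹ * g * x ∈ E then μ ⟨x⁻¹ * g * x, h⟩ else 0 := by
  have hmem : ∀ f, (fRegRep F G g ∘ₗ monoProj E μ) f ∈ LinearMap.range (monoProj E μ) :=
    fun f => ⟨fRegRep F G g f, monoProj_comm E μ g f⟩
  have h1 := LinearMap.trace_restrict_eq_of_forall_mem (LinearMap.range (monoProj E μ))
    (fRegRep F G g ∘ₗ monoProj E μ) hmem
  have h2 : (fRegRep F G g ∘ₗ monoProj E μ).restrict (fun x _ => hmem x)
      = ((monoSub E μ).toRepresentation g :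
        ↥(LinearMap.range (monoProj E μ)) →ₗ[F] ↥(LinearMap.range (monoProj E μ))) := by
    apply LinearMap.ext
    rintro ⟨v, hv⟩
    obtain ⟨f, rfl⟩ := hv
    apply Subtype.ext
    show fRegRep F G g (monoProj E μ (monoProj E μ f)) = fRegRep F G g (monoProj E μ f)
    rw [monoProj_idem]
  have key : LinearMap.trace F (LinearMap.range (monoProj E μ))
      ((monoSub E μ).toRepresentation g)
      = LinearMap.trace F (G → F) (fRegRep F G g ∘ₗ monoProj E μ) := by
    rw [← h2]; exact h1
  show LinearMap.trace F (LinearMap.range (monoProj E μ))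
      ((monoSub E μ).toRepresentation g) = _
  rw [key, LinearMap.trace_eq_matrix_trace F (Pi.basisFun F G), Matrix.trace,
    Finset.mul_sum]
  apply Finset.sum_congr rfl
  intro x _
  rw [Matrix.diag_apply, LinearMap.toMatrix_apply, Pi.basisFun_apply, Pi.basisFun_repr]
  show (Fintype.card E : F)⁻¹ * ∑ e : E, μ e * (Pi.single x 1 : G → F) (g⁻¹ * x * e) = _
  congr 1
  by_cases h : x⁻¹ * g * x ∈ E
  · rw [dif_pos h, Finset.sum_eq_single ⟨x⁻¹ * g * x, h⟩]
    · have : g⁻¹ * x * (x⁻¹ * g * x) = x := by group
      simp only [this, Pi.single_eq_same, mul_one]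
    · intro e _ hne
      rw [Pi.single_apply, if_neg, mul_zero]
      intro heq
      apply hne
      apply Subtype.ext
      show (e : G) = x⁻¹ * g * x
      calc (e : G) = x⁻¹ * g * (g⁻¹ * x * e) := by group
        _ = x⁻¹ * g * x := by rw [heq]
    · intro h'
      exact absurd (Finset.mem_univ _) h'
  · rw [dif_neg h]
    apply Finset.sum_eq_zero
    intro e _
    rw [Pi.single_apply, if_neg, mul_zero]
    intro heq
    apply h
    have : x⁻¹ * g * x = (e : G) := by
      calc x⁻¹ * g * x = x⁻¹ * g * (g⁻¹ * x * e) := by rw [heq]
        _ = (e : G) := by group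
    rw [this]
    exact e.2

/-- The function induced from a linear character with values in `F` is the character of a
representation over `F`. -/
theorem isFChar_indFun_linear [Algebra F ℂ] [Fintype G] (E : Subgroup G) (μ : E →* F) :
    IsFChar F G (indFun E (fun e => algebraMap F ℂ (μ e))) := by
  classical
  haveI : CharZero F := (algebraMap F ℂ).charZero
  haveI : Fintype E := Fintype.ofFinite E
  refine ⟨(monoSub E μ).toSubmodule, inferInstance, inferInstance, inferInstance,
    (monoSub E μ).toRepresentation, fun g => ?_⟩
  rw [monoSub_character, map_mul, map_inv₀, map_natCast, map_sum]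
  unfold indFun
  rw [Nat.card_eq_fintype_card]
  congr 1
  apply Finset.sum_congr rfl
  intro x _
  by_cases h : x⁻¹ * g * x ∈ E
  · rw [dif_pos h, extendByZero_of_mem E _ h]
  · rw [dif_neg h, extendByZero_of_not_mem E _ h, map_zero]

end Monomial

end Cfsg.Agent.Helper3
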