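import Mathlib
import Cfsg.Agent.Helper3.FHDefs
import Cfsg.Agent.Helper80.FH1
import Cfsg.Agent.Helper80.FH2
import Cfsg.Agent.Helper55.FH3
import Cfsg.Agent.Helper55.FH4
import Cfsg.Agent.Helper39.FH5
import Cfsg.Agent.Helper39.FH7
import Cfsg.Agent.Helper39.FH10
import Cfsg.Agent.Helper39.FH15
import Cfsg.Agent.Helper73.FH14
import Cfsg.Agent.Helper65.FH16
import Cfsg.Agent.Helper76.FH6
import Cfsg.Agent.Helper37.FH8
import Cfsg.Agent.Helper37.FH9
import Cfsg.Agent.Helper4.FHSumEven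
import Cfsg.Agent.Helper4.FHSumOdd
import Cfsg.Agent.Helper76.FH11

/-!
Feit–Higman, linear algebra half: a `HeckeCfg` has `m ∈ {2, 3, 4, 6, 8}`.
Assembly of the pieces of CALL S1142-LA.
-/

set_option autoImplicit false

namespace Cfsg.Agent.Helper3.FH

open Real

set_option linter.unusedSectionVars false

variable {Ω : Type*} [Fintype Ω] [DecidableEq Ω]

namespace HeckeCfg

variable (C : HeckeCfg Ω)

theorem z_symm : C.z.transpose = C.z := by
  unfold z
  simp only [Matrix.transpose_sub, Matrix.transpose_add, Matrix.transpose_mul,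
    Matrix.transpose_smul, C.a_symm, C.b_symm]
  abel

theorem z_comm_a : C.z * C.a = C.a * C.z := by
  have h1 : C.b * C.a * C.a = (C.s : ℝ) • C.b + ((C.s : ℝ) - 1) • (C.b * C.a) := by
    rw [mul_assoc, C.a_sq, mul_add, Matrix.mul_smul, Matrix.mul_smul, mul_one]
  have h2 : C.a * (C.a * C.b) = (C.s : ℝ) • C.b + ((C.s : ℝ) - 1) • (C.a * C.b) := by
    rw [← mul_assoc, C.a_sq, add_mul, Matrix.smul_mul, Matrix.smul_mul, one_mul]
  unfold z
  simp only [sub_mul, add_mul, mul_sub, mul_add, Matrix.smul_mul, Matrix.mul_smul]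
  rw [h1, h2, mul_assoc C.a C.b C.a]
  abel

theorem z_comm_b : C.z * C.b = C.b * C.z := by
  have := C.swap.z_comm_a
  rwa [swap_z] at this

theorem aeval_z_comm_a (p : Polynomial ℝ) :
    Polynomial.aeval C.z p * C.a = C.a * Polynomial.aeval C.z p := by
  induction p using Polynomial.induction_on' with
  | add p q hp hq => simp only [map_add, add_mul, mul_add, hp, hq]
  | monomial n r =>
    have h : Commute (C.z ^ n) C.a := (show Commute C.z C.a from C.z_comm_a).pow_left n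
    rw [Polynomial.aeval_monomial, ← Algebra.smul_def, Matrix.smul_mul, Matrix.mul_smul, h.eq]

theorem aeval_z_comm_b (p : Polynomial ℝ) :
    Polynomial.aeval C.z p * C.b = C.b * Polynomial.aeval C.z p := by
  have := C.swap.aeval_z_comm_a p
  rwa [swap_z] at this

theorem aeval_z_symm (p : Polynomial ℝ) :
    (Polynomial.aeval C.z p).transpose = Polynomial.aeval C.z p := by
  induction p using Polynomial.induction_on' with
  | add p q hp hq => simp only [map_add, Matrix.transpose_add, hp, hq]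
  | monomial n r =>
    rw [Polynomial.aeval_monomial, ← Algebra.smul_def, Matrix.transpose_smul,
      Matrix.transpose_pow, C.z_symm]

theorem z_mem_adjoin : C.z ∈ Algebra.adjoin ℝ ({C.a, C.b} : Set (Matrix Ω Ω ℝ)) := by
  have ha : C.a ∈ Algebra.adjoin ℝ ({C.a, C.b} : Set (Matrix Ω Ω ℝ)) :=
    Algebra.subset_adjoin (by simp)
  have hb : C.b ∈ Algebra.adjoin ℝ ({C.a, C.b} : Set (Matrix Ω Ω ℝ)) :=
    Algebra.subset_adjoin (by simp)
  unfold z
  exact Subalgebra.sub_mem _ (Subalgebra.sub_mem _ (Subalgebra.add_mem _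
    (Subalgebra.mul_mem _ ha hb) (Subalgebra.mul_mem _ hb ha)) (Subalgebra.smul_mem _ ha _))
    (Subalgebra.smul_mem _ hb _)

theorem aeval_z_mem_H (p : Polynomial ℝ) : Polynomial.aeval C.z p ∈ C.H := by
  apply Cfsg.Agent.Helper55.fh_adjoin_le_H
  induction p using Polynomial.induction_on' with
  | add p q hp hq =>
    rw [map_add]
    exact Subalgebra.add_mem _ hp hq
  | monomial n r =>
    rw [Polynomial.aeval_monomial, ← Algebra.smul_def]
    exact Subalgebra.smul_mem _ (Subalgebra.pow_mem _ C.z_mem_adjoin n) r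

/-- the spectral data of `z` -/
theorem exists_spec : ∃ (spec : Finset ℝ) (E : ℝ → Matrix Ω Ω ℝ),
    (∀ ζ ∈ spec, C.IsEig (E ζ) ζ ∧ E ζ ∈ C.H ∧ ∃ μ : ℕ, 0 < μ ∧ (E ζ).trace = μ) ∧
    Polynomial.aeval C.z (∏ ζ ∈ spec, (Polynomial.X - Polynomial.C ζ)) = 0 := by
  obtain ⟨spec, E, h1, h2, h3, h4, h5⟩ := Cfsg.Agent.Helper80.fh_spectral_idem C.z C.z_symm
  refine ⟨spec, E, fun ζ hζ => ?_, h5⟩
  obtain ⟨p, hp⟩ := h1 ζ hζ
  obtain ⟨μ, hμ, hμ'⟩ := h4 ζ hζ
  refine ⟨⟨h2 ζ hζ, ?_, ?_, ?_, h3 ζ hζ, ?_⟩, ?_, μ, hμ, hμ'⟩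
  · rw [hp]; exact C.aeval_z_symm p
  · rw [hp]; exact C.aeval_z_comm_a p
  · rw [hp]; exact C.aeval_z_comm_b p
  · rw [hμ']; exact_mod_cast hμ
  · rw [hp]; exact C.aeval_z_mem_H p

theorem tr_transpose_mul {E : Matrix Ω Ω ℝ} (M : Matrix Ω Ω ℝ) (hE : E.transpose = E) :
    (M.transpose * E).trace = (M * E).trace := by
  rw [← Matrix.trace_transpose, Matrix.transpose_mul, Matrix.transpose_transpose, hE,
    Matrix.trace_mul_comm]

theorem cos_facts (s t : ℝ) (hs : 2 ≤ s) (ht : 2 ≤ t) (θ : ℝ) (h0 : 0 < θ) (hπ : θ < π) (x : ℝ)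
    (hx : x = √(s * t) * cos θ) :
    -(s + t) < 2 * x ∧ 2 * x < s * t + 1 ∧ 0 < s * t - x ^ 2 := by
  have hst : 0 ≤ s * t := by positivity
  have hu : √(s * t) * √(s * t) = s * t := Real.mul_self_sqrt hst
  have hu2 : 2 ≤ √(s * t) := by
    apply Real.le_sqrt_of_sq_le
    nlinarith
  have hc1 : cos θ < 1 := by
    have := Real.cos_lt_cos_of_nonneg_of_le_pi (le_refl (0 : ℝ)) hπ.le h0
    simpa using this
  have hc2 : -1 < cos θ := by
    have := Real.cos_lt_cos_of_nonneg_of_le_pi h0.le (le_refl π) hπ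
    simpa using this
  set u := √(s * t) with hudef
  set c := cos θ with hcdef
  have h2u : 2 * u ≤ s + t := by
    by_contra hcon
    push Not at hcon
    nlinarith [sq_nonneg (s - t)]
  subst hx
  refine ⟨?_, ?_, ?_⟩
  · nlinarith
  · nlinarith [sq_nonneg (u - 1)]
  · have : s * t - (u * c) ^ 2 = u * u * (1 - c) * (1 + c) := by rw [← hu]; ring
    rw [this]
    have h1 : 0 < 1 - c := by linarith
    have h2 : 0 < 1 + c := by linarith
    have h3 : 0 < u := by linarith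
    positivity

theorem star_even [Nonempty Ω] (n k : ℕ) (hmn : C.m = 2 * n) (hk : 0 < k) (hkn : k < n)
    {E : Matrix Ω Ω ℝ} {ζ : ℝ} (h : C.IsEig E ζ) (hE : E ∈ C.H)
    (hx : C.xOf ζ = √((C.s : ℝ) * C.t) * cos (k * π / n)) :
    E.trace * (2 * n) * ((C.s : ℝ) + C.t + 2 * C.xOf ζ) * ((C.s : ℝ) * C.t + 1 - 2 * C.xOf ζ)
      = 8 * (Fintype.card Ω : ℝ) * ((C.s : ℝ) * C.t - C.xOf ζ ^ 2) := by
  have hs2 : (2 : ℝ) ≤ C.s := by exact_mod_cast C.hs
  have ht2 : (2 : ℝ) ≤ C.t := by exact_mod_cast C.ht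
  have hn0 : (0 : ℝ) < n := by
    have : 0 < n := by omega
    exact_mod_cast this
  have hθ0 : 0 < (k : ℝ) * π / n := by
    have : (0 : ℝ) < k := by exact_mod_cast hk
    positivity
  have hθπ : (k : ℝ) * π / n < π := by
    rw [div_lt_iff₀ hn0]
    have : (k : ℝ) < n := by exact_mod_cast hkn
    nlinarith [Real.pi_pos]
  obtain ⟨hg1, hg2, hpos⟩ := cos_facts (C.s : ℝ) C.t hs2 ht2 _ hθ0 hθπ _ hx
  have hg : C.Generic ζ := ⟨hg1, hg2⟩
  obtain ⟨g1, g2, g3⟩ := Cfsg.Agent.Helper76.fh_trace_generic C h hg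
  obtain ⟨r1, r2, r3⟩ := Cfsg.Agent.Helper39.fh_trace_rec C h
  obtain ⟨r1', r2', r3'⟩ := Cfsg.Agent.Helper39.fh_trace_rec C.swap h.swap
  simp only [swap_a, swap_b, swap_s, swap_t, swap_xOf] at r1' r2' r3'
  have hsum := Cfsg.Agent.Helper4.fh_sum_even n k hk hkn (C.s : ℝ) (C.t : ℝ) E.trace (C.xOf ζ) (by linarith)
    (by linarith) hx (fun j => (altProd C.a C.b j * E).trace)
    (fun j => (altProd C.b C.a j * E).trace)
    (by simp) (by simp [g1]) (by simp [altProd_two, g3])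
    (by rw [r2, g2, g3]; ring)
    (fun j => r1 j)
    (by simp) (by simp [g2]) (by simp only [altProd_two]; rw [r3, g3])
    (by rw [r2', g1, r3, g3]; ring)
    (fun j => by rw [r1' j]; ring)
  have hpar := Cfsg.Agent.Helper55.fh_parseval C (fun i j hi hj => Cfsg.Agent.Helper80.fh_frob_aa C i j hi hj)
    (fun i j hi hj => Cfsg.Agent.Helper80.fh_frob_aa C.swap i j hi hj)
    (fun i j hi1 hi hj1 hj => Cfsg.Agent.Helper80.fh_frob_ab C i j hi1 hi hj1 hj) E hE
  rw [h.symm, h.idem, hmn] at hpar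
  simp only [tr_transpose_mul _ h.symm] at hpar
  beta_reduce at hsum
  rw [hsum] at hpar
  have hμ : E.trace ≠ 0 := h.tr_pos.ne'
  have hne : (8 : ℝ) * ((C.s : ℝ) * C.t - C.xOf ζ ^ 2) ≠ 0 := by positivity
  rw [eq_div_iff hne] at hpar
  have h3 : E.trace * ((Fintype.card Ω : ℝ) * (8 * ((C.s : ℝ) * C.t - C.xOf ζ ^ 2)))
      = E.trace * (E.trace * (2 * n) * ((C.s : ℝ) + C.t + 2 * C.xOf ζ)
        * ((C.s : ℝ) * C.t + 1 - 2 * C.xOf ζ)) := by
    linear_combination hpar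
  have h4 := mul_left_cancel₀ hμ h3
  rw [← h4]
  ring

theorem seq_eq4 (T T' : ℕ → ℝ) (x c : ℝ) (h0 : T' 0 = T 0) (h1 : T' 1 = T 1)
    (h2 : T' 2 = T 2) (h3 : T' 3 = T 3)
    (hT : ∀ j, T (j + 4) = 2 * x * T (j + 2) - c * T j)
    (hT' : ∀ j, T' (j + 4) = 2 * x * T' (j + 2) - c * T' j) : ∀ j, T' j = T j := by
  intro j
  induction j using Nat.strong_induction_on with
  | _ j ih =>
    match j with
    | 0 => exact h0
    | 1 => exact h1
    | 2 => exact h2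
    | 3 => exact h3
    | (j + 4) => rw [hT, hT', ih (j + 2) (by omega), ih j (by omega)]

theorem star_odd [Nonempty Ω] (n k : ℕ) (hmn : C.m = 2 * n + 1) (hst : C.s = C.t) (hk : 0 < k)
    (hkn : k ≤ n) {E : Matrix Ω Ω ℝ} {ζ : ℝ} (h : C.IsEig E ζ) (hE : E ∈ C.H)
    (hx : C.xOf ζ = (C.s : ℝ) * cos (2 * k * π / (2 * n + 1))) :
    E.trace * (2 * n + 1) * ((C.s : ℝ) + C.s + 2 * C.xOf ζ)
        * ((C.s : ℝ) * C.s + 1 - 2 * C.xOf ζ)
      = 8 * (Fintype.card Ω : ℝ) * ((C.s : ℝ) * C.s - C.xOf ζ ^ 2) := by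
  have hs2 : (2 : ℝ) ≤ C.s := by exact_mod_cast C.hs
  have hts : (C.t : ℝ) = C.s := by rw [hst]
  have hsq : √((C.s : ℝ) * C.s) = C.s := Real.sqrt_mul_self (by linarith)
  have hn0 : (0 : ℝ) < 2 * n + 1 := by positivity
  have hθ0 : 0 < 2 * (k : ℝ) * π / (2 * n + 1) := by
    have : (0 : ℝ) < k := by exact_mod_cast hk
    positivity
  have hθπ : 2 * (k : ℝ) * π / (2 * n + 1) < π := by
    rw [div_lt_iff₀ hn0]
    have : (k : ℝ) ≤ n := by exact_mod_cast hkn
    nlinarith [Real.pi_pos]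
  obtain ⟨hg1, hg2, hpos⟩ := cos_facts (C.s : ℝ) C.s hs2 hs2 _ hθ0 hθπ (C.xOf ζ) (by rw [hsq]; exact hx)
  have hg : C.Generic ζ := ⟨by rw [hts]; exact hg1, by rw [hts]; exact hg2⟩
  obtain ⟨g1, g2, g3⟩ := Cfsg.Agent.Helper76.fh_trace_generic C h hg
  obtain ⟨r1, r2, r3⟩ := Cfsg.Agent.Helper39.fh_trace_rec C h
  obtain ⟨r1', r2', r3'⟩ := Cfsg.Agent.Helper39.fh_trace_rec C.swap h.swap
  simp only [swap_a, swap_b, swap_s, swap_t, swap_xOf] at r1' r2' r3'
  rw [hts] at g2 r2'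
  simp only [hts] at r1 r1'
  have hTT : ∀ j, (altProd C.b C.a j * E).trace = (altProd C.a C.b j * E).trace :=
    seq_eq4 _ _ (C.xOf ζ) ((C.s : ℝ) * C.s) (by simp) (by simp [g1, g2])
      (by simp only [altProd_two]; rw [r3]) (by rw [r2', r2, g1, g2, r3]) r1 r1'
  have hsum := Cfsg.Agent.Helper4.fh_sum_odd n k hk hkn (C.s : ℝ) E.trace (C.xOf ζ) (by linarith) hx
    (fun j => (altProd C.a C.b j * E).trace)
    (by simp) (by simp [g1]) (by simp [altProd_two, g3])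
    (by rw [r2, g2, g3]; ring)
    (fun j => r1 j)
  have hpar := Cfsg.Agent.Helper55.fh_parseval C (fun i j hi hj => Cfsg.Agent.Helper80.fh_frob_aa C i j hi hj)
    (fun i j hi hj => Cfsg.Agent.Helper80.fh_frob_aa C.swap i j hi hj)
    (fun i j hi1 hi hj1 hj => Cfsg.Agent.Helper80.fh_frob_ab C i j hi1 hi hj1 hj) E hE
  rw [h.symm, h.idem, hmn] at hpar
  simp only [tr_transpose_mul _ h.symm, hTT, hts] at hpar
  beta_reduce at hsum
  rw [show 2 * n + 1 + 1 = 2 * n + 2 from rfl, hsum] at hpar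
  have hμ : E.trace ≠ 0 := h.tr_pos.ne'
  have hne : (8 : ℝ) * ((C.s : ℝ) * C.s - C.xOf ζ ^ 2) ≠ 0 := by positivity
  rw [eq_div_iff hne] at hpar
  have h3 : E.trace * ((Fintype.card Ω : ℝ) * (8 * ((C.s : ℝ) * C.s - C.xOf ζ ^ 2)))
      = E.trace * (E.trace * (2 * n + 1) * ((C.s : ℝ) + C.s + 2 * C.xOf ζ)
        * ((C.s : ℝ) * C.s + 1 - 2 * C.xOf ζ)) := by
    linear_combination hpar
  have h4 := mul_left_cancel₀ hμ h3
  rw [← h4]
  ring

/-- the eigenvalue of `z` attached to the parameter `x` -/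
noncomputable def zOf (x : ℝ) : ℝ := 2 * x - ((C.s : ℝ) - 1) * ((C.t : ℝ) - 1)

theorem zOf_xOf (ζ : ℝ) : C.zOf (C.xOf ζ) = ζ := by
  unfold zOf xOf
  ring

theorem xOf_zOf (x : ℝ) : C.xOf (C.zOf x) = x := by
  unfold zOf xOf
  ring

theorem spec_card_ge [Nonempty Ω] (spec : Finset ℝ)
    (h : Polynomial.aeval C.z (∏ ζ ∈ spec, (Polynomial.X - Polynomial.C ζ)) = 0) :
    C.m + 1 ≤ 2 * spec.card := by
  have hp : (∏ ζ ∈ spec, (Polynomial.X - Polynomial.C ζ) : Polynomial ℝ) ≠ 0 :=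
    (Polynomial.monic_prod_of_monic _ _ (fun ζ _ => Polynomial.monic_X_sub_C ζ)).ne_zero
  have := Cfsg.Agent.Helper73.fh_count_poly C (fun i j hi hj => Cfsg.Agent.Helper80.fh_frob_aa C i j hi hj)
    (fun i j hi1 hi hj1 hj => Cfsg.Agent.Helper80.fh_frob_ab C i j hi1 hi hj1 hj) _ hp h
  rwa [Polynomial.natDegree_finsetProd_X_sub_C_eq_card] at this

theorem m_mem_even [Nonempty Ω] (n : ℕ) (hmn : C.m = 2 * n) : n ∈ ({1, 2, 3, 4} : Set ℕ) := by
  obtain ⟨spec, E, hE, hpoly⟩ := C.exists_spec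
  have hcard := C.spec_card_ge spec hpoly
  have hn1 : 1 ≤ n := by have := C.hm; omega
  have hs0 : (0 : ℝ) < C.s := by
    have : 0 < C.s := by have := C.hs; omega
    exact_mod_cast this
  have ht0 : (0 : ℝ) < C.t := by
    have : 0 < C.t := by have := C.ht; omega
    exact_mod_cast this
  set T : Finset ℝ := insert (C.zOf (((C.s : ℝ) * C.t + 1) / 2))
    (insert (C.zOf (-((C.s : ℝ) + C.t) / 2))
      ((Finset.Ioo 0 n).image (fun k : ℕ => C.zOf (√((C.s : ℝ) * C.t) * cos (k * π / n)))))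
    with hT
  have hsub : spec ⊆ T := by
    intro ζ hζ
    obtain ⟨hEig, hH, μ, hμ, hμ'⟩ := hE ζ hζ
    obtain ⟨hb1, hb2⟩ := Cfsg.Agent.Helper39.fh_eig_bounds C hEig
    rcases hb2.eq_or_lt with h | h
    · have : ζ = C.zOf (((C.s : ℝ) * C.t + 1) / 2) := by
        rw [← C.zOf_xOf ζ]
        congr 1
        linarith
      rw [this]
      exact Finset.mem_insert_self _ _
    rcases hb1.eq_or_lt with h' | h'
    · have : ζ = C.zOf (-((C.s : ℝ) + C.t) / 2) := by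
        rw [← C.zOf_xOf ζ]
        congr 1
        linarith
      rw [this]
      exact Finset.mem_insert_of_mem (Finset.mem_insert_self _ _)
    · have hg : C.Generic ζ := ⟨h', h⟩
      have hα := Cfsg.Agent.Helper37.fh_braid_even C n hmn hEig hg
      obtain ⟨k, hk0, hkn, hx⟩ := Cfsg.Agent.Helper39.fh_roots_even n hn1 _ _ (mul_pos hs0 ht0) hα
      apply Finset.mem_insert_of_mem
      apply Finset.mem_insert_of_mem
      rw [Finset.mem_image]
      exact ⟨k, Finset.mem_Ioo.2 ⟨hk0, hkn⟩, by rw [← hx, C.zOf_xOf]⟩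
  have hTcard : T.card ≤ n + 1 := by
    rw [hT]
    have h1 := Finset.card_insert_le (C.zOf (((C.s : ℝ) * C.t + 1) / 2))
      (insert (C.zOf (-((C.s : ℝ) + C.t) / 2))
        ((Finset.Ioo 0 n).image (fun k : ℕ => C.zOf (√((C.s : ℝ) * C.t) * cos (k * π / n)))))
    have h2 := Finset.card_insert_le (C.zOf (-((C.s : ℝ) + C.t) / 2))
      ((Finset.Ioo 0 n).image (fun k : ℕ => C.zOf (√((C.s : ℝ) * C.t) * cos (k * π / n))))
    have h3 : ((Finset.Ioo 0 n).image
        (fun k : ℕ => C.zOf (√((C.s : ℝ) * C.t) * cos (k * π / n)))).card ≤ (Finset.Ioo 0 n).card :=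
      Finset.card_image_le
    have h4 : (Finset.Ioo 0 n).card = n - 1 := by simp
    omega
  have hspecT : spec = T := Finset.eq_of_subset_of_card_le hsub (by omega)
  apply Cfsg.Agent.Helper65.fh_arith_even n hn1 C.s C.t (Fintype.card Ω) C.hs C.ht Fintype.card_pos
  intro k hk hkn
  have hmem : C.zOf (√((C.s : ℝ) * C.t) * cos (k * π / n)) ∈ spec := by
    rw [hspecT]
    apply Finset.mem_insert_of_mem
    apply Finset.mem_insert_of_mem
    exact Finset.mem_image.2 ⟨k, Finset.mem_Ioo.2 ⟨hk, hkn⟩, rfl⟩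
  obtain ⟨hEig, hH, μ, hμ, hμ'⟩ := hE _ hmem
  have hstar := C.star_even n k hmn hk hkn hEig hH (C.xOf_zOf _)
  rw [C.xOf_zOf, hμ'] at hstar
  exact ⟨μ, hμ, hstar⟩

theorem m_mem_odd [Nonempty Ω] (n : ℕ) (hmn : C.m = 2 * n + 1) : n = 1 := by
  have hst : C.s = C.t := Cfsg.Agent.Helper37.fh_odd_s_eq_t C n hmn (fun C' j x => Cfsg.Agent.Helper80.fh_rowsum C' j x)
  have hts : (C.t : ℝ) = C.s := by rw [hst]
  obtain ⟨spec, E, hE, hpoly⟩ := C.exists_spec
  have hcard := C.spec_card_ge spec hpoly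
  have hn1 : 1 ≤ n := by have := C.hm; omega
  have hs0 : (0 : ℝ) < C.s := by
    have : 0 < C.s := by have := C.hs; omega
    exact_mod_cast this
  by_contra hne
  have hn2 : 2 ≤ n := by omega
  set T : Finset ℝ := insert (C.zOf (((C.s : ℝ) * C.t + 1) / 2))
    ((Finset.Icc 1 n).image (fun k : ℕ => C.zOf ((C.s : ℝ) * cos (2 * k * π / (2 * n + 1)))))
    with hT
  have hsub : spec ⊆ T := by
    intro ζ hζ
    obtain ⟨hEig, hH, μ, hμ, hμ'⟩ := hE ζ hζ
    obtain ⟨hb1, hb2⟩ := Cfsg.Agent.Helper39.fh_eig_bounds C hEig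
    obtain ⟨hodd1, hodd2⟩ := Cfsg.Agent.Helper37.fh_braid_odd C n hmn hst hEig
    rcases hb2.eq_or_lt with h | h
    · have : ζ = C.zOf (((C.s : ℝ) * C.t + 1) / 2) := by
        rw [← C.zOf_xOf ζ]
        congr 1
        linarith
      rw [this]
      exact Finset.mem_insert_self _ _
    · have h' : -((C.s : ℝ) + C.t) < 2 * C.xOf ζ := lt_of_le_of_ne hb1 (Ne.symm hodd1)
      have hα := hodd2 ⟨h', h⟩
      rw [hts] at hα
      obtain ⟨k, hk0, hkn, hx⟩ := Cfsg.Agent.Helper76.fh_roots_odd n _ (C.s : ℝ) hs0 hα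
      apply Finset.mem_insert_of_mem
      exact Finset.mem_image.2 ⟨k, Finset.mem_Icc.2 ⟨hk0, hkn⟩, by rw [← hx, C.zOf_xOf]⟩
  have hTcard : T.card ≤ n + 1 := by
    rw [hT]
    have h1 := Finset.card_insert_le (C.zOf (((C.s : ℝ) * C.t + 1) / 2))
      ((Finset.Icc 1 n).image (fun k : ℕ => C.zOf ((C.s : ℝ) * cos (2 * k * π / (2 * n + 1)))))
    have h3 : ((Finset.Icc 1 n).image
        (fun k : ℕ => C.zOf ((C.s : ℝ) * cos (2 * k * π / (2 * n + 1))))).card
          ≤ (Finset.Icc 1 n).card := Finset.card_image_le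
    have h4 : (Finset.Icc 1 n).card = n := by simp
    omega
  have hspecT : spec = T := Finset.eq_of_subset_of_card_le hsub (by omega)
  have hmem : C.zOf ((C.s : ℝ) * cos (2 * ((1 : ℕ) : ℝ) * π / (2 * n + 1))) ∈ spec := by
    rw [hspecT]
    apply Finset.mem_insert_of_mem
    exact Finset.mem_image.2 ⟨1, Finset.mem_Icc.2 ⟨le_refl 1, hn1⟩, rfl⟩
  obtain ⟨hEig, hH, μ, hμ, hμ'⟩ := hE _ hmem
  have hstar := C.star_odd n 1 hmn hst one_pos hn1 hEig hH (C.xOf_zOf _)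
  rw [C.xOf_zOf, hμ'] at hstar
  exact Cfsg.Agent.Helper39.fh_arith_odd n hn2 C.s (Fintype.card Ω) μ C.hs Fintype.card_pos hμ
    ((C.s : ℝ) * cos (2 * ((1 : ℕ) : ℝ) * π / (2 * n + 1)))
    (by rw [Nat.cast_one, mul_one]) hstar

/-- **Feit–Higman**, matrix form: the dihedral Hecke configuration of a thick rank 2 building
exists only for `m ∈ {2, 3, 4, 6, 8}`. -/
theorem m_mem [Nonempty Ω] : C.m ∈ ({2, 3, 4, 6, 8} : Set ℕ) := by
  rcases Nat.even_or_odd' C.m with ⟨n, h | h⟩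
  · have := C.m_mem_even n h
    simp only [Set.mem_insert_iff, Set.mem_singleton_iff] at this ⊢
    omega
  · have := C.m_mem_odd n h
    simp only [Set.mem_insert_iff, Set.mem_singleton_iff]
    omega

end HeckeCfg

end Cfsg.Agent.Helper3.FH
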