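import Cfsg.Agent.Helper45.FldA

set_option autoImplicit false
set_option linter.unusedSectionVars false
set_option linter.unusedSimpArgs false
set_option linter.unusedVariables false
set_option linter.style.haveILetI false

universe u v

namespace Cfsg.Agent.Helper3.FldP

open Matrix Cfsg
open Cfsg.Agent.Helper45.OO (semiAut semiMap glMap)
open Cfsg.Agent.Helper44.POm
open Cfsg.Agent.Helper45.Fld
open Cfsg.Agent.Helper45.Oct (om one8 cj Tri q_one8_ne)

section Plus

variable {F : Type u} [Field F] [Fintype F] {m : ℕ}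

/-- the diagonal vector `(c, c⁻¹)` -/
def sbDiag (c : Fin m → Fˣ) : Fin m ⊕ Fin m → F :=
  Sum.elim (fun i => (c i : F)) (fun i => ((c i)⁻¹ : Fˣ))

omit [Fintype F] in
theorem sbDiag_mul (c c' : Fin m → Fˣ) (j : Fin m ⊕ Fin m) :
    sbDiag (c * c') j = sbDiag c j * sbDiag c' j := by
  rcases j with i | i
  · simp [sbDiag]
  · simp [sbDiag, mul_comm]

omit [Fintype F] in
theorem sbDiag_one (j : Fin m ⊕ Fin m) : sbDiag (1 : Fin m → Fˣ) j = (1 : F) := by
  rcases j with i | i
  · simp [sbDiag]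
  · simp [sbDiag]

omit [Fintype F] in
theorem sbDiag_mul_inv (c : Fin m → Fˣ) :
    Matrix.diagonal (sbDiag c) * Matrix.diagonal (sbDiag c⁻¹)
      = (1 : Matrix (Fin m ⊕ Fin m) (Fin m ⊕ Fin m) F) := by
  rw [Matrix.diagonal_mul_diagonal, ← Matrix.diagonal_one]
  congr 1
  funext j
  rw [← sbDiag_mul, mul_inv_cancel, sbDiag_one]

omit [Fintype F] in
theorem sbDiag_quad (c : Fin m → Fˣ) (x : Fin m ⊕ Fin m → F) :
    quadFormPlus m F (Matrix.diagonal (sbDiag c) *ᵥ x) = quadFormPlus m F x := by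
  unfold quadFormPlus
  apply Finset.sum_congr rfl
  intro i _
  rw [Matrix.mulVec_diagonal, Matrix.mulVec_diagonal]
  show ((c i : F) * x (Sum.inl i)) * ((((c i)⁻¹ : Fˣ) : F) * x (Sum.inr i)) = _
  have h : (c i : F) * (((c i)⁻¹ : Fˣ) : F) = 1 := Units.mul_inv (c i)
  linear_combination (x (Sum.inl i) * x (Sum.inr i)) * h

/-- the isometry `diag(c, c⁻¹)` of the hyperbolic form -/
noncomputable def sbE (c : Fin m → Fˣ) : ↥(isometryGroup F ⇑(Helper43.plusQF m F)) :=
  ⟨⟨Matrix.diagonal (sbDiag c), Matrix.diagonal (sbDiag c⁻¹), sbDiag_mul_inv c, by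
      have h := sbDiag_mul_inv (F := F) c⁻¹
      rw [inv_inv] at h
      exact h⟩,
    (Helper45.mem_iso_iff _ _).mpr (fun x => sbDiag_quad c x)⟩

omit [Fintype F] in
theorem mv_sbE (c : Fin m → Fˣ) (x : Fin m ⊕ Fin m → F) :
    Helper45.mv ⇑(Helper43.plusQF m F) (sbE c) x = fun j => sbDiag c j * x j := by
  funext j
  exact Matrix.mulVec_diagonal _ _ _

omit [Fintype F] in
theorem sbE_mul (c c' : Fin m → Fˣ) : sbE (F := F) (c * c') = sbE c * sbE c' := by
  apply Helper45.ext_mv
  intro x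
  rw [Helper45.mv_mul, mv_sbE, mv_sbE, mv_sbE]
  funext j
  rw [sbDiag_mul, mul_assoc]

/-- `c ↦ diag(c, c⁻¹)` as a homomorphism -/
noncomputable def sbEHom : (Fin m → Fˣ) →* ↥(isometryGroup F ⇑(Helper43.plusQF m F)) :=
  MonoidHom.mk' sbE sbE_mul

omit [Fintype F] in
theorem sb_q (i : Fin m) (c : F) :
    Helper43.plusQF m F (Pi.single (Sum.inl i) 1 - c • Pi.single (Sum.inr i) 1) = -c := by
  show quadFormPlus m F _ = _
  unfold quadFormPlus
  rw [Finset.sum_eq_single i]
  · simp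
  · intro j _ hj
    simp [hj]
  · simp

omit [Fintype F] in
theorem sb_polar (i : Fin m) (c : F) (x : Fin m ⊕ Fin m → F) :
    QuadraticMap.polar ⇑(Helper43.plusQF m F)
      (Pi.single (Sum.inl i) 1 - c • Pi.single (Sum.inr i) 1) x
      = x (Sum.inr i) - c * x (Sum.inl i) := by
  show QuadraticMap.polar (quadFormPlus m F) _ _ = _
  rw [Helper43.OrthEven.polar_plus, Finset.sum_eq_single i]
  · simp
    ring
  · intro j _ hj
    simp [hj]
  · simp

omit [Fintype F] in
theorem sb_refl (i : Fin m) (c : F) (hc : c ≠ 0)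
    (hv : Helper43.plusQF m F (Pi.single (Sum.inl i) 1 - c • Pi.single (Sum.inr i) 1) ≠ 0)
    (x : Fin m ⊕ Fin m → F) :
    Helper45.mv ⇑(Helper43.plusQF m F) (Helper45.reflO (Helper43.plusQF m F)
        (Pi.single (Sum.inl i) 1 - c • Pi.single (Sum.inr i) 1) hv) x
      = Function.update (Function.update x (Sum.inl i) (c⁻¹ * x (Sum.inr i)))
          (Sum.inr i) (c * x (Sum.inl i)) := by
  rw [Helper45.mv_reflO, sb_q, sb_polar]
  funext j
  rcases j with j | j
  · by_cases hj : j = i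
    · subst hj
      simp
      field_simp
      ring
    · simp [hj]
  · by_cases hj : j = i
    · subst hj
      simp
      field_simp
      ring
    · simp [hj]

omit [Fintype F] in
theorem sbE_single (i : Fin m) (w : Fˣ)
    (h1 : Helper43.plusQF m F (Pi.single (Sum.inl i) 1 - (1 : F) • Pi.single (Sum.inr i) 1) ≠ 0)
    (hw : Helper43.plusQF m F (Pi.single (Sum.inl i) 1 - (w : F) • Pi.single (Sum.inr i) 1) ≠ 0) :
    sbE (Pi.mulSingle i w) = Helper45.reflO (Helper43.plusQF m F)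
        (Pi.single (Sum.inl i) 1 - (1 : F) • Pi.single (Sum.inr i) 1) h1 *
      Helper45.reflO (Helper43.plusQF m F)
        (Pi.single (Sum.inl i) 1 - (w : F) • Pi.single (Sum.inr i) 1) hw := by
  apply Helper45.ext_mv
  intro x
  rw [Helper45.mv_mul, sb_refl i (w : F) w.ne_zero, sb_refl i 1 one_ne_zero, mv_sbE]
  funext j
  rcases j with j | j
  · by_cases hj : j = i
    · subst hj
      simp [sbDiag]
    · simp [sbDiag, hj]
  · by_cases hj : j = i
    · subst hj
      simp [sbDiag]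
    · simp [sbDiag, hj]

theorem sb_spin_single (h2 : (2 : F) ≠ 0) (ε : F) (hε : ¬ IsSquare ε) (i : Fin m) (w : Fˣ) :
    Helper45.spin ⇑(Helper43.plusQF m F) 1 (sbE (Pi.mulSingle i w))
        = Helper45.spin ⇑(Helper43.plusQF m F) ε (sbE (Pi.mulSingle i w)) ∧
      (Helper45.spin ⇑(Helper43.plusQF m F) ε (sbE (Pi.mulSingle i w)) = 1 ↔ IsSquare (w : F)) := by
  have h1 : Helper43.plusQF m F (Pi.single (Sum.inl i) 1 - (1 : F) • Pi.single (Sum.inr i) 1) ≠ 0 := by
    rw [sb_q]
    exact neg_ne_zero.mpr one_ne_zero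
  have hw : Helper43.plusQF m F (Pi.single (Sum.inl i) 1 - (w : F) • Pi.single (Sum.inr i) 1) ≠ 0 := by
    rw [sb_q]
    exact neg_ne_zero.mpr w.ne_zero
  obtain ⟨h3, h4, -⟩ := Helper45.spin_prod_refl (Helper43.plusQF m F) h2 ε hε
    [Pi.single (Sum.inl i) 1 - (1 : F) • Pi.single (Sum.inr i) 1,
      Pi.single (Sum.inl i) 1 - (w : F) • Pi.single (Sum.inr i) 1]
    (by
      intro v hv
      rcases List.mem_cons.mp hv with rfl | hv
      · exact h1
      · rcases List.mem_cons.mp hv with rfl | hv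
        · exact hw
        · exact absurd hv (List.not_mem_nil))
    (sbE (Pi.mulSingle i w)) (by
      rw [sbE_single i w h1 hw]
      simp only [List.map_cons, List.map_nil, List.prod_cons, List.prod_nil, mul_one]
      rfl)
  simp only [List.map_cons, List.map_nil, List.prod_cons, List.prod_nil, mul_one, sb_q,
    List.length_cons, List.length_nil] at h3 h4
  have h5 : (-1 : F) * -(w : F) = (w : F) := by ring
  rw [h5] at h4
  refine ⟨?_, h4⟩
  have h6 : Helper45.spin ⇑(Helper43.plusQF m F) 1 (sbE (Pi.mulSingle i w))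
      * Helper45.spin ⇑(Helper43.plusQF m F) ε (sbE (Pi.mulSingle i w)) = 1 := by
    rw [h3]
    decide
  calc Helper45.spin ⇑(Helper43.plusQF m F) 1 (sbE (Pi.mulSingle i w))
      = Helper45.spin ⇑(Helper43.plusQF m F) 1 (sbE (Pi.mulSingle i w))
        * (Helper45.spin ⇑(Helper43.plusQF m F) ε (sbE (Pi.mulSingle i w))
          * Helper45.spin ⇑(Helper43.plusQF m F) ε (sbE (Pi.mulSingle i w))) := by
        rw [Int.units_mul_self, mul_one]
    _ = Helper45.spin ⇑(Helper43.plusQF m F) ε (sbE (Pi.mulSingle i w)) := by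
        rw [← mul_assoc, h6, one_mul]

theorem sb_spin_prod (c : F) (f : Fin m → Fˣ) :
    Helper45.spin ⇑(Helper43.plusQF m F) c (sbE f)
      = ∏ i : Fin m, Helper45.spin ⇑(Helper43.plusQF m F) c (sbE (Pi.mulSingle i (f i))) := by
  have h := map_prod ((Helper45.spin ⇑(Helper43.plusQF m F) c).comp (sbEHom (F := F) (m := m)))
    (fun i => Pi.mulSingle i (f i)) Finset.univ
  rw [Finset.univ_prod_mulSingle] at h
  exact h

theorem sb_spin_const (h2 : (2 : F) ≠ 0) (ε : F) (hε : ¬ IsSquare ε) (w : Fˣ) :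
    (IsSquare (w : F) →
      Helper45.spin ⇑(Helper43.plusQF m F) 1 (sbE (fun _ : Fin m => w)) = 1 ∧
      Helper45.spin ⇑(Helper43.plusQF m F) ε (sbE (fun _ : Fin m => w)) = 1) ∧
    (¬ IsSquare (w : F) →
      Helper45.spin ⇑(Helper43.plusQF m F) 1 (sbE (fun _ : Fin m => w)) = (-1) ^ m ∧
      Helper45.spin ⇑(Helper43.plusQF m F) ε (sbE (fun _ : Fin m => w)) = (-1) ^ m) := by
  constructor
  · intro hsq
    have key : ∀ i : Fin m,
        Helper45.spin ⇑(Helper43.plusQF m F) ε (sbE (Pi.mulSingle i w)) = 1 :=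
      fun i => (sb_spin_single h2 ε hε i w).2.mpr hsq
    constructor
    · rw [sb_spin_prod]
      apply Finset.prod_eq_one
      intro i _
      rw [(sb_spin_single h2 ε hε i w).1, key i]
    · rw [sb_spin_prod]
      apply Finset.prod_eq_one
      intro i _
      exact key i
  · intro hsq
    have key : ∀ i : Fin m,
        Helper45.spin ⇑(Helper43.plusQF m F) ε (sbE (Pi.mulSingle i w)) = -1 := by
      intro i
      rcases Int.units_eq_one_or (Helper45.spin ⇑(Helper43.plusQF m F) ε (sbE (Pi.mulSingle i w)))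
        with h | h
      · exact absurd ((sb_spin_single h2 ε hε i w).2.mp h) hsq
      · exact h
    constructor
    · rw [sb_spin_prod]
      rw [Finset.prod_congr rfl (fun i _ => by rw [(sb_spin_single h2 ε hε i w).1, key i]),
        Finset.prod_const, Finset.card_univ, Fintype.card_fin]
    · rw [sb_spin_prod]
      rw [Finset.prod_congr rfl (fun i _ => key i),
        Finset.prod_const, Finset.card_univ, Fintype.card_fin]

/-- `diag(ω, ω⁻¹)` lies in `Ω` iff `ω ^ m` is a square -/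
theorem sbE_mem_omega_iff (hm : 1 ≤ m) (h2 : (2 : F) ≠ 0) (ω : F) (hω : ω ≠ 0) :
    sbE (fun _ : Fin m => Units.mk0 ω hω) ∈ Omega F ⇑(Helper43.plusQF m F) ↔ IsSquare (ω ^ m) := by
  obtain ⟨ε, hε⟩ := FiniteField.exists_nonsquare (Helper45.ringChar_ne_two h2)
  have hcard : 2 ≤ Fintype.card (Fin m ⊕ Fin m) := by
    rw [Fintype.card_sum, Fintype.card_fin]
    omega
  rw [Helper45.mem_omega_iff (Helper43.plusQF m F) h2 (Helper45.plusQF_nondeg' m) hcard ε hε]
  obtain ⟨hA, hB⟩ := sb_spin_const (m := m) h2 ε hε (Units.mk0 ω hω)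
  by_cases hsq : IsSquare ω
  · have h := hA hsq
    constructor
    · intro _
      exact hsq.pow m
    · intro _
      exact h
  · obtain ⟨h1, h3⟩ := hB hsq
    rw [h1, h3]
    have hne : (-1 : ℤˣ) ≠ 1 := by decide
    constructor
    · rintro ⟨h4, -⟩
      obtain ⟨k, hk⟩ := (neg_one_pow_eq_one_iff_even hne).mp h4
      exact ⟨ω ^ k, by rw [hk, pow_add]⟩
    · intro h4
      have hev : Even m := by
        by_contra hodd
        rw [Nat.not_even_iff_odd] at hodd
        obtain ⟨k, hk⟩ := hodd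
        have h5 : ω ^ m = ω * (ω ^ k * ω ^ k) := by
          rw [hk]
          ring
        rw [h5] at h4
        exact Helper45.not_isSquare_mul hsq ⟨ω ^ k, rfl⟩
          (mul_ne_zero (pow_ne_zero _ hω) (pow_ne_zero _ hω)) h4
      exact ⟨(neg_one_pow_eq_one_iff_even hne).mpr hev, (neg_one_pow_eq_one_iff_even hne).mpr hev⟩

/-- PIECE SB -/
theorem Dc_sq_inn_iff (hm : 3 ≤ m) (hodd : Odd (Fintype.card F))
    (hneg : Helper45.negO (Helper43.plusQF m F) ∈ Omega F ⇑(Helper43.plusQF m F))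
    (ω : F) (hω : ω ≠ 0) (t : MulAut (POmega F (quadFormPlus m F)))
    (ht : Helper45.Ind (quadFormPlus m F) (DcGL m (ω * ω) (mul_ne_zero hω hω)) t) :
    t ∈ Inn (POmega F (quadFormPlus m F)) ↔ IsSquare (ω ^ m) := by
  have h2 : (2 : F) ≠ 0 := Helper45.two_ne_zero_of_odd_card hodd
  rw [← sbE_mem_omega_iff (by omega) h2 ω hω]
  have hTind : Helper45.Ind ⇑(Helper43.plusQF m F)
      ((sbE (fun _ : Fin m => Units.mk0 ω hω) : ↥(isometryGroup F ⇑(Helper43.plusQF m F))) :
        GL (Fin m ⊕ Fin m) F) t := by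
    have hsc := Helper45.ind_scalar (quadFormPlus m F)
      (scGL (ι := Fin m ⊕ Fin m) ω⁻¹ (inv_ne_zero hω)) ω⁻¹
      (scGL_coe ω⁻¹ (inv_ne_zero hω))
    have h3 := Helper45.ind_mul (quadFormPlus m F) (DcGL_sim (m := m) (ω * ω) (mul_ne_zero hω hω))
      hsc ht
    rw [one_mul] at h3
    have h4 : scGL (ι := Fin m ⊕ Fin m) ω⁻¹ (inv_ne_zero hω)
        * DcGL m (ω * ω) (mul_ne_zero hω hω)
        = ((sbE (fun _ : Fin m => Units.mk0 ω hω) : ↥(isometryGroup F ⇑(Helper43.plusQF m F))) :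
          GL (Fin m ⊕ Fin m) F) := by
      apply Units.ext
      rw [Units.val_mul, scGL_coe, DcGL_coe]
      show _ = Matrix.diagonal (sbDiag (fun _ : Fin m => Units.mk0 ω hω))
      rw [Matrix.smul_mul, Matrix.one_mul]
      unfold Dc
      rw [← Matrix.diagonal_smul]
      congr 1
      funext j
      rcases j with j | j
      · show ω⁻¹ * (ω * ω) = ω
        field_simp
      · show ω⁻¹ * 1 = ((Units.mk0 ω hω)⁻¹ : Fˣ)
        simp
    rw [h4] at h3
    exact h3
  constructor
  · intro hinn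
    have hne : ∃ v, Helper43.plusQF m F v ≠ 0 :=
      ⟨Pi.single (Sum.inl (⟨0, by omega⟩ : Fin m)) 1
        - (1 : F) • Pi.single (Sum.inr (⟨0, by omega⟩ : Fin m)) 1, by
        rw [sb_q]
        exact neg_ne_zero.mpr one_ne_zero⟩
    exact Helper45.omega_of_mem_inn (Helper43.plusQF m F)
      (fun g hg h1 => Helper45.scalar_of_ind_one_plus h2 hm g hg h1) hneg hne _ t hTind hinn
  · intro hT
    exact Helper45.mem_inn_of_ind_omega (Helper43.plusQF m F) _ hT t hTind

end Plus

end Cfsg.Agent.Helper3.FldP
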