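import Cfsg.Agent.Helper45.FldB
import Cfsg.Agent.Helper3.QFEigen

set_option autoImplicit false
set_option linter.unusedSectionVars false
set_option linter.unusedSimpArgs false
set_option linter.unusedVariables false
set_option linter.style.haveILetI false

universe u

namespace Cfsg.Agent.Helper3.Gr

open Matrix Cfsg

section Gen

variable {ι : Type} [Fintype ι] [DecidableEq ι] {F : Type u} [Field F] [Fintype F]
  (Q : QuadraticForm F (ι → F))

omit [Fintype F] in
/-- an isometry commutes with the reflection in an eigenvector for the eigenvalue `± 1` -/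
theorem comm_reflO_of_eigen (k : ↥(isometryGroup F ⇑Q)) (a : ι → F) (ha : Q a ≠ 0)
    (h : Helper45.mv ⇑Q k a = a ∨ Helper45.mv ⇑Q k a = -a) :
    k * Helper45.reflO Q a ha = Helper45.reflO Q a ha * k := by
  apply Helper45.ext_mv
  intro x
  rw [Helper45.mv_mul, Helper45.mv_mul, Helper45.mv_reflO, Helper45.mv_reflO, Helper45.mv_sub,
    Helper45.mv_smul]
  rcases h with h | h
  · have h1 := Helper45.mv_polar Q k a x
    rw [h] at h1
    rw [h, h1]
  · have h1 := Helper45.mv_polar Q k a x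
    rw [h, QuadraticMap.polar_neg_left] at h1
    have h3 : QuadraticMap.polar ⇑Q a (Helper45.mv ⇑Q k x) = -QuadraticMap.polar ⇑Q a x := by
      linear_combination -h1
    rw [h, h3, mul_neg, neg_smul, smul_neg]

/-- PIECE EV -/
theorem exists_eigen_pair (h2 : (2 : F) ≠ 0) (hQ : (QuadraticMap.polarBilin Q).Nondegenerate)
    (hn : 5 ≤ Fintype.card ι) (k : ↥(isometryGroup F ⇑Q)) (hk : k * k = 1) :
    ∃ (u w : ι → F) (hu : Q u ≠ 0) (hw : Q w ≠ 0), ¬ IsSquare (Q u * Q w) ∧
      k * (Helper45.reflO Q u hu * Helper45.reflO Q w hw)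
        = (Helper45.reflO Q u hu * Helper45.reflO Q w hw) * k := by
  have hM : ∀ v, Q (((k : GL ι F) : Matrix ι ι F) *ᵥ v) = Q v := fun v => Helper45.mv_quad ⇑Q k v
  have hMM : ((k : GL ι F) : Matrix ι ι F) * ((k : GL ι F) : Matrix ι ι F) = 1 := by
    have h1 := congrArg (fun x : ↥(isometryGroup F ⇑Q) => ((x : GL ι F) : Matrix ι ι F)) hk
    exact h1
  have key : ∀ (a b : ι → F) (ha : Q a ≠ 0) (hb : Q b ≠ 0),
      (Helper45.mv ⇑Q k a = a ∨ Helper45.mv ⇑Q k a = -a) →
      (Helper45.mv ⇑Q k b = b ∨ Helper45.mv ⇑Q k b = -b) →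
      k * (Helper45.reflO Q a ha * Helper45.reflO Q b hb)
        = (Helper45.reflO Q a ha * Helper45.reflO Q b hb) * k := by
    intro a b ha hb h1 h3
    rw [← mul_assoc, comm_reflO_of_eigen Q k a ha h1, mul_assoc, comm_reflO_of_eigen Q k b hb h3,
      mul_assoc]
  by_cases hM1 : ((k : GL ι F) : Matrix ι ι F) = 1
  · obtain ⟨ε, hε⟩ := FiniteField.exists_nonsquare (Helper45.ringChar_ne_two h2)
    obtain ⟨u, hu⟩ := Helper45.exists_norm_eq Q h2 hQ (by omega) 1
    obtain ⟨w, hw⟩ := Helper45.exists_norm_eq Q h2 hQ (by omega) ε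
    have hε0 : ε ≠ 0 := fun h0 => hε (by rw [h0]; exact ⟨0, by simp⟩)
    have hall : ∀ x, Helper45.mv ⇑Q k x = x := by
      intro x
      show ((k : GL ι F) : Matrix ι ι F) *ᵥ x = x
      rw [hM1, Matrix.one_mulVec]
    refine ⟨u, w, by rw [hu]; exact one_ne_zero, by rw [hw]; exact hε0, ?_, ?_⟩
    · rw [hu, hw, one_mul]
      exact hε
    · exact key u w _ _ (Or.inl (hall u)) (Or.inl (hall w))
  · by_cases hM2 : ((k : GL ι F) : Matrix ι ι F) = -1
    · obtain ⟨ε, hε⟩ := FiniteField.exists_nonsquare (Helper45.ringChar_ne_two h2)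
      obtain ⟨u, hu⟩ := Helper45.exists_norm_eq Q h2 hQ (by omega) 1
      obtain ⟨w, hw⟩ := Helper45.exists_norm_eq Q h2 hQ (by omega) ε
      have hε0 : ε ≠ 0 := fun h0 => hε (by rw [h0]; exact ⟨0, by simp⟩)
      have hall : ∀ x, Helper45.mv ⇑Q k x = -x := by
        intro x
        show ((k : GL ι F) : Matrix ι ι F) *ᵥ x = -x
        rw [hM2, Matrix.neg_mulVec, Matrix.one_mulVec]
      refine ⟨u, w, by rw [hu]; exact one_ne_zero, by rw [hw]; exact hε0, ?_, ?_⟩
      · rw [hu, hw, one_mul]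
        exact hε
      · exact key u w _ _ (Or.inr (hall u)) (Or.inr (hall w))
    · obtain ⟨a, b, ha, hb, hnsq, hea, heb⟩ := Cfsg.Agent.Helper3.QFP.exists_eigen_pair Q h2 hQ
        (by omega) ((k : GL ι F) : Matrix ι ι F) hM hMM hM1 hM2
      exact ⟨a, b, ha, hb, hnsq, key a b ha hb hea heb⟩

end Gen

end Cfsg.Agent.Helper3.Gr
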