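import Cfsg.Agent.Helper45.FldB

set_option autoImplicit false
set_option linter.unusedSectionVars false
set_option linter.unusedSimpArgs false
set_option linter.unusedVariables false
set_option linter.style.haveILetI false

universe u

namespace Cfsg.Agent.Helper3.Gr

open Matrix Cfsg

/-- in the dihedral group of order eight, two distinct non-identity elements of the centraliser of
`y` generate `y` -/
theorem d8_cent_words : ∀ y u u' : DihedralGroup 4, u * y = y * u → u' * y = y * u' → u ≠ 1 →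
    u' ≠ 1 → u' ≠ u →
    (y = 1 ∨ y = u ∨ y = u' ∨ y = u * u' ∨ y = u * u ∨ y = u' * u' ∨ y = u * u * u ∨
      y = u' * u' * u' ∨ y = u * u' * (u * u')) := by
  decide

section Grp

variable {X : Type*} [Group X]

/-- PIECE GB -/
theorem cent_dichotomy_d8 (P D I : Subgroup X) (hID : I ≤ D) (hDP : D ≤ P)
    (φ : ↥P →* DihedralGroup 4) (hker : φ.ker = I.subgroupOf P) (γ : X) (hγP : γ ∈ P)
    (hγD : γ ∉ D) (c c' : X) (hc : c ∈ D) (hc' : c' ∈ D) (hcγ : c * γ = γ * c)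
    (hc'γ : c' * γ = γ * c') (hcI : c ∉ I) : c' ∈ I ∨ c' * c⁻¹ ∈ I := by
  by_contra hcon
  push Not at hcon
  obtain ⟨hc'I, hcc'⟩ := hcon
  obtain ⟨Γ, hΓ⟩ : ∃ Γ : ↥P, Γ = ⟨γ, hγP⟩ := ⟨_, rfl⟩
  obtain ⟨C, hC⟩ : ∃ C : ↥P, C = ⟨c, hDP hc⟩ := ⟨_, rfl⟩
  obtain ⟨C', hC'⟩ : ∃ C' : ↥P, C' = ⟨c', hDP hc'⟩ := ⟨_, rfl⟩
  have hCD : (C : X) ∈ D := by rw [hC]; exact hc
  have hC'D : (C' : X) ∈ D := by rw [hC']; exact hc'
  have hmemI : ∀ d : ↥P, φ d = 1 → (d : X) ∈ I := by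
    intro d hd
    have h1 : d ∈ φ.ker := hd
    rw [hker, Subgroup.mem_subgroupOf] at h1
    exact h1
  have hno : ∀ d : ↥P, (d : X) ∈ D → φ Γ ≠ φ d := by
    intro d hd h
    have h1 : φ (Γ * d⁻¹) = 1 := by rw [map_mul, map_inv, h, mul_inv_cancel]
    have h3 : ((Γ * d⁻¹ : ↥P) : X) ∈ I := hmemI _ h1
    have h4 : γ * (d : X)⁻¹ ∈ D := by
      have h5 : ((Γ * d⁻¹ : ↥P) : X) = γ * (d : X)⁻¹ := by rw [hΓ]; rfl
      rw [← h5]
      exact hID h3
    have h6 : γ * (d : X)⁻¹ * (d : X) ∈ D := D.mul_mem h4 hd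
    rw [inv_mul_cancel_right] at h6
    exact hγD h6
  have h1 : φ C * φ Γ = φ Γ * φ C := by
    rw [← map_mul, ← map_mul]
    congr 1
    rw [hC, hΓ]
    exact Subtype.ext hcγ
  have h3 : φ C' * φ Γ = φ Γ * φ C' := by
    rw [← map_mul, ← map_mul]
    congr 1
    rw [hC', hΓ]
    exact Subtype.ext hc'γ
  have h4 : φ C ≠ 1 := by
    intro h
    apply hcI
    have := hmemI C h
    rw [hC] at this
    exact this
  have h5 : φ C' ≠ 1 := by
    intro h
    apply hc'I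
    have := hmemI C' h
    rw [hC'] at this
    exact this
  have h6 : φ C' ≠ φ C := by
    intro h
    apply hcc'
    have h7 : φ (C' * C⁻¹) = 1 := by rw [map_mul, map_inv, h, mul_inv_cancel]
    have := hmemI _ h7
    rw [hC, hC'] at this
    exact this
  rcases d8_cent_words (φ Γ) (φ C) (φ C') h1 h3 h4 h5 h6 with h | h | h | h | h | h | h | h | h
  · exact hno 1 D.one_mem (by rw [h, map_one])
  · exact hno C hCD h
  · exact hno C' hC'D h
  · exact hno (C * C') (D.mul_mem hCD hC'D) (by rw [h, map_mul])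
  · exact hno (C * C) (D.mul_mem hCD hCD) (by rw [h, map_mul])
  · exact hno (C' * C') (D.mul_mem hC'D hC'D) (by rw [h, map_mul])
  · exact hno (C * C * C) (D.mul_mem (D.mul_mem hCD hCD) hCD) (by rw [h, map_mul, map_mul])
  · exact hno (C' * C' * C') (D.mul_mem (D.mul_mem hC'D hC'D) hC'D) (by rw [h, map_mul, map_mul])
  · exact hno (C * C' * (C * C')) (D.mul_mem (D.mul_mem hCD hC'D) (D.mul_mem hCD hC'D))
      (by rw [h, map_mul, map_mul])

end Grp

end Cfsg.Agent.Helper3.Gr
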