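import Cfsg.Agent.Helper45.Spinor

set_option autoImplicit false
set_option linter.unusedSectionVars false
set_option linter.unusedSimpArgs false
set_option linter.unusedVariables false

/-!
# A nonsingular vector orthogonal to its image under a similarity with scalar square

`Q` a nondegenerate quadratic form on `ι → F` (`F` finite of odd characteristic), `M` a similarity
with nonsquare multiplier `μ` and `M * M = ± μ`: there is a nonsingular `x` with `x ⟂ M x`.
(Lemma L-B for S2718/S2719: then `r_x r_{Mx}` is an isometry of determinant one and nonsquare spinor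
norm that commutes with `M`.)
-/

namespace Cfsg.Agent.Helper3.QFP

open Cfsg Matrix

universe u

section

variable {ι : Type} [Fintype ι] [DecidableEq ι] {F : Type u} [Field F]

/-- a vector as a combination of the standard basis -/
theorem vec_eq_sum (x : ι → F) : x = ∑ i, x i • (Pi.single i (1 : F) : ι → F) := by
  funext j
  rw [Finset.sum_apply]
  simp [Pi.single_apply]

/-- expansion of a bilinear form in coordinates -/
theorem bilin_expand (B : LinearMap.BilinForm F (ι → F)) (L : (ι → F) →ₗ[F] (ι → F)) (x : ι → F) :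
    B x (L x) = ∑ i, ∑ j, B (Pi.single i 1) (L (Pi.single j 1)) * x i * x j := by
  conv_lhs => rw [vec_eq_sum x]
  rw [map_sum, LinearMap.sum_apply]
  apply Finset.sum_congr rfl
  intro i _
  rw [map_smul, LinearMap.smul_apply, map_sum, map_sum, smul_eq_mul, Finset.mul_sum]
  apply Finset.sum_congr rfl
  intro j _
  rw [map_smul, map_smul, smul_eq_mul]
  ring

/-- the polynomial of a quadratic function given by a coefficient matrix -/
noncomputable def qpoly (G : ι → ι → F) : MvPolynomial ι F :=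
  ∑ i, ∑ j, MvPolynomial.C (G i j) * MvPolynomial.X i * MvPolynomial.X j

theorem qpoly_eval (G : ι → ι → F) (x : ι → F) :
    MvPolynomial.eval x (qpoly G) = ∑ i, ∑ j, G i j * x i * x j := by
  unfold qpoly
  simp only [map_sum, map_mul, MvPolynomial.eval_C, MvPolynomial.eval_X]

theorem qpoly_totalDegree (G : ι → ι → F) : (qpoly G).totalDegree ≤ 2 := by
  unfold qpoly
  apply MvPolynomial.totalDegree_finsetSum_le
  intro i _
  apply MvPolynomial.totalDegree_finsetSum_le
  intro j _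
  refine (MvPolynomial.totalDegree_mul _ _).trans ?_
  have h1 := MvPolynomial.totalDegree_mul (MvPolynomial.C (G i j)) (MvPolynomial.X i : MvPolynomial ι F)
  rw [MvPolynomial.totalDegree_C, MvPolynomial.totalDegree_X] at h1
  rw [MvPolynomial.totalDegree_X]
  omega

/-- Chevalley–Warning for two quadratic functions in at least five variables -/
theorem exists_common_zero [Fintype F] (hcard : 5 ≤ Fintype.card ι) (G₁ G₂ : ι → ι → F) :
    ∃ a : ι → F, a ≠ 0 ∧ (∑ i, ∑ j, G₁ i j * a i * a j) = 0 ∧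
      (∑ i, ∑ j, G₂ i j * a i * a j) = 0 := by
  classical
  have hp : (ringChar F).Prime := CharP.char_is_prime F (ringChar F)
  have hdvd := char_dvd_card_solutions_of_add_lt (ringChar F) (f₁ := qpoly G₁) (f₂ := qpoly G₂) (by
    have h1 := qpoly_totalDegree G₁
    have h2 := qpoly_totalDegree G₂
    omega)
  have h0 : MvPolynomial.eval (0 : ι → F) (qpoly G₁) = 0 ∧
      MvPolynomial.eval (0 : ι → F) (qpoly G₂) = 0 := by
    rw [qpoly_eval, qpoly_eval]
    simp
  have hpos : 0 < Fintype.card {x : ι → F // MvPolynomial.eval x (qpoly G₁) = 0 ∧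
      MvPolynomial.eval x (qpoly G₂) = 0} := Fintype.card_pos_iff.mpr ⟨⟨0, h0⟩⟩
  have hlt : 1 < Fintype.card {x : ι → F // MvPolynomial.eval x (qpoly G₁) = 0 ∧
      MvPolynomial.eval x (qpoly G₂) = 0} :=
    lt_of_lt_of_le hp.one_lt (Nat.le_of_dvd hpos hdvd)
  obtain ⟨⟨a, ha⟩, hne⟩ := Fintype.exists_ne_of_one_lt_card hlt ⟨0, h0⟩
  refine ⟨a, fun h => hne (Subtype.ext h), ?_, ?_⟩
  · rw [← qpoly_eval]
    exact ha.1
  · rw [← qpoly_eval]
    exact ha.2

end

section Main

variable {ι : Type} [Fintype ι] [DecidableEq ι] {F : Type u} [Field F] [Fintype F]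
  (Q : QuadraticForm F (ι → F))

/-- **Lemma L-B.** A similarity `M` with nonsquare multiplier `μ` and `M * M = ± μ` has a nonsingular
vector `x` orthogonal to `M x`. -/
theorem exists_nonsing_perp (h2 : (2 : F) ≠ 0) (hQ : (QuadraticMap.polarBilin Q).Nondegenerate)
    (hcard : 5 ≤ Fintype.card ι) (M : Matrix ι ι F) (μ : F) (hμ : ¬ IsSquare μ)
    (hM : ∀ v, Q (M *ᵥ v) = μ * Q v) (hMM : M * M = μ • 1 ∨ M * M = (-μ) • 1) :
    ∃ x : ι → F, Q x ≠ 0 ∧ QuadraticMap.polar ⇑Q x (M *ᵥ x) = 0 := by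
  have hμ0 : μ ≠ 0 := by
    rintro rfl
    exact hμ ⟨0, by simp⟩
  -- polar form identities
  have hBM : ∀ x y, QuadraticMap.polar ⇑Q (M *ᵥ x) (M *ᵥ y) = μ * QuadraticMap.polar ⇑Q x y := by
    intro x y
    unfold QuadraticMap.polar
    rw [← Matrix.mulVec_add, hM, hM, hM]
    ring
  have hself : ∀ x, QuadraticMap.polar ⇑Q x x = 2 * Q x := by
    intro x
    rw [QuadraticMap.polar_self]
    simp
  rcases hMM with hMM | hMM
  · -- the self-adjoint case
    have hMMv : ∀ x, M *ᵥ (M *ᵥ x) = μ • x := by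
      intro x
      rw [Matrix.mulVec_mulVec, hMM, Matrix.smul_mulVec, Matrix.one_mulVec]
    have hadj : ∀ x y, QuadraticMap.polar ⇑Q (M *ᵥ x) y = QuadraticMap.polar ⇑Q x (M *ᵥ y) := by
      intro x y
      have h1 := hBM (M *ᵥ x) y
      rw [hMMv, QuadraticMap.polar_smul_left, smul_eq_mul] at h1
      exact (mul_left_cancel₀ hμ0 h1).symm
    -- a common zero
    obtain ⟨a, ha0, ha1, ha2⟩ := exists_common_zero hcard
      (fun i j => QuadraticMap.polarBilin Q (Pi.single i 1) (Pi.single j 1))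
      (fun i j => QuadraticMap.polarBilin Q (Pi.single i 1) (M *ᵥ Pi.single j 1))
    have hQa : Q a = 0 := by
      have h1 := bilin_expand (QuadraticMap.polarBilin Q) LinearMap.id a
      simp only [LinearMap.id_apply] at h1
      rw [ha1] at h1
      have h3 : QuadraticMap.polar ⇑Q a a = 0 := h1
      rw [hself] at h3
      rcases mul_eq_zero.mp h3 with h4 | h4
      · exact absurd h4 h2
      · exact h4
    have hBa : QuadraticMap.polar ⇑Q a (M *ᵥ a) = 0 := by
      have h1 := bilin_expand (QuadraticMap.polarBilin Q) (Matrix.mulVecLin M) a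
      simp only [Matrix.mulVecLin_apply] at h1
      rw [ha2] at h1
      exact h1
    have hQMa : Q (M *ᵥ a) = 0 := by rw [hM, hQa, mul_zero]
    obtain ⟨b₀, hb₀⟩ : ∃ b₀, QuadraticMap.polar ⇑Q a b₀ ≠ 0 := by
      by_contra hcon
      push Not at hcon
      exact ha0 (hQ.1 a hcon)
    obtain ⟨h₁, hh₁⟩ : ∃ h₁ : F, h₁ = QuadraticMap.polar ⇑Q (M *ᵥ a) b₀ := ⟨_, rfl⟩
    obtain ⟨h₂, hh₂⟩ : ∃ h₂ : F, h₂ = QuadraticMap.polar ⇑Q a b₀ := ⟨_, rfl⟩
    obtain ⟨k₁, hk₁⟩ : ∃ k₁ : F, k₁ = QuadraticMap.polar ⇑Q b₀ (M *ᵥ b₀) := ⟨_, rfl⟩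
    have hh₂0 : h₂ ≠ 0 := by rw [hh₂]; exact hb₀
    have hD : h₁ ^ 2 - μ * h₂ ^ 2 ≠ 0 := by
      intro h0
      apply hμ
      refine ⟨h₁ / h₂, ?_⟩
      field_simp
      linear_combination -h0
    obtain ⟨l₁, hl₁⟩ : ∃ l₁ : F, l₁ = ((1 - 2 * Q b₀) / 2 * (μ * h₂) - h₁ * (-k₁ / 2))
        / (-(h₁ ^ 2 - μ * h₂ ^ 2)) := ⟨_, rfl⟩
    obtain ⟨l₂, hl₂⟩ : ∃ l₂ : F, l₂ = (h₂ * (-k₁ / 2) - h₁ * ((1 - 2 * Q b₀) / 2))
        / (-(h₁ ^ 2 - μ * h₂ ^ 2)) := ⟨_, rfl⟩
    have e1 : l₁ * h₂ + l₂ * h₁ = (1 - 2 * Q b₀) / 2 := by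
      rw [hl₁, hl₂]
      field_simp
      ring
    have e2 : l₁ * h₁ + μ * l₂ * h₂ = -k₁ / 2 := by
      rw [hl₁, hl₂]
      field_simp
      ring
    have e1' : 2 * (l₁ * h₂ + l₂ * h₁) = 1 - 2 * Q b₀ := by
      rw [e1]
      field_simp
    have e2' : 2 * (l₁ * h₁ + μ * l₂ * h₂) = -k₁ := by
      rw [e2]
      field_simp
    refine ⟨l₁ • a + l₂ • M *ᵥ a + b₀, ?_, ?_⟩
    · have hQx : Q (l₁ • a + l₂ • M *ᵥ a + b₀) = Q b₀ + l₁ * h₂ + l₂ * h₁ := by
        rw [Helper13.Q_add', Helper13.Q_add']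
        simp only [QuadraticMap.map_smul, QuadraticMap.polar_add_left, QuadraticMap.polar_smul_left,
          QuadraticMap.polar_smul_right, hQa, hQMa, hBa, ← hh₁, ← hh₂, smul_eq_mul]
        ring
      intro h0
      rw [hQx] at h0
      have h3 : (1 : F) = 0 := by linear_combination (-1 : F) * e1' + 2 * h0
      exact one_ne_zero h3
    · have hMx : M *ᵥ (l₁ • a + l₂ • M *ᵥ a + b₀)
          = l₁ • M *ᵥ a + (l₂ * μ) • a + M *ᵥ b₀ := by
        rw [Matrix.mulVec_add, Matrix.mulVec_add, Matrix.mulVec_smul, Matrix.mulVec_smul, hMMv,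
          smul_smul]
      rw [hMx]
      have p1 : QuadraticMap.polar ⇑Q a (M *ᵥ b₀) = h₁ := by rw [← hadj, hh₁]
      have p2 : QuadraticMap.polar ⇑Q (M *ᵥ a) (M *ᵥ b₀) = μ * h₂ := by rw [hBM, hh₂]
      have p3 : QuadraticMap.polar ⇑Q b₀ (M *ᵥ a) = h₁ := by
        rw [QuadraticMap.polar_comm, hh₁]
      have p4 : QuadraticMap.polar ⇑Q b₀ a = h₂ := by rw [QuadraticMap.polar_comm, hh₂]
      have p5 : QuadraticMap.polar ⇑Q (M *ᵥ a) a = 0 := by rw [QuadraticMap.polar_comm, hBa]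
      have p6 : QuadraticMap.polar ⇑Q (M *ᵥ a) (M *ᵥ a) = 0 := by rw [hself, hQMa, mul_zero]
      have p7 : QuadraticMap.polar ⇑Q a a = 0 := by rw [hself, hQa, mul_zero]
      simp only [QuadraticMap.polar_add_left, QuadraticMap.polar_add_right,
        QuadraticMap.polar_smul_left, QuadraticMap.polar_smul_right, smul_eq_mul, p1, p2, p3, p4, p5,
        p6, p7, hBa, ← hk₁]
      linear_combination e2'
  · -- the skew case: every vector is orthogonal to its image
    have hMMv : ∀ x, M *ᵥ (M *ᵥ x) = (-μ) • x := by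
      intro x
      rw [Matrix.mulVec_mulVec, hMM, Matrix.smul_mulVec, Matrix.one_mulVec]
    have hall : ∀ x, QuadraticMap.polar ⇑Q x (M *ᵥ x) = 0 := by
      intro x
      have h1 := hBM x (M *ᵥ x)
      rw [hMMv, QuadraticMap.polar_smul_right, smul_eq_mul,
        QuadraticMap.polar_comm ⇑Q (M *ᵥ x) x] at h1
      have h3 : μ * (2 * QuadraticMap.polar ⇑Q x (M *ᵥ x)) = 0 := by linear_combination -h1
      rcases mul_eq_zero.mp h3 with h4 | h4
      · exact absurd h4 hμ0
      · rcases mul_eq_zero.mp h4 with h5 | h5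
        · exact absurd h5 h2
        · exact h5
    obtain ⟨u, hu⟩ := Helper45.exists_norm_eq Q h2 hQ (by omega) 1
    exact ⟨u, by rw [hu]; exact one_ne_zero, hall u⟩

end Main

end Cfsg.Agent.Helper3.QFP
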