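import Cfsg.Agent.Helper45.FldB
import Cfsg.Agent.Helper3.QFPerp

set_option autoImplicit false
set_option linter.unusedSectionVars false
set_option linter.unusedSimpArgs false
set_option linter.unusedVariables false
set_option linter.style.haveILetI false

universe u

namespace Cfsg.Agent.Helper3.Gr

open Matrix Cfsg

section Gen

variable {ι : Type} [Fintype ι] [DecidableEq ι] {F : Type u} [Field F] [Fintype F]
  (Q : QuadraticForm F (ι → F))

/-- PIECE SA -/
theorem exists_perp_image (h2 : (2 : F) ≠ 0) (hQ : (QuadraticMap.polarBilin Q).Nondegenerate)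
    (hn : 6 ≤ Fintype.card ι) (g : GL ι F) (μ : F) (hμ : ¬ IsSquare μ)
    (hg2 : (g : Matrix ι ι F) * (g : Matrix ι ι F) = μ • (1 : Matrix ι ι F))
    (hc : ∀ x, Q ((g : Matrix ι ι F) *ᵥ x) = μ * Q x) :
    ∃ v : ι → F, Q v ≠ 0 ∧ QuadraticMap.polar ⇑Q v ((g : Matrix ι ι F) *ᵥ v) = 0 :=
  Cfsg.Agent.Helper3.QFP.exists_nonsing_perp Q h2 hQ (by omega) (g : Matrix ι ι F) μ hμ hc
    (Or.inl hg2)

end Gen

end Cfsg.Agent.Helper3.Gr
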