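import Mathlib
import Cfsg.Prelude.Def_GeometricClasses
import Cfsg.Agent.Helper90.IMDefs
import Cfsg.Agent.Helper90.BGChain

set_option autoImplicit false

namespace Cfsg.Agent.Helper3

open Module Polynomial Cfsg.Agent.Helper90.IM

section
variable {F : Type*} [Field F] {V : Type*} [AddCommGroup V] [Module F V] [FiniteDimensional F V]

/-- core of `lines_basis`, with the cyclic-basis lemma (piece MB) for invariant subspaces as a hypothesis -/
theorem lines_basis_core (T : V →ₗ[F] V) (r : ℕ) (hr : r.Prime) (hrF : (r : F) ≠ 0) (hT : T ^ r = 1)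
    (hMB : ∀ (N : Submodule F V) (T' : ↥N →ₗ[F] ↥N),
      aeval T' (∑ j ∈ Finset.range r, (X : F[X]) ^ j) = 0 →
      ∀ hd0 : 0 < r - 1, ∃ (s : ℕ) (b : Basis (Fin s × Fin (r - 1)) F ↥N),
        ∀ j i, b (j, i) = (T' ^ (i : ℕ)) (b (j, ⟨0, hd0⟩)))
    (n : ℕ) (hn : finrank F V = n)
    (h : n ≤ r * finrank F (LinearMap.ker (T - 1))) :
    ∃ (b : Basis (Fin n) F V) (π : Equiv.Perm (Fin n)), ∀ i, T (b i) = b (π i) := by
  classical
  have : NeZero r := ⟨hr.ne_zero⟩
  have hr2 : 2 ≤ r := hr.two_le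
  have hd0 : 0 < r - 1 := by omega
  obtain ⟨S, hS⟩ : ∃ S : Module.End F V, S = ∑ j ∈ Finset.range r, T ^ j := ⟨_, rfl⟩
  have hTS : T * S = S := by
    have h1 := mul_geom_sum T r
    rw [hT, sub_self, ← hS, sub_mul, one_mul, sub_eq_zero] at h1
    exact h1
  have hST : S * T = S := by
    have h1 := geom_sum_mul T r
    rw [hT, sub_self, ← hS, mul_sub, mul_one, sub_eq_zero] at h1
    exact h1
  have hSpow : ∀ k : ℕ, S * T ^ k = S := by
    intro k
    induction k with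
    | zero => rw [pow_zero, mul_one]
    | succ k ih => rw [pow_succ, ← mul_assoc, ih, hST]
  have hSS : S * S = (r : F) • S := by
    have h1 : S * ∑ j ∈ Finset.range r, T ^ j = (r : F) • S := by
      rw [Finset.mul_sum, Finset.sum_congr rfl (fun k _ => hSpow k), Finset.sum_const,
        Finset.card_range, Nat.cast_smul_eq_nsmul]
    rwa [← hS] at h1
  obtain ⟨E, hEdef⟩ : ∃ E : Submodule F V, E = LinearMap.ker (T - 1) := ⟨_, rfl⟩
  obtain ⟨N, hNdef⟩ : ∃ N : Submodule F V, N = LinearMap.ker S := ⟨_, rfl⟩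
  have hE : ∀ x, x ∈ E ↔ T x = x := by
    intro x
    rw [hEdef]
    exact Cfsg.Agent.Helper90.BG.mem_ker_sub_one T x
  have hNmem : ∀ x, x ∈ N ↔ S x = 0 := by
    intro x
    rw [hNdef, LinearMap.mem_ker]
  have hEpow : ∀ x ∈ E, ∀ k : ℕ, (T ^ k) x = x := by
    intro x hx k
    induction k with
    | zero => rfl
    | succ k ih => rw [pow_succ, Module.End.mul_apply, (hE x).mp hx, ih]
  have hSE : ∀ x ∈ E, S x = (r : F) • x := by
    intro x hx
    rw [hS, LinearMap.sum_apply, Finset.sum_congr rfl (fun k _ => hEpow x hx k), Finset.sum_const,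
      Finset.card_range, Nat.cast_smul_eq_nsmul]
  have hinf : E ⊓ N = ⊥ := by
    rw [eq_bot_iff]
    rintro x ⟨hxE, hxN⟩
    have h1 := hSE x hxE
    rw [(hNmem x).mp hxN] at h1
    rcases smul_eq_zero.mp h1.symm with h2 | h2
    · exact absurd h2 hrF
    · exact h2
  have hsup : E ⊔ N = ⊤ := by
    rw [eq_top_iff]
    intro x _
    have hx : x = (r : F)⁻¹ • S x + (x - (r : F)⁻¹ • S x) := by abel
    rw [hx]
    refine Submodule.add_mem_sup (E.smul_mem _ ?_) ?_
    · rw [hE, ← Module.End.mul_apply, hTS]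
    · rw [hNmem, map_sub, map_smul, ← Module.End.mul_apply, hSS, LinearMap.smul_apply, smul_smul,
        inv_mul_cancel₀ hrF, one_smul, sub_self]
  have hNinv : ∀ x ∈ N, T x ∈ N := by
    intro x hx
    rw [hNmem, ← Module.End.mul_apply, hST]
    exact (hNmem x).mp hx
  obtain ⟨T', hT'⟩ : ∃ T' : ↥N →ₗ[F] ↥N, T' = T.restrict hNinv := ⟨_, rfl⟩
  have hT'pow : ∀ (k : ℕ) (x : ↥N), (((T' ^ k) x : ↥N) : V) = (T ^ k) (x : V) := by
    intro k
    induction k with
    | zero => intro x; rfl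
    | succ k ih =>
      intro x
      rw [pow_succ, Module.End.mul_apply, ih, pow_succ, Module.End.mul_apply, hT']
      rfl
  have hT'Φ : aeval T' (∑ j ∈ Finset.range r, (X : F[X]) ^ j) = 0 := by
    rw [Cfsg.Agent.Helper90.BG.aeval_phi]
    ext x
    rw [LinearMap.sum_apply, Submodule.coe_sum, Finset.sum_congr rfl (fun k _ => hT'pow k x),
      ← LinearMap.sum_apply, ← hS]
    exact (hNmem _).mp x.2
  obtain ⟨s, b, hb⟩ := hMB N T' hT'Φ hd0
  obtain ⟨w, hw⟩ : ∃ w : Fin s → V, w = fun j => ((b (j, ⟨0, hd0⟩) : ↥N) : V) := ⟨_, rfl⟩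
  have hbw : ∀ j i, ((b (j, i) : ↥N) : V) = (T ^ (i : ℕ)) (w j) := by
    intro j i
    rw [hb, hT'pow, hw]
  have hSw : ∀ j, S (w j) = 0 := by
    intro j
    rw [hw]
    exact (hNmem _).mp (b (j, ⟨0, hd0⟩)).2
  obtain ⟨e, he⟩ : ∃ e : ℕ, e = finrank F ↥E := ⟨_, rfl⟩
  obtain ⟨bE, -⟩ : ∃ bE : Basis (Fin e) F ↥E, bE = bE := by
    rw [he]
    exact ⟨Module.finBasis F ↥E, rfl⟩
  obtain ⟨u, hu⟩ : ∃ u : Fin e → V, u = fun k => ((bE k : ↥E) : V) := ⟨_, rfl⟩
  have huE : ∀ k, u k ∈ E := by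
    intro k
    rw [hu]
    exact (bE k).2
  -- dimensions
  have hdimN : finrank F ↥N = s * (r - 1) := by
    rw [Module.finrank_eq_card_basis b, Fintype.card_prod, Fintype.card_fin, Fintype.card_fin]
  have hdim : n = e + s * (r - 1) := by
    have h1 := Submodule.finrank_sup_add_finrank_inf_eq E N
    rw [hsup, hinf, finrank_top, finrank_bot, add_zero, hn, hdimN, ← he] at h1
    exact h1
  have hse : s ≤ e := by
    rw [← hEdef, ← he] at h
    have h1 : r * e = e + (r - 1) * e := by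
      obtain ⟨d, hd⟩ : ∃ d, r = d + 1 := ⟨r - 1, by omega⟩
      rw [hd]
      simp only [Nat.add_sub_cancel]
      ring
    have h3 : s * (r - 1) ≤ e * (r - 1) := by
      rw [mul_comm e (r - 1)]
      omega
    exact Nat.le_of_mul_le_mul_right h3 hd0
  -- the family
  obtain ⟨v, hv⟩ : ∃ v : (Fin s × Fin r) ⊕ Fin (e - s) → V,
      v = Sum.elim (fun p : Fin s × Fin r => (T ^ (p.2 : ℕ)) (w p.1 + u (Fin.castLE hse p.1)))
        (fun l : Fin (e - s) => u ⟨s + (l : ℕ), by have := l.2; omega⟩) := ⟨_, rfl⟩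
  obtain ⟨π, hπ⟩ : ∃ π : Equiv.Perm ((Fin s × Fin r) ⊕ Fin (e - s)),
      π = Equiv.sumCongr (Equiv.prodCongr (Equiv.refl _) (Equiv.addRight (1 : Fin r)))
        (Equiv.refl _) := ⟨_, rfl⟩
  have hTv : ∀ i, T (v i) = v (π i) := by
    rintro (⟨j, i⟩ | l)
    · rw [hv, hπ]
      show T ((T ^ (i : ℕ)) (w j + u _)) = (T ^ ((i + 1 : Fin r) : ℕ)) (w j + u _)
      rw [← Module.End.mul_apply, ← pow_succ', Fin.val_add, Fin.val_one', Nat.add_mod_mod,
        ← pow_eq_pow_mod _ hT]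
      rfl
    · rw [hv, hπ]
      show T (u _) = u _
      exact (hE _).mp (huE _)
  obtain ⟨M, hM⟩ : ∃ M : Submodule F V, M = Submodule.span F (Set.range v) := ⟨_, rfl⟩
  have hvM : ∀ i, v i ∈ M := by
    intro i
    rw [hM]
    exact Submodule.subset_span ⟨i, rfl⟩
  have stepa : ∀ j : Fin s, u (Fin.castLE hse j) ∈ M := by
    intro j
    have hsum : ∑ i : Fin r, v (Sum.inl (j, i)) = (r : F) • u (Fin.castLE hse j) := by
      rw [hv]
      show ∑ i : Fin r, (T ^ (i : ℕ)) (w j + u (Fin.castLE hse j)) = _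
      rw [Fin.sum_univ_eq_sum_range (fun k => (T ^ k) (w j + u (Fin.castLE hse j))) r,
        ← LinearMap.sum_apply, ← hS, map_add, hSE _ (huE _), hSw j, zero_add]
    have h1 : u (Fin.castLE hse j) = (r : F)⁻¹ • ∑ i : Fin r, v (Sum.inl (j, i)) := by
      rw [hsum, smul_smul, inv_mul_cancel₀ hrF, one_smul]
    rw [h1]
    exact M.smul_mem _ (M.sum_mem fun i _ => hvM _)
  have stepb : ∀ (j : Fin s) (i : Fin r), (T ^ (i : ℕ)) (w j) ∈ M := by
    intro j i
    have h1 : (T ^ (i : ℕ)) (w j) = v (Sum.inl (j, i)) - u (Fin.castLE hse j) := by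
      rw [hv]
      show _ = (T ^ (i : ℕ)) (w j + u (Fin.castLE hse j)) - u (Fin.castLE hse j)
      rw [map_add, hEpow _ (huE _), add_sub_cancel_right]
    rw [h1]
    exact M.sub_mem (hvM _) (stepa j)
  have stepc : ∀ k : Fin e, u k ∈ M := by
    intro k
    by_cases hk : (k : ℕ) < s
    · have h1 : k = Fin.castLE hse ⟨k, hk⟩ := Fin.ext rfl
      rw [h1]
      exact stepa _
    · have h1 : u k = v (Sum.inr ⟨(k : ℕ) - s, by omega⟩) := by
        rw [hv]
        show u k = u ⟨s + ((k : ℕ) - s), _⟩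
        congr 1
        apply Fin.ext
        show (k : ℕ) = s + ((k : ℕ) - s)
        omega
      rw [h1]
      exact hvM _
  have hEM : E ≤ M := by
    intro x hx
    have h1 := congrArg Subtype.val (bE.sum_repr ⟨x, hx⟩)
    rw [Submodule.coe_sum] at h1
    rw [show x = ((⟨x, hx⟩ : ↥E) : V) from rfl, ← h1]
    refine M.sum_mem fun k _ => ?_
    rw [Submodule.coe_smul]
    refine M.smul_mem _ ?_
    have h2 := stepc k
    rw [hu] at h2
    exact h2
  have hNM : N ≤ M := by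
    intro x hx
    have h1 := congrArg Subtype.val (b.sum_repr ⟨x, hx⟩)
    rw [Submodule.coe_sum] at h1
    rw [show x = ((⟨x, hx⟩ : ↥N) : V) from rfl, ← h1]
    refine M.sum_mem fun p _ => ?_
    rw [Submodule.coe_smul]
    refine M.smul_mem _ ?_
    rw [hbw]
    exact stepb p.1 (Fin.castLE (by omega) p.2)
  have hspan : ⊤ ≤ Submodule.span F (Set.range v) := by
    rw [← hM, ← hsup]
    exact sup_le hEM hNM
  have hcard : Fintype.card ((Fin s × Fin r) ⊕ Fin (e - s)) = finrank F V := by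
    rw [Fintype.card_sum, Fintype.card_prod, Fintype.card_fin, Fintype.card_fin, Fintype.card_fin,
      hn, hdim]
    have h1 : s * r = s * (r - 1) + s := by
      obtain ⟨d, hd⟩ : ∃ d, r = d + 1 := ⟨r - 1, by omega⟩
      rw [hd]
      simp only [Nat.add_sub_cancel]
      ring
    omega
  obtain ⟨B, hB⟩ : ∃ B : Basis ((Fin s × Fin r) ⊕ Fin (e - s)) F V, ⇑B = v :=
    ⟨basisOfTopLeSpanOfCardEqFinrank v hspan hcard, coe_basisOfTopLeSpanOfCardEqFinrank v hspan hcard⟩
  obtain ⟨eqv⟩ : Nonempty (((Fin s × Fin r) ⊕ Fin (e - s)) ≃ Fin n) :=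
    ⟨Fintype.equivFinOfCardEq (hcard.trans hn)⟩
  refine ⟨B.reindex eqv, eqv.symm.trans (π.trans eqv), fun i => ?_⟩
  rw [Basis.reindex_apply, Basis.reindex_apply, hB, hTv]
  simp

end

end Cfsg.Agent.Helper3
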