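import Mathlib
import Cfsg.Prelude.Def_GeometricClasses
import Cfsg.Agent.Helper90.IMDefs
import Cfsg.Agent.Helper3.IMLINESCore
import Cfsg.Agent.Helper20.IMMB

set_option autoImplicit false

namespace Cfsg.Agent.Helper3

open Module Polynomial Cfsg.Agent.Helper90.IM

section
variable {F : Type*} [Field F] {V : Type*} [AddCommGroup V] [Module F V] [FiniteDimensional F V]

/-- PIECE LINES of CALL S5958 -/
theorem lines_basis (T : V →ₗ[F] V) (r : ℕ) (hr : r.Prime) (hrF : (r : F) ≠ 0) (hT : T ^ r = 1)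
    (hirr : Irreducible (∑ j ∈ Finset.range r, (X : F[X]) ^ j)) (n : ℕ) (hn : finrank F V = n)
    (h : n ≤ r * finrank F (LinearMap.ker (T - 1))) :
    ∃ (b : Basis (Fin n) F V) (π : Equiv.Perm (Fin n)), ∀ i, T (b i) = b (π i) := by
  have hdeg : (∑ j ∈ Finset.range r, (X : F[X]) ^ j).natDegree = r - 1 := by
    have : Fact r.Prime := ⟨hr⟩
    rw [← Polynomial.cyclotomic_prime F r, Polynomial.natDegree_cyclotomic, Nat.totient_prime hr]
  exact lines_basis_core T r hr hrF hT
    (fun N T' hPT hd0 => Cfsg.Agent.Helper20.cyc_basis T' _ hirr hPT (r - 1) hdeg hd0) n hn h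

end

end Cfsg.Agent.Helper3
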