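import Cfsg.Agent.Helper64.MRDefs

/-!
# CALL MR (helper64), piece YADD: relation (R1) for the units `1 + t e_r`.
-/

set_option autoImplicit false

namespace Cfsg.Agent.Helper3.MRYADD

open Cfsg Cfsg.Lie Cfsg.Agent.Helper36 Cfsg.Agent.Helper64.UC Cfsg.Agent.Helper64.UC2
open Cfsg.Agent.Helper64.MR

/-- PIECE YADD: relation (R1) for the units `1 + t e_r`. -/
theorem y_add {R : SRep} {D : ChevalleyDatum} (K : Type*) [Field K]
    (hsq : ∀ r < D.nroots, R.op K r * R.op K r = 0) :
    ∀ r < D.nroots, ∀ t u : K, R.y D K r t * R.y D K r u = R.y D K r (t + u) := by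
  intro r hr t u
  apply Units.ext
  rw [Units.val_mul, R.y_val D K hr (hsq r hr), R.y_val D K hr (hsq r hr),
    R.y_val D K hr (hsq r hr)]
  rw [add_mul, one_mul, mul_add, mul_one, smul_mul_smul_comm, hsq r hr, smul_zero, add_zero,
    add_smul]
  abel

end Cfsg.Agent.Helper3.MRYADD
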