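import Cfsg.Agent.Helper64.MRDefs

/-!
# CALL MR (helper64), piece YCOMM: relation (R2) for the units `1 + t e_r`.
-/

set_option autoImplicit false

namespace Cfsg.Agent.Helper3.MRYCOMM

open Cfsg Cfsg.Lie Cfsg.Agent.Helper36 Cfsg.Agent.Helper64.UC Cfsg.Agent.Helper64.UC2
open Cfsg.Agent.Helper64.MR

/-- The algebra behind (R2): `(1 + u f)(1 + t e) = (1 + t e)(1 + u f)(1 + C (-t) u g)` when
`e f - f e = C g`, `e g = 0`, `f g = 0`. -/
theorem mry_alg {K A : Type*} [Field K] [Ring A] [Algebra K A] (e f g : A) (C t u : K)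
    (h1 : e * f - f * e = C • g) (h2 : e * g = 0) (h3 : f * g = 0) :
    (1 + u • f) * (1 + t • e) =
      (1 + t • e) * (1 + u • f) * (1 + (C * (-t) ^ 1 * u ^ 1) • g) := by
  have h1' : e * f = f * e + C • g := by rw [← h1]; abel
  have h4 : e * f * g = 0 := by rw [mul_assoc, h3, mul_zero]
  simp only [pow_one, mul_add, add_mul, one_mul, mul_one, smul_mul_assoc, mul_smul_comm, smul_smul,
    h2, h3, h4, smul_zero, add_zero]
  rw [h1']
  module

/-- The commuting case. -/
theorem mry_alg0 {K A : Type*} [Field K] [Ring A] [Algebra K A] (e f : A) (t u : K)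
    (h1 : e * f = f * e) :
    (1 + u • f) * (1 + t • e) = (1 + t • e) * (1 + u • f) := by
  simp only [mul_add, add_mul, one_mul, mul_one, smul_mul_assoc, mul_smul_comm, smul_smul, h1]
  module

/-- PIECE YCOMM: relation (R2) for the units `1 + t e_r`. -/
theorem y_comm {R : SRep} {D : ChevalleyDatum} (C2 : Cert2 D) (K : Type*) [Field K]
    (hsq : ∀ r < D.nroots, R.op K r * R.op K r = 0)
    (hc0 : ∀ r < D.nroots, ∀ s < D.nroots, s ≠ r → s ≠ D.neg r → D.commTerms r s = [] →
      R.op K r * R.op K s = R.op K s * R.op K r)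
    (hc1 : ∀ r < D.nroots, ∀ s < D.nroots, s ≠ r → s ≠ D.neg r → ∀ (k : ℕ) (C : ℤ),
      D.commTerms r s = [(k, C, 1, 1)] →
      R.op K r * R.op K s - R.op K s * R.op K r = (C : K) • R.op K k ∧
        R.op K r * R.op K k = 0 ∧ R.op K s * R.op K k = 0) :
    ∀ r < D.nroots, ∀ s < D.nroots, s ≠ r → s ≠ D.neg r → ∀ t u : K,
      R.y D K s u * R.y D K r t =
        R.y D K r t * R.y D K s u * sW (R.y D K) (D.commWord K r s t u) := by
  intro r hr s hs hsr hsn t u
  rcases C2.shape r hr s hs hsr hsn with h0 | ⟨k, C, -, hk, -, hT⟩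
  · have hw : D.commWord K r s t u = [] := by
      unfold ChevalleyDatum.commWord
      rw [h0]
      rfl
    rw [hw, sW_nil, mul_one]
    apply Units.ext
    rw [Units.val_mul, Units.val_mul, R.y_val D K hr (hsq r hr), R.y_val D K hs (hsq s hs)]
    exact mry_alg0 _ _ t u (hc0 r hr s hs hsr hsn h0)
  · have hw : D.commWord K r s t u = [(k, (C : K) * (-t) ^ 1 * u ^ 1)] := by
      unfold ChevalleyDatum.commWord
      rw [hT]
      rfl
    obtain ⟨e1, e2, e3⟩ := hc1 r hr s hs hsr hsn k C hT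
    rw [hw, sW_cons, sW_nil, mul_one]
    apply Units.ext
    rw [Units.val_mul, Units.val_mul, Units.val_mul, R.y_val D K hr (hsq r hr),
      R.y_val D K hs (hsq s hs), R.y_val D K hk (hsq k hk)]
    exact mry_alg _ _ _ (C : K) t u e1 e2 e3

end Cfsg.Agent.Helper3.MRYCOMM
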