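import Mathlib
import Cfsg.Agent.Helper43.OTDefs
import Cfsg.Agent.Helper43.OrthStd
import Cfsg.Agent.Helper43.PrimeOrdO
import Cfsg.Agent.Helper42.U5996OddOmega

set_option autoImplicit false

/-!
# CALL OT (S5972) piece XFER (helper3, double): transport of an isometry of odd prime order of a
nondegenerate quadratic space of dimension `2d+1` to `Ω_{2d+1}`.
-/

namespace Cfsg.Agent.Helper3.OT5972

open Module Polynomial Cfsg.Agent.Helper90.HT Cfsg.Agent.Helper43.OT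
open Cfsg.Agent.Helper43.C3O (gm)

universe u

section grp2

variable {F : Type u} [Field F] [Fintype F] {ι : Type} [Fintype ι] [DecidableEq ι]

/-- XFER (uses `Helper43.OrthStd.exists_basis_odd`, `similitude_matrix`, MODD): transport of an
isometry of odd prime order of a nondegenerate quadratic space of dimension `2d+1` to `Ω_{2d+1}`. -/
theorem ot_xfer (h2 : (2 : F) ≠ 0) (d : ℕ) (hd : 1 ≤ d) {V' : Type*} [AddCommGroup V']
    [Module F V'] [FiniteDimensional F V'] (Q' : QuadraticForm F V')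
    (hnd : ∀ v, (∀ w, QuadraticMap.polar Q' v w = 0) → v = 0) (hdim : finrank F V' = 2 * d + 1)
    (T : Module.End F V') (hT : ∀ v, Q' (T v) = Q' v) (r : ℕ) [Fact r.Prime] (hr2 : 2 < r)
    (hTr : T ^ r = 1) (hT1 : T ≠ 1) :
    ∃ (x : Matrix.GeneralLinearGroup (Unit ⊕ (Fin d ⊕ Fin d)) F)
      (Φ : V' ≃ₗ[F] (Unit ⊕ (Fin d ⊕ Fin d) → F)),
      x ∈ Cfsg.Geo.omegaGL (Cfsg.quadFormOdd d F) ∧ orderOf x = r ∧
      (∀ v, Cfsg.quadFormOdd d F (Φ v) = 0 ↔ Q' v = 0) ∧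
      ∀ v, Matrix.toLin' (x : Matrix (Unit ⊕ (Fin d ⊕ Fin d)) (Unit ⊕ (Fin d ⊕ Fin d)) F) (Φ v) =
        Φ (T v) := by
  classical
  have hrp : r.Prime := Fact.out
  obtain ⟨b, c, hc, hb⟩ := Cfsg.Agent.Helper43.OrthStd.exists_basis_odd (m := d) hdim Q' hnd
  set A : Matrix (Unit ⊕ (Fin d ⊕ Fin d)) (Unit ⊕ (Fin d ⊕ Fin d)) F :=
    LinearMap.toMatrix b b T with hAdef
  have hA : ∀ x, Cfsg.quadFormOdd d F (A.mulVec x) = Cfsg.quadFormOdd d F x :=
    Cfsg.Agent.Helper43.OrthStd.similitude_matrix Q' T hT b (Cfsg.quadFormOdd d F) c hc hb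
  have hAr : A ^ r = 1 := by
    rw [hAdef, ← Cfsg.Agent.Helper43.OrthStd.toMatrix_pow', hTr, LinearMap.toMatrix_one]
  have hA1 : A ≠ 1 := by
    intro h
    apply hT1
    apply (LinearMap.toMatrix b b).injective
    rw [LinearMap.toMatrix_one]
    exact h
  let x : Matrix.GeneralLinearGroup (Unit ⊕ (Fin d ⊕ Fin d)) F := ⟨A, A ^ (r - 1), by
    rw [← pow_succ', Nat.sub_add_cancel hrp.one_le, hAr], by
    rw [← pow_succ, Nat.sub_add_cancel hrp.one_le, hAr]⟩
  have hxr : x ^ r = 1 := Units.ext (by rw [Units.val_pow_eq_pow_val]; exact hAr)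
  have hx1 : x ≠ 1 := by
    intro h
    apply hA1
    exact (congrArg
      (fun y : Matrix.GeneralLinearGroup (Unit ⊕ (Fin d ⊕ Fin d)) F =>
        (y : Matrix (Unit ⊕ (Fin d ⊕ Fin d)) (Unit ⊕ (Fin d ⊕ Fin d)) F)) h : A = 1)
  have hodd : Odd r := hrp.odd_of_ne_two (by omega)
  have hxiso : x ∈ Cfsg.isometryGroup F ⇑(Cfsg.Agent.Helper43.oddQF d F) := by
    intro u v
    exact hA u
  have hxΩ : x ∈ Cfsg.Geo.omegaGL ⇑(Cfsg.Agent.Helper43.oddQF d F) :=
    Cfsg.Agent.Helper42.odd_order_mem_omega h2 (Cfsg.Agent.Helper43.oddQF d F)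
      (Cfsg.Agent.Helper43.PrimeOrdO.oddQF_nondeg h2 d) x hxiso r hodd hxr
  refine ⟨x, b.equivFun, hxΩ, orderOf_eq_prime hxr hx1, ?_, ?_⟩
  · intro v
    rw [hb v]
    constructor
    · intro h
      rw [h, mul_zero]
    · intro h
      exact (mul_eq_zero.mp h).resolve_left hc
  · intro v
    rw [Matrix.toLin'_apply]
    exact LinearMap.toMatrix_mulVec_repr b b T v

end grp2

end Cfsg.Agent.Helper3.OT5972
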