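import Mathlib
import Cfsg.Agent.Helper45.IDMinus
import Cfsg.Agent.Helper43.OrthSemi
import Cfsg.Agent.Helper43.USimDet
import Cfsg.Agent.Helper43.NormGen

set_option autoImplicit false

/-!
# CALL S2720, piece MOVED (helper3): counting the vectors of norm `c` with non-zero `P`-component
-/

namespace Cfsg.Agent.Helper3.PFMOVED

open Cfsg Matrix Polynomial Cfsg.Agent.Helper45 Cfsg.Agent.Helper45.ID

universe u

variable {ι : Type} [Fintype ι] [DecidableEq ι] {F : Type u} [Field F] [Fintype F]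

/-- MOVED: counting the vectors of norm `c` with non-zero `P`-component.  (Write `x = y + z`,
`y = P x`, `z = (1 - P) x`, `Q x = Q y + Q z`; the count is `n * ∑ d, o d * #{z ∈ ker P | Q z = c - d}`,
and `∑_{d ≠ 0} #{z ∈ ker P | Q z = c - d} = #ker P - #{z ∈ ker P | Q z = c}` is odd minus even.) -/
theorem pf_moved (Q : QuadraticForm F (ι → F)) (hq : Odd (Fintype.card F)) (P : Matrix ι ι F)
    (n : ℕ) (o : F → ℕ) (hP : P * P = P)
    (horth : ∀ x y : ι → F, QuadraticMap.polar ⇑Q (P *ᵥ x) ((1 - P) *ᵥ y) = 0)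
    (hcount : ∀ d : F, Nat.card {y : ι → F // P *ᵥ y = y ∧ y ≠ 0 ∧ Q y = d} = n * o d)
    (hodd : ∀ d : F, d ≠ 0 → Odd (o d)) (heven : Even (o 0)) (c : F) (hc : c ≠ 0) :
    ∃ k : ℕ, Odd k ∧ Nat.card {x : ι → F // Q x = c ∧ P *ᵥ x ≠ 0} = n * k := by
  classical
  have hPP : ∀ x : ι → F, P *ᵥ (P *ᵥ x) = P *ᵥ x := fun x => by
    rw [Matrix.mulVec_mulVec, hP]
  have h1P : ∀ x : ι → F, (1 - P) *ᵥ x = x - P *ᵥ x := fun x => by
    rw [Matrix.sub_mulVec, Matrix.one_mulVec]
  have hadd : ∀ y z : ι → F, P *ᵥ y = y → P *ᵥ z = 0 → Q (y + z) = Q y + Q z := by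
    intro y z hy hz
    have h := horth y z
    rw [hy, h1P, hz, sub_zero, QuadraticMap.polar] at h
    linear_combination h
  obtain ⟨Y, hYdef⟩ : ∃ Y : F → Finset (ι → F),
      Y = fun d => Finset.univ.filter (fun y => P *ᵥ y = y ∧ y ≠ 0 ∧ Q y = d) := ⟨_, rfl⟩
  obtain ⟨Z, hZdef⟩ : ∃ Z : F → Finset (ι → F),
      Z = fun e => Finset.univ.filter (fun z => P *ᵥ z = 0 ∧ Q z = e) := ⟨_, rfl⟩
  obtain ⟨K, hKdef⟩ : ∃ K : Finset (ι → F),
      K = Finset.univ.filter (fun z => P *ᵥ z = 0) := ⟨_, rfl⟩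
  obtain ⟨A, hAdef⟩ : ∃ A : Finset (ι → F),
      A = Finset.univ.filter (fun x => Q x = c ∧ P *ᵥ x ≠ 0) := ⟨_, rfl⟩
  obtain ⟨B, hBdef⟩ : ∃ B : Finset ((ι → F) × (ι → F)),
      B = Finset.univ.filter (fun p => P *ᵥ p.1 = p.1 ∧ p.1 ≠ 0 ∧ P *ᵥ p.2 = 0 ∧
        Q p.1 + Q p.2 = c) := ⟨_, rfl⟩
  have hYmem : ∀ d y, y ∈ Y d ↔ P *ᵥ y = y ∧ y ≠ 0 ∧ Q y = d := by
    intro d y; rw [hYdef]; simp
  have hZmem : ∀ e z, z ∈ Z e ↔ P *ᵥ z = 0 ∧ Q z = e := by
    intro e z; rw [hZdef]; simp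
  have hKmem : ∀ z, z ∈ K ↔ P *ᵥ z = 0 := by
    intro z; rw [hKdef]; simp
  have hAmem : ∀ x, x ∈ A ↔ Q x = c ∧ P *ᵥ x ≠ 0 := by
    intro x; rw [hAdef]; simp
  have hBmem : ∀ p : (ι → F) × (ι → F), p ∈ B ↔ P *ᵥ p.1 = p.1 ∧ p.1 ≠ 0 ∧ P *ᵥ p.2 = 0 ∧
      Q p.1 + Q p.2 = c := by
    intro p; rw [hBdef]; simp
  have hY : ∀ d, (Y d).card = n * o d := by
    intro d
    rw [← hcount d, Nat.card_eq_fintype_card, Fintype.card_subtype, hYdef]
  have hAcard : Nat.card {x : ι → F // Q x = c ∧ P *ᵥ x ≠ 0} = A.card := by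
    rw [Nat.card_eq_fintype_card, Fintype.card_subtype, hAdef]
  have hAB : A.card = B.card := by
    apply Finset.card_bij' (fun x _ => (P *ᵥ x, x - P *ᵥ x)) (fun p _ => p.1 + p.2)
    · intro x hx
      rw [hAmem] at hx
      rw [hBmem]
      have hz : P *ᵥ (x - P *ᵥ x) = 0 := by rw [Matrix.mulVec_sub, hPP, sub_self]
      refine ⟨hPP x, hx.2, hz, ?_⟩
      rw [← hadd _ _ (hPP x) hz, add_sub_cancel]
      exact hx.1
    · intro p hp
      rw [hBmem] at hp
      rw [hAmem]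
      obtain ⟨h1, h2, h3, h4⟩ := hp
      refine ⟨by rw [hadd _ _ h1 h3, h4], ?_⟩
      rw [Matrix.mulVec_add, h1, h3, add_zero]
      exact h2
    · intro x hx
      simp
    · intro p hp
      rw [hBmem] at hp
      obtain ⟨h1, h2, h3, h4⟩ := hp
      have h5 : P *ᵥ (p.1 + p.2) = p.1 := by rw [Matrix.mulVec_add, h1, h3, add_zero]
      refine Prod.ext h5 ?_
      show p.1 + p.2 - P *ᵥ (p.1 + p.2) = p.2
      rw [h5, add_sub_cancel_left]
  have hBsum : B.card = ∑ d : F, (Y d).card * (Z (c - d)).card := by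
    rw [Finset.card_eq_sum_card_fiberwise (f := fun p : (ι → F) × (ι → F) => Q p.1)
      (t := Finset.univ) (fun _ _ => Finset.mem_univ _)]
    apply Finset.sum_congr rfl
    intro d _
    rw [← Finset.card_product]
    congr 1
    ext p
    rw [Finset.mem_filter, hBmem, Finset.mem_product, hYmem, hZmem]
    constructor
    · rintro ⟨⟨h1, h2, h3, h4⟩, h5⟩
      refine ⟨⟨h1, h2, h5⟩, h3, ?_⟩
      rw [← h4, ← h5]; ring
    · rintro ⟨⟨h1, h2, h5⟩, h3, h6⟩
      refine ⟨⟨h1, h2, h3, ?_⟩, h5⟩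
      rw [h5, h6]; ring
  refine ⟨∑ d : F, o d * (Z (c - d)).card, ?_, ?_⟩
  · rw [← ZMod.natCast_eq_one_iff_odd]
    push_cast
    have h2F : (2 : F) ≠ 0 := by
      apply Ring.two_ne_zero
      intro hch
      have h3 := FiniteField.even_card_of_char_two hch
      rcases hq with ⟨m, hm⟩
      omega
    have ho : ∀ d : F, ((o d : ℕ) : ZMod 2) = if d = 0 then 0 else 1 := by
      intro d
      split_ifs with hd
      · rw [hd]; exact (ZMod.natCast_eq_zero_iff_even).mpr heven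
      · exact (ZMod.natCast_eq_one_iff_odd).mpr (hodd d hd)
    have hMc : (((Z c).card : ℕ) : ZMod 2) = 0 := by
      rw [Finset.card_eq_sum_ones, Nat.cast_sum]
      have g1 : ∀ z ∈ Z c, ((1 : ℕ) : ZMod 2) + ((1 : ℕ) : ZMod 2) = 0 := by
        intro z hz
        simp only [Nat.cast_one]
        decide
      have g3 : ∀ z ∈ Z c, ((1 : ℕ) : ZMod 2) ≠ 0 → -z ≠ z := by
        intro z hz _ hzz
        rw [hZmem] at hz
        have hz0 : z = 0 := by
          have h2z : (2 : F) • z = 0 := by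
            rw [two_smul]
            nth_rewrite 1 [← hzz]
            simp
          exact (smul_eq_zero.mp h2z).resolve_left h2F
        apply hc
        rw [← hz.2, hz0, map_zero]
      have gm : ∀ z ∈ Z c, -z ∈ Z c := by
        intro z hz
        rw [hZmem] at hz ⊢
        exact ⟨by rw [Matrix.mulVec_neg, hz.1, neg_zero], by rw [QuadraticMap.map_neg]; exact hz.2⟩
      exact Finset.sum_involution (fun z _ => -z) g1 g3 gm (fun z _ => neg_neg z)
    have hKsum : ∑ d : F, (((Z (c - d)).card : ℕ) : ZMod 2) = ((K.card : ℕ) : ZMod 2) := by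
      rw [← Nat.cast_sum]
      congr 1
      have h4 : ∑ d : F, (Z (c - d)).card = ∑ e : F, (Z e).card :=
        Equiv.sum_comp (Equiv.subLeft c) (fun e => (Z e).card)
      rw [h4]
      rw [Finset.card_eq_sum_card_fiberwise (f := fun z : ι → F => Q z) (t := Finset.univ)
        (fun _ _ => Finset.mem_univ _)]
      apply Finset.sum_congr rfl
      intro e _
      congr 1
      ext z
      rw [Finset.mem_filter, hZmem, hKmem]
    have hKodd : ((K.card : ℕ) : ZMod 2) = 1 := by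
      rw [ZMod.natCast_eq_one_iff_odd]
      have h1 : K.card = Nat.card (LinearMap.ker (Matrix.mulVecLin P)) := by
        have h2 : Nat.card {z : ι → F // P *ᵥ z = 0} = K.card := by
          rw [Nat.card_eq_fintype_card, Fintype.card_subtype, hKdef]
        rw [← h2]
        rfl
      rw [h1, Module.natCard_eq_pow_finrank (K := F), Nat.card_eq_fintype_card]
      exact hq.pow
    calc ∑ d : F, ((o d : ℕ) : ZMod 2) * (((Z (c - d)).card : ℕ) : ZMod 2)
        = ∑ d : F, (((Z (c - d)).card : ℕ) : ZMod 2) - (((Z c).card : ℕ) : ZMod 2) := by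
          rw [← Finset.add_sum_erase _ _ (Finset.mem_univ (0 : F)),
            ← Finset.add_sum_erase (s := Finset.univ)
              (f := fun d => (((Z (c - d)).card : ℕ) : ZMod 2)) (Finset.mem_univ (0 : F))]
          rw [ho 0, if_pos rfl, zero_mul, zero_add, sub_zero, add_sub_cancel_left]
          apply Finset.sum_congr rfl
          intro d hd
          rw [ho d, if_neg (Finset.ne_of_mem_erase hd), one_mul]
      _ = 1 := by rw [hKsum, hKodd, hMc, sub_zero]
  · rw [hAcard, hAB, hBsum, Finset.mul_sum]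
    apply Finset.sum_congr rfl
    intro d _
    rw [hY d, mul_assoc]

end Cfsg.Agent.Helper3.PFMOVED
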