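import Cfsg.Agent.Helper99.Su3I

/-!
# Two-generation of `SU_3(q)` and `PSU_3(q)`, `q ≥ 3` (sub-design (B) of S2412)

Immediate from the landed S2283 (`Cfsg.Agent.Helper99.su3_two_conj_unip`): `SU_3(q)` is generated by
two conjugate regular unipotent elements.  Also the general transfer of two-generation to a quotient.
-/

set_option autoImplicit false

namespace Cfsg.Agent.Helper3.SU3TwoGen

/-- two-generation passes to quotients -/
theorem quot_two_gen {G : Type*} [Group G] (N : Subgroup G) [N.Normal]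
    (h : ∃ a b : G, Subgroup.closure ({a, b} : Set G) = ⊤) :
    ∃ a b : G ⧸ N, Subgroup.closure ({a, b} : Set (G ⧸ N)) = ⊤ := by
  obtain ⟨a, b, hab⟩ := h
  refine ⟨QuotientGroup.mk' N a, QuotientGroup.mk' N b, ?_⟩
  have h1 : (Subgroup.closure ({a, b} : Set G)).map (QuotientGroup.mk' N) = ⊤ := by
    rw [hab, ← MonoidHom.range_eq_map]
    exact MonoidHom.range_eq_top.mpr (QuotientGroup.mk'_surjective N)
  rw [MonoidHom.map_closure] at h1
  rw [← h1]
  congr 1
  ext x
  simp [Set.image_pair]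

/-- two-generation passes along surjective homomorphisms -/
theorem two_gen_of_surjective {G H : Type*} [Group G] [Group H] (f : G →* H)
    (hf : Function.Surjective f) (h : ∃ a b : G, Subgroup.closure ({a, b} : Set G) = ⊤) :
    ∃ a b : H, Subgroup.closure ({a, b} : Set H) = ⊤ := by
  obtain ⟨a, b, hab⟩ := h
  refine ⟨f a, f b, ?_⟩
  have h1 : (Subgroup.closure ({a, b} : Set G)).map f = ⊤ := by
    rw [hab, ← MonoidHom.range_eq_map]
    exact MonoidHom.range_eq_top.mpr hf
  rw [MonoidHom.map_closure] at h1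
  rw [← h1]
  congr 1
  ext x
  simp [Set.image_pair]

/-- `SU_3(q)`, `q ≥ 3`, is generated by two elements. -/
theorem su3_two_gen {F : Type*} [Field F] [Fintype F] (q : ℕ) (hq : 3 ≤ q)
    (hF : Fintype.card F = q ^ 2) :
    ∃ a b : ↥(Cfsg.SU 3 F q), Subgroup.closure ({a, b} : Set ↥(Cfsg.SU 3 F q)) = ⊤ := by
  obtain ⟨u, g, _, h⟩ := Cfsg.Agent.Helper99.su3_two_conj_unip hq hF
  exact ⟨u, g * u * g⁻¹, h⟩

/-- `PSU_3(q)`, `q ≥ 3`, is generated by two elements. -/
theorem psu3_two_gen {F : Type*} [Field F] [Fintype F] (q : ℕ) (hq : 3 ≤ q)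
    (hF : Fintype.card F = q ^ 2) :
    ∃ a b : Cfsg.PSU 3 F q, Subgroup.closure ({a, b} : Set (Cfsg.PSU 3 F q)) = ⊤ :=
  quot_two_gen _ (su3_two_gen q hq hF)

/-- the `n = 3` case of S2412 in the exact shape of the statement -/
theorem psu3_case {F : Type*} [Field F] [Fintype F] {q : ℕ} (hq : IsPrimePow q)
    (hF : Fintype.card F = q ^ 2) (h32 : q ≠ 2) :
    ∃ a b : Cfsg.PSU 3 F q, Subgroup.closure ({a, b} : Set (Cfsg.PSU 3 F q)) = ⊤ := by
  have h2 : 2 ≤ q := hq.two_le
  exact psu3_two_gen q (by omega) hF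

end Cfsg.Agent.Helper3.SU3TwoGen
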