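import Cfsg.Agent.S0822
import Cfsg.Agent.S2411
import Cfsg.Agent.Helper3.SU3TwoGen

/-!
# Two-generation of `PSU_4(2)` (the case `n = 4`, `q = 2` of S2412)

From the landed S0822 (`PSU_4(2) ≅ PSp_4(3)`) and S2411 (`PSp_{2m}(q)` is two-generated).
-/

set_option autoImplicit false

namespace Cfsg.Agent.Helper3.PSU42TwoGen

/-- `PSU_4(2)` is generated by two elements. -/
theorem psu4_2_two_gen {F : Type*} [Field F] [Fintype F] (hF : Fintype.card F = 2 ^ 2) :
    ∃ a b : Cfsg.PSU 4 F 2, Subgroup.closure ({a, b} : Set (Cfsg.PSU 4 F 2)) = ⊤ := by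
  haveI : Fact (Nat.Prime 3) := ⟨by norm_num⟩
  obtain ⟨e⟩ := Cfsg.Agent.S0822.result (F := F) (K := ZMod 3) (by rw [hF]; norm_num)
    (by rw [ZMod.card])
  have h := Cfsg.Agent.S2411.result (F := ZMod 3) 2 le_rfl (fun _ => by rw [ZMod.card]; norm_num)
  exact Cfsg.Agent.Helper3.SU3TwoGen.two_gen_of_surjective e.symm.toMonoidHom e.symm.surjective h

end Cfsg.Agent.Helper3.PSU42TwoGen
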