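import Cfsg.Agent.Helper3.SU2Main

/-!
# Assembly of S2412 (`PSU_n(q)` is generated by two elements) from the generic case

`psu_two_gen_of_A`: the statement of S2412 follows from the generic case (A) `q ≥ 3`, `n ≥ 4` for
`SU_n(q)`; the cases `n = 3` (from S2283) and `q = 2` (S0822 + S2411 for `n = 4`, CALL S2412C for
`n ≥ 5`) are on main in `Cfsg.Agent.Helper3`.
-/

set_option autoImplicit false

namespace Cfsg.Agent.Helper3.PSUTwoGenAsm

theorem psu_two_gen_of_A {F : Type*} [Field F] [Fintype F] {q : ℕ} (hq : IsPrimePow q)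
    (hF : Fintype.card F = q ^ 2) (n : ℕ) (hn : 3 ≤ n) (h32 : n = 3 → q ≠ 2)
    (hA : 3 ≤ q → 4 ≤ n → ∃ a b : ↥(Cfsg.SU n F q),
      Subgroup.closure ({a, b} : Set ↥(Cfsg.SU n F q)) = ⊤) :
    ∃ a b : Cfsg.PSU n F q, Subgroup.closure ({a, b} : Set (Cfsg.PSU n F q)) = ⊤ := by
  have hq2 : 2 ≤ q := hq.two_le
  by_cases h3 : n = 3
  · subst h3
    exact Cfsg.Agent.Helper3.SU3TwoGen.psu3_case hq hF (h32 rfl)
  · by_cases h2 : q = 2
    · subst h2
      exact Cfsg.Agent.Helper3.SU2Main.psu_q2_two_gen hF (by omega)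
    · exact Cfsg.Agent.Helper3.SU3TwoGen.quot_two_gen _ (hA (by omega) (by omega))

end Cfsg.Agent.Helper3.PSUTwoGenAsm
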