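import Mathlib
import Cfsg.Prelude.Def_GeometricClasses
import Cfsg.Prelude.Def_Classical
import Cfsg.Agent.Helper35.S88Defs
import Cfsg.Agent.Helper35.TSSTDM
import Cfsg.Agent.Helper90.TSR2Main
import Cfsg.Agent.Helper70.OHOSUB
import Cfsg.Agent.Helper96.OHEXND
import Cfsg.Agent.Helper33.OType
import Cfsg.Agent.Helper50.TSR2SPLA
import Cfsg.Agent.Helper80.S88R2EIGHYP
import Cfsg.Agent.Helper80.S88R2SKND
import Cfsg.Agent.Helper20.S88R2SKSUBTYPE

set_option autoImplicit false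
set_option linter.unusedSectionVars false
set_option linter.unusedVariables false

/-!
# CALL S90 (helper98; row S5990), stage R2G (helper3, double): `r = 2 ≠ p`, `⟸`.

`s90r_invo` (NEW, independent of the type of `Q`): a non-scalar involutory isometry fixes an
elliptic `m`-space for every even `m` with `2 ≤ m ≤ 2 d - 2`: `V = V₊ ⊥ V₋` (both nonzero), choose
even `w₊ ≤ dim V₊`, `w₋ ≤ dim V₋` with `w₊ + w₋ = m` and one of them strictly between `0` and the
dimension of its eigenspace; there the type is free (`Helper70.OH5992.o_sub`), and types multiply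
(`Helper33.o_type_mul`).  The case `x² = -1` is the last branch of `s88_two_good` (helper90) with the
minus-type facts.
-/

namespace Cfsg.Agent.Helper3.S90

open Module Cfsg Cfsg.Geo Cfsg.Agent.Helper35.S88
open scoped MatrixGroups

section pieces

variable {ι : Type} [Fintype ι] [DecidableEq ι] {F : Type*} [Field F] [Fintype F]

/-- Pure arithmetic: even parts `w₊ ≤ k₊`, `w₋ ≤ k₋` of `m`, one of them strictly inside. -/
theorem s90r_arith (kp km d m : ℕ) (hk : kp + km = 2 * d) (hp : 1 ≤ kp) (hn : 1 ≤ km)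
    (hd : 4 ≤ d) (hm : 2 ≤ m) (hme : Even m) (hmd : m + 2 ≤ 2 * d) :
    ∃ wp wm : ℕ, Even wp ∧ Even wm ∧ wp ≤ kp ∧ wm ≤ km ∧ wp + wm = m ∧
      ((0 < wp ∧ wp < kp) ∨ (0 < wm ∧ wm < km)) := by
  obtain ⟨a, ha⟩ := hme
  by_cases h1 : m < kp
  · exact ⟨m, 0, ⟨a, ha⟩, ⟨0, rfl⟩, by omega, by omega, by omega, Or.inl ⟨by omega, h1⟩⟩
  by_cases h2 : m < km
  · exact ⟨0, m, ⟨0, rfl⟩, ⟨a, ha⟩, by omega, by omega, by omega, Or.inr ⟨by omega, h2⟩⟩
  rcases Nat.even_or_odd kp with ⟨c, hc⟩ | ⟨c, hc⟩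
  · by_cases h3 : 4 ≤ kp
    · exact ⟨kp - 2, m - kp + 2, ⟨c - 1, by omega⟩, ⟨a - c + 1, by omega⟩, by omega, by omega,
        by omega, Or.inl ⟨by omega, by omega⟩⟩
    · exact ⟨2, m - 2, ⟨1, rfl⟩, ⟨a - 1, by omega⟩, by omega, by omega, by omega,
        Or.inr ⟨by omega, by omega⟩⟩
  · exact ⟨kp - 1, m - kp + 1, ⟨c, by omega⟩, ⟨a - c, by omega⟩, by omega, by omega, by omega,
      Or.inr ⟨by omega, by omega⟩⟩

/-- Two orthogonal nondegenerate subspaces `K₁`, `K₂` all of whose subspaces are `M`-invariant: an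
invariant elliptic subspace of dimension `w₁ + w₂` (`w₁`, `w₂` even, `0 < w₁ < dim K₁`,
`w₂ ≤ dim K₂`). -/
theorem s90r_build (Q : (ι → F) → F) (hQ : IsNondegenerateQuadraticForm Q) (h2 : (2 : F) ≠ 0)
    (M : Matrix ι ι F) (K₁ K₂ : Submodule F (ι → F))
    (hK₁ : IsNondegenerateOn (QuadraticMap.polar Q) K₁)
    (hK₂ : IsNondegenerateOn (QuadraticMap.polar Q) K₂)
    (horth : AreOrthogonalFor (QuadraticMap.polar Q) K₁ K₂)
    (hinv₁ : ∀ X : Submodule F (ι → F), X ≤ K₁ → X.map (Matrix.toLin' M) ≤ X)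
    (hinv₂ : ∀ X : Submodule F (ι → F), X ≤ K₂ → X.map (Matrix.toLin' M) ≤ X)
    (w₁ w₂ : ℕ) (he₁ : Even w₁) (he₂ : Even w₂) (h0 : 0 < w₁) (h1 : w₁ < finrank F K₁)
    (hw₂ : w₂ ≤ finrank F K₂) : InvEll Q M (w₁ + w₂) := by
  obtain ⟨W₂, hW₂K, hW₂nd, hW₂dim⟩ :=
    Cfsg.Agent.Helper96.OH5992.o_exists_nd Q hQ h2 K₂ hK₂ w₂ hw₂
  obtain ⟨W₁, hW₁K, hW₁nd, hW₁dim, hW₁pl⟩ :=
    Cfsg.Agent.Helper70.OH5992.o_sub Q hQ h2 K₁ hK₁ w₁ he₁ h0 h1 (¬ IsPlusTypeOn Q W₂)
  have horth' : AreOrthogonalFor (QuadraticMap.polar Q) W₁ W₂ :=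
    fun u hu v hv => horth u (hW₁K hu) v (hW₂K hv)
  refine ⟨W₁ ⊔ W₂, ⟨?_, ?_, ?_⟩, ?_⟩
  · rw [Cfsg.Agent.Helper33.OType.finrank_sup_of_orth Q W₁ W₂ hW₁nd horth', hW₁dim, hW₂dim]
  · exact Cfsg.Agent.Helper33.OType.nondeg_sup Q hQ W₁ W₂ hW₁nd hW₂nd horth'
  · intro hpl
    have h := (Cfsg.Agent.Helper33.o_type_mul Q hQ W₁ W₂ hW₁nd hW₂nd horth'
      (by rw [hW₁dim]; exact he₁) (by rw [hW₂dim]; exact he₂)).mp hpl
    by_cases hp : IsPlusTypeOn Q W₂
    · exact (hW₁pl.mp (h.mpr hp)) hp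
    · exact hp (h.mp (hW₁pl.mpr hp))
  · rw [Submodule.map_sup]
    exact sup_le_sup (hinv₁ W₁ hW₁K) (hinv₂ W₂ hW₂K)

/-- INVO for all `m ≤ 2 d - 2` (any type of `Q`): a non-scalar involutory isometry fixes an
elliptic `m`-space. -/
theorem s90r_invo (Q : (ι → F) → F) (hQ : IsNondegenerateQuadraticForm Q) (h2 : (2 : F) ≠ 0)
    (d m : ℕ) (hd : 4 ≤ d) (hcard : Fintype.card ι = 2 * d) (hm : 2 ≤ m) (hme : Even m)
    (hmn : m + 2 ≤ 2 * d) (M : Matrix ι ι F) (hM : ∀ v, Q (M.mulVec v) = Q v) (hM2 : M * M = 1)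
    (hns : ∀ z : F, M ≠ z • (1 : Matrix ι ι F)) : InvEll Q M m := by
  obtain ⟨h1, h3, h4, -⟩ := Cfsg.Agent.Helper50.TSR2.r2_split Q hQ h2 M hM hM2
  rw [hcard] at h4
  have hB := hQ.polar_bilinear
  have horth : AreOrthogonalFor (QuadraticMap.polar Q) (LinearMap.ker (Matrix.toLin' M - 1))
      (LinearMap.ker (Matrix.toLin' M + 1)) := by
    intro u hu v hv
    rw [LinearMap.mem_ker, LinearMap.sub_apply, sub_eq_zero] at hu
    rw [LinearMap.mem_ker, LinearMap.add_apply, add_eq_zero_iff_eq_neg] at hv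
    have hu' : M.mulVec u = u := by
      rw [Matrix.toLin'_apply] at hu
      exact hu
    have hv' : M.mulVec v = -v := by
      rw [Matrix.toLin'_apply] at hv
      exact hv
    have e1 := Cfsg.Agent.Helper80.TSR2.r2_polar_pres Q M hM u v
    rw [hu', hv'] at e1
    have e2 : QuadraticMap.polar Q u (-v) = -QuadraticMap.polar Q u v := by
      have h := hB.smul_right (-1 : F) u v
      rw [neg_smul, one_smul] at h
      rw [h]; ring
    rw [e2] at e1
    have e3 : (2 : F) * QuadraticMap.polar Q u v = 0 := by linear_combination -e1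
    rcases mul_eq_zero.mp e3 with e4 | e4
    · exact absurd e4 h2
    · exact e4
  have horth' : AreOrthogonalFor (QuadraticMap.polar Q) (LinearMap.ker (Matrix.toLin' M + 1))
      (LinearMap.ker (Matrix.toLin' M - 1)) := by
    intro u hu v hv
    rw [QuadraticMap.polar_comm]
    exact horth v hv u hu
  have hinvp : ∀ X : Submodule F (ι → F), X ≤ LinearMap.ker (Matrix.toLin' M - 1) →
      X.map (Matrix.toLin' M) ≤ X := by
    rintro X hXK _ ⟨x, hx, rfl⟩
    have hxK := hXK hx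
    rw [LinearMap.mem_ker, LinearMap.sub_apply, sub_eq_zero] at hxK
    have hx' : x ∈ X := hx
    rw [hxK]
    exact hx'
  have hinvm : ∀ X : Submodule F (ι → F), X ≤ LinearMap.ker (Matrix.toLin' M + 1) →
      X.map (Matrix.toLin' M) ≤ X := by
    rintro X hXK _ ⟨x, hx, rfl⟩
    have hxK := hXK hx
    rw [LinearMap.mem_ker, LinearMap.add_apply, add_eq_zero_iff_eq_neg] at hxK
    have hx' : x ∈ X := hx
    rw [hxK]
    exact X.neg_mem hx'
  have hkp : 1 ≤ finrank F (LinearMap.ker (Matrix.toLin' M - 1)) := by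
    by_contra hlt
    have hfull : finrank F (LinearMap.ker (Matrix.toLin' M + 1)) = finrank F (ι → F) := by
      rw [Module.finrank_fintype_fun_eq_card, hcard]; omega
    have htop : LinearMap.ker (Matrix.toLin' M + 1) = ⊤ := Submodule.eq_top_of_finrank_eq hfull
    apply hns (-1)
    apply Matrix.toLin'.injective
    apply LinearMap.ext
    intro v
    have hv : v ∈ LinearMap.ker (Matrix.toLin' M + 1) := by rw [htop]; exact Submodule.mem_top
    rw [LinearMap.mem_ker, LinearMap.add_apply, add_eq_zero_iff_eq_neg] at hv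
    have e : Matrix.toLin' ((-1 : F) • (1 : Matrix ι ι F)) v = -v := by
      rw [Matrix.toLin'_apply, Matrix.smul_mulVec, Matrix.one_mulVec, neg_smul, one_smul]
    rw [e, hv]
    rfl
  have hkm : 1 ≤ finrank F (LinearMap.ker (Matrix.toLin' M + 1)) := by
    by_contra hlt
    have hfull : finrank F (LinearMap.ker (Matrix.toLin' M - 1)) = finrank F (ι → F) := by
      rw [Module.finrank_fintype_fun_eq_card, hcard]; omega
    have htop : LinearMap.ker (Matrix.toLin' M - 1) = ⊤ := Submodule.eq_top_of_finrank_eq hfull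
    apply hns 1
    apply Matrix.toLin'.injective
    apply LinearMap.ext
    intro v
    have hv : v ∈ LinearMap.ker (Matrix.toLin' M - 1) := by rw [htop]; exact Submodule.mem_top
    rw [LinearMap.mem_ker, LinearMap.sub_apply, sub_eq_zero] at hv
    have e : Matrix.toLin' ((1 : F) • (1 : Matrix ι ι F)) v = v := by
      rw [Matrix.toLin'_apply, one_smul, Matrix.one_mulVec]
    rw [e, hv]
    rfl
  obtain ⟨wp, wm, hwpe, hwme, hwp, hwm, hsum, hfree⟩ :=
    s90r_arith _ _ d m h4 hkp hkm hd hm hme hmn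
  rcases hfree with ⟨h0, hlt⟩ | ⟨h0, hlt⟩
  · rw [← hsum]
    exact s90r_build Q hQ h2 M _ _ h1 h3 horth hinvp hinvm wp wm hwpe hwme h0 hlt hwm
  · rw [← hsum, add_comm]
    exact s90r_build Q hQ h2 M _ _ h3 h1 horth' hinvm hinvp wm wp hwme hwpe h0 hlt hwp

end pieces

section stages

variable {F : Type*} [Field F] [Fintype F]

theorem s90r_odd_card {p : ℕ} [Fact p.Prime] [CharP F p] (hp2 : p ≠ 2) :
    Odd (Fintype.card F) := by
  obtain ⟨n, hp, hc⟩ := FiniteField.card F p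
  rw [hc]
  exact (hp.odd_of_ne_two hp2).pow

theorem s90r_sq_of_pow (s : F) (hs0 : s ≠ 0) (d : ℕ) (hd : Odd d) (h : IsSquare (s ^ d)) :
    IsSquare s := by
  obtain ⟨e, he⟩ := hd
  obtain ⟨c, hc⟩ := h
  have hpe : s ^ e ≠ 0 := pow_ne_zero _ hs0
  refine ⟨c / s ^ e, ?_⟩
  rw [he, pow_succ, pow_mul'] at hc
  field_simp
  linear_combination hc

/-- R2G -/
theorem s90_two_good {p : ℕ} [Fact p.Prime] [CharP F p] {q : ℕ} (hq : Fintype.card F = q)
    (d m : ℕ) (hd : 4 ≤ d) (hm : 2 ≤ m) (hme : Even m) (hmn : m + 2 ≤ 2 * d) (a b : F)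
    (hab : ∀ x y : F, x ^ 2 + a * x * y + b * y ^ 2 = 0 → x = 0 ∧ y = 0) (hp2 : p ≠ 2)
    (hcond : Even d ∨ q % 8 ≠ 7 ∨ m % 4 = 2) :
    AllEll (Cfsg.quadFormMinus (d - 1) F a b) 2 m := by
  classical
  obtain ⟨hQ, hminus⟩ := Cfsg.Agent.Helper35.TS5973.ts_std_minus (F := F) (d - 1) a b hab
  have hoddq : Odd (Fintype.card F) := s90r_odd_card hp2
  have h2 : (2 : F) ≠ 0 := Cfsg.Agent.Helper70.TSR2.r2_two_ne hoddq
  have hcard : Fintype.card ((Fin (d - 1) ⊕ Fin (d - 1)) ⊕ Fin 2) = 2 * d := by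
    simp only [Fintype.card_sum, Fintype.card_fin]
    omega
  have hne : Nonempty ((Fin (d - 1) ⊕ Fin (d - 1)) ⊕ Fin 2) :=
    Fintype.card_pos_iff.mp (by omega)
  intro x hx hz hns
  obtain ⟨z, hz⟩ := hz
  obtain ⟨g, hgΩ, rfl⟩ := (Cfsg.Agent.Helper90.TS5973.r2a_mem_omegaGL _ x).mp hx
  have hM := Cfsg.Agent.Helper90.TS5973.r2a_iso (Cfsg.quadFormMinus (d - 1) F a b) g
  rw [Cfsg.Agent.Helper90.TS5973.r2a_sq] at hz
  rcases Cfsg.Agent.Helper70.TSR2.r2_z _ hQ hne _ hM z hz with rfl | rfl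
  · rw [one_smul] at hz
    exact s90r_invo _ hQ h2 d m hd hcard hm hme hmn _ hM hz hns
  · rw [Cfsg.Agent.Helper90.TS5973.r2a_neg_one] at hz
    by_cases hm1 : IsSquare (-1 : F)
    · exfalso
      obtain ⟨s, hs⟩ := hm1
      apply hminus
      exact Cfsg.Agent.Helper80.S88R2.r2e_eig_hyp _ hQ h2 _ hM hz s hs.symm ⊤ le_top
        (Cfsg.Agent.Helper96.OH.ond_top _ hQ)
    · have hq4 : q % 4 = 3 := by
        have h := (FiniteField.isSquare_neg_one_iff (F := F)).not.mp hm1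
        rw [hq] at h
        omega
      have htype := Cfsg.Agent.Helper20.TSR2.r2_skew_type _ hQ h2 d (by omega) hcard _ hM hz hm1
      have hdo : ¬ Even d := fun h => hminus (htype.mpr h)
      have hsq2 : IsSquare ((2 : F) ^ d) :=
        (Cfsg.Agent.Helper59.TSR2.r2_skew_omega _ hQ h2 d (by omega) hcard g hz hm1).mp hgΩ
      have hs2 : IsSquare (2 : F) :=
        s90r_sq_of_pow 2 h2 d (Nat.not_even_iff_odd.mp hdo) hsq2
      have hq8 : q % 8 = 7 := by
        have h := (FiniteField.isSquare_two_iff (F := F)).mp hs2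
        rw [hq] at h
        omega
      have hm4 : m % 4 = 2 := by
        rcases hcond with h | h | h
        · exact absurd h hdo
        · exact absurd hq8 h
        · exact h
      obtain ⟨W, hWinv, hWnd, hWdim⟩ :=
        Cfsg.Agent.Helper80.S88R2.r2e_skew_nd _ hQ h2 d hcard _ hM hz hm1 (m / 2) (by omega)
      have hty := Cfsg.Agent.Helper20.S88R2.r2e_skew_sub_type _ hQ h2 _ hM hz hm1 W hWinv hWnd
        (m / 2) hWdim
      refine ⟨W, ⟨?_, hWnd, ?_⟩, hWinv⟩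
      · rw [hWdim]
        omega
      · rw [hty, Nat.not_even_iff_odd]
        exact ⟨m / 4, by omega⟩

end stages

end Cfsg.Agent.Helper3.S90
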