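import Mathlib
import Cfsg.Agent.Helper87.SFDefs

/-!
# CALL S2752, piece GSUB (helper3)
-/

set_option autoImplicit false

namespace Cfsg.Agent.Helper3

open Cfsg.Agent.Helper87 Cfsg.Agent.Helper87.SF

universe u

/-- GSUB -/
theorem sf_good_sub {G : Type*} [Group G] (C : Subgroup G) (A : Subgroup ↥C) (h : Good A) :
    Good (A.map C.subtype) := by
  obtain ⟨B, a, g, r, hBA, ha, hg, hr, hr2, ho, hc⟩ := h
  have hinj : Function.Injective C.subtype := Subtype.coe_injective
  have hcA : Nat.card (A.map C.subtype) = Nat.card A := Subgroup.card_map_of_injective hinj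
  have hcB : Nat.card (B.map C.subtype) = Nat.card B := Subgroup.card_map_of_injective hinj
  refine ⟨B.map C.subtype, (a : G), (g : G), r, Subgroup.map_mono hBA,
    Subgroup.mem_map_of_mem _ ha, ?_, hr, hr2, ?_, ?_⟩
  · rintro _ ⟨b, hb, rfl⟩
    have h1 := congrArg (Subtype.val) (hg b hb)
    exact h1
  · have h1 : (a : G) * (g : G)⁻¹ * (a : G) * (g : G) = ((a * g⁻¹ * a * g : ↥C) : G) := rfl
    rw [h1, Subgroup.orderOf_coe]
    exact ho
  · rw [hcA, hcB]
    exact hc

end Cfsg.Agent.Helper3
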