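import Mathlib
import Cfsg.Agent.Helper87.SFDefs
import Cfsg.Agent.Helper44.PSL2E

/-!
# CALL S2752, piece L4M (helper3): the model four-group of `PSL_2(3^(2n+1))` with an element of
odd order centralised by one involution and inverted by another
-/

set_option autoImplicit false

namespace Cfsg.Agent.Helper3

open Cfsg.Agent.Helper87 Cfsg.Agent.Helper87.SF
open Cfsg.Agent.Helper44

/-- Frobenius on `a + b J`, `J ^ 2 = -1`, `q = 3^(2n+1) ≡ 3 (mod 4)`. -/
theorem sf_l4m_frob {F : Type} [Field F] [Fintype F] (n : ℕ)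
    (hF : Fintype.card F = 3 ^ (2 * n + 1)) (a b : F) :
    (!![a, b; -b, a] : Matrix (Fin 2) (Fin 2) F) ^ (3 ^ (2 * n + 1)) = !![a, -b; b, a] := by
  have : Fact (Nat.Prime 3) := ⟨Nat.prime_three⟩
  have : CharP F 3 := charP_of_card 3 (2 * n + 1) hF
  obtain ⟨J, hJ⟩ : ∃ J : Matrix (Fin 2) (Fin 2) F, J = !![0, 1; -1, 0] := ⟨_, rfl⟩
  have hT : (!![a, b; -b, a] : Matrix (Fin 2) (Fin 2) F) = a • 1 + b • J := by
    rw [hJ]
    ext i j
    fin_cases i <;> fin_cases j <;> simp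
  have hJJ : J * J = -1 := by
    rw [hJ]
    ext i j
    fin_cases i <;> fin_cases j <;> simp
  have hcomm : Commute (a • (1 : Matrix (Fin 2) (Fin 2) F)) (b • J) := by
    show a • (1 : Matrix (Fin 2) (Fin 2) F) * b • J = b • J * a • (1 : Matrix (Fin 2) (Fin 2) F)
    rw [smul_mul_smul_comm, smul_mul_smul_comm, one_mul, mul_one, mul_comm]
  have hmod4 : 3 ^ (2 * n + 1) % 4 = 3 := by
    rw [pow_succ, pow_mul, Nat.mul_mod, Nat.pow_mod]
    norm_num
  obtain ⟨k, hk⟩ : ∃ k, 3 ^ (2 * n + 1) = 2 * (2 * k + 1) + 1 :=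
    ⟨3 ^ (2 * n + 1) / 4, by omega⟩
  have hJq : J ^ (3 ^ (2 * n + 1)) = -J := by
    rw [hk, pow_succ, pow_mul, pow_two, hJJ, Odd.neg_one_pow ⟨k, rfl⟩, neg_one_mul]
  have haq : a ^ (3 ^ (2 * n + 1)) = a := by rw [← hF]; exact FiniteField.pow_card a
  have hbq : b ^ (3 ^ (2 * n + 1)) = b := by rw [← hF]; exact FiniteField.pow_card b
  rw [hT, add_pow_char_pow_of_commute 3 (2 * n + 1) hcomm, smul_pow, smul_pow, one_pow, hJq, haq, hbq, hJ]
  ext i j
  fin_cases i <;> fin_cases j <;> simp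

/-- L4M -/
theorem sf_l_four_model {F : Type} [Field F] [Fintype F] (n : ℕ) (hn : 1 ≤ n)
    (hF : Fintype.card F = 3 ^ (2 * n + 1)) :
    ∃ v w x₀ : Matrix.ProjectiveSpecialLinearGroup (Fin 2) F, v ≠ 1 ∧ w ≠ 1 ∧ v ≠ w ∧
      v * v = 1 ∧ w * w = 1 ∧ v * w = w * v ∧ x₀ ≠ 1 ∧ Odd (orderOf x₀) ∧ v * x₀ = x₀ * v ∧
      w * x₀ * w⁻¹ = x₀⁻¹ := by
  classical
  have : Fact (Nat.Prime 3) := ⟨Nat.prime_three⟩
  have : CharP F 3 := charP_of_card 3 (2 * n + 1) hF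
  have h3 : (3 : F) = 0 := by exact_mod_cast CharP.cast_eq_zero F 3
  have hmod4 : 3 ^ (2 * n + 1) % 4 = 3 := by
    rw [pow_succ, pow_mul, Nat.mul_mod, Nat.pow_mod]
    norm_num
  have hmod8 : 3 ^ (2 * n + 1) % 8 = 3 := by
    rw [pow_succ, pow_mul, Nat.mul_mod, Nat.pow_mod]
    norm_num
  have hnsq : ¬ IsSquare (-1 : F) := by
    rw [FiniteField.isSquare_neg_one_iff, hF, hmod4]
    simp
  have h27 : 27 ≤ Fintype.card F := by
    rw [hF]
    calc 27 = 3 ^ 3 := by norm_num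
      _ ≤ 3 ^ (2 * n + 1) := Nat.pow_le_pow_right (by norm_num) (by omega)
  obtain ⟨s, hs⟩ : ∃ s : F, s ∉ ({0, 1, -1} : Finset F) := by
    by_contra hcon
    push Not at hcon
    have h1 : Fintype.card F ≤ ({0, 1, -1} : Finset F).card := by
      rw [← Finset.card_univ]
      exact Finset.card_le_card (fun x _ => hcon x)
    have h2 : ({0, 1, -1} : Finset F).card ≤ 3 := Finset.card_le_three
    omega
  simp only [Finset.mem_insert, Finset.mem_singleton, not_or] at hs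
  obtain ⟨hs0, hs1, hsm1⟩ := hs
  have hden : 1 + s * s ≠ 0 := by
    intro h
    apply hnsq
    exact ⟨s, by linear_combination -h⟩
  obtain ⟨a, ha⟩ : ∃ a : F, a = (1 - s * s) / (1 + s * s) := ⟨_, rfl⟩
  obtain ⟨b, hb⟩ : ∃ b : F, b = 2 * s / (1 + s * s) := ⟨_, rfl⟩
  have hab : a * a + b * b = 1 := by
    rw [ha, hb, div_mul_div_comm, div_mul_div_comm, ← add_div,
      div_eq_one_iff_eq (mul_ne_zero hden hden)]
    ring
  have h2ne : (2 : F) ≠ 0 := by
    intro h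
    have h1 : (1 : F) = 0 := by linear_combination h3 - h
    exact one_ne_zero h1
  have ha0 : a ≠ 0 := by
    rw [ha]
    apply div_ne_zero _ hden
    intro h
    have h1 : (s - 1) * (s + 1) = 0 := by linear_combination -h
    rcases mul_eq_zero.mp h1 with h' | h'
    · exact hs1 (sub_eq_zero.mp h')
    · exact hsm1 (eq_neg_of_add_eq_zero_left h')
  have hb0 : b ≠ 0 := by
    rw [hb]
    exact div_ne_zero (mul_ne_zero h2ne hs0) hden
  have hab2 : a * a ≠ b * b := by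
    intro h
    apply hnsq
    exact ⟨a, by linear_combination hab + h - (a * a) * h3⟩
  -- the elements of `SL_2`
  obtain ⟨Js, hJs⟩ : ∃ Js : SL2 F, (Js : Matrix (Fin 2) (Fin 2) F) = !![0, 1; -1, 0] :=
    ⟨⟨!![0, 1; -1, 0], by rw [Matrix.det_fin_two_of]; ring⟩, rfl⟩
  obtain ⟨Ws, hWs⟩ : ∃ Ws : SL2 F, (Ws : Matrix (Fin 2) (Fin 2) F) = !![1, 1; 1, -1] :=
    ⟨⟨!![1, 1; 1, -1], by rw [Matrix.det_fin_two_of]; linear_combination -h3⟩, rfl⟩
  obtain ⟨ts, hts⟩ : ∃ ts : SL2 F, (ts : Matrix (Fin 2) (Fin 2) F) = !![a, b; -b, a] :=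
    ⟨⟨!![a, b; -b, a], by rw [Matrix.det_fin_two_of]; linear_combination hab⟩, rfl⟩
  obtain ⟨ts', hts'⟩ : ∃ ts' : SL2 F, (ts' : Matrix (Fin 2) (Fin 2) F) = !![a, -b; b, a] :=
    ⟨⟨!![a, -b; b, a], by rw [Matrix.det_fin_two_of]; linear_combination hab⟩, rfl⟩
  have hinv : ts' = ts⁻¹ := by
    apply eq_inv_of_mul_eq_one_left
    apply Subtype.ext
    rw [Matrix.SpecialLinearGroup.coe_mul, hts, hts', Matrix.SpecialLinearGroup.coe_one,
      Matrix.mul_fin_two, Matrix.one_fin_two, mat2_eq_iff]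
    refine ⟨?_, ?_, ?_, ?_⟩
    · linear_combination hab
    · ring
    · ring
    · linear_combination hab
  have hJt : Js * ts = ts * Js := by
    apply Subtype.ext
    rw [Matrix.SpecialLinearGroup.coe_mul, Matrix.SpecialLinearGroup.coe_mul, hts, hJs,
      Matrix.mul_fin_two, Matrix.mul_fin_two, mat2_eq_iff]
    refine ⟨?_, ?_, ?_, ?_⟩ <;> ring
  have hWt : Ws * ts = ts⁻¹ * Ws := by
    rw [← hinv]
    apply Subtype.ext
    rw [Matrix.SpecialLinearGroup.coe_mul, Matrix.SpecialLinearGroup.coe_mul, hts, hts', hWs,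
      Matrix.mul_fin_two, Matrix.mul_fin_two, mat2_eq_iff]
    refine ⟨?_, ?_, ?_, ?_⟩ <;> ring
  -- `ts ^ (q + 1) = 1`
  have htq : ts ^ (3 ^ (2 * n + 1) + 1) = 1 := by
    rw [pow_succ]
    apply Subtype.ext
    rw [Matrix.SpecialLinearGroup.coe_mul, Matrix.SpecialLinearGroup.coe_pow, hts,
      sf_l4m_frob n hF a b, Matrix.SpecialLinearGroup.coe_one, Matrix.mul_fin_two,
      Matrix.one_fin_two, mat2_eq_iff]
    refine ⟨?_, ?_, ?_, ?_⟩
    · linear_combination hab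
    · ring
    · ring
    · linear_combination hab
  obtain ⟨m₀, hm₀⟩ : ∃ m₀, 3 ^ (2 * n + 1) + 1 = 4 * (2 * m₀ + 1) :=
    ⟨3 ^ (2 * n + 1) / 8, by omega⟩
  -- the entry `(0, 1)` of `ts ^ 4`
  have ht4 : ((ts ^ 4 : SL2 F) : Matrix (Fin 2) (Fin 2) F) 0 1 = 4 * a * b * (a * a - b * b) := by
    have h1 : ((ts ^ 4 : SL2 F) : Matrix (Fin 2) (Fin 2) F) =
        (!![a, b; -b, a] * !![a, b; -b, a]) * (!![a, b; -b, a] * !![a, b; -b, a]) := by
      rw [Matrix.SpecialLinearGroup.coe_pow, hts]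
      rw [show (4 : ℕ) = 2 + 2 from rfl, pow_add, pow_two]
    rw [h1, Matrix.mul_fin_two, Matrix.mul_fin_two]
    simp
    ring
  refine ⟨pr Js, pr Ws, pr (ts ^ 4), ?_, ?_, ?_, ?_, ?_, ?_, ?_, ?_, ?_, ?_⟩
  · intro h
    rw [← map_one pr, pr_eq_iff] at h
    obtain ⟨r, hr, h⟩ := h
    have h1 := congrFun (congrFun h 0) 0
    rw [hJs, Matrix.SpecialLinearGroup.coe_one] at h1
    simp at h1
  · intro h
    rw [← map_one pr, pr_eq_iff] at h
    obtain ⟨r, hr, h⟩ := h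
    have h1 := congrFun (congrFun h 0) 1
    rw [hWs, Matrix.SpecialLinearGroup.coe_one] at h1
    simp at h1
    rw [← h1] at hr
    simp at hr
  · intro h
    rw [pr_eq_iff] at h
    obtain ⟨r, hr, h⟩ := h
    have h1 := congrFun (congrFun h 0) 0
    rw [hWs, hJs] at h1
    simp at h1
  · rw [← map_mul, ← map_one pr, pr_eq_iff]
    refine ⟨-1, by ring, ?_⟩
    rw [Matrix.SpecialLinearGroup.coe_one, Matrix.SpecialLinearGroup.coe_mul, hJs,
      Matrix.mul_fin_two, smul_mat2, Matrix.one_fin_two, mat2_eq_iff]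
    refine ⟨?_, ?_, ?_, ?_⟩ <;> ring
  · rw [← map_mul, ← map_one pr, pr_eq_iff]
    refine ⟨-1, by ring, ?_⟩
    rw [Matrix.SpecialLinearGroup.coe_one, Matrix.SpecialLinearGroup.coe_mul, hWs,
      Matrix.mul_fin_two, smul_mat2, Matrix.one_fin_two, mat2_eq_iff]
    refine ⟨?_, ?_, ?_, ?_⟩
    · linear_combination h3
    · ring
    · ring
    · linear_combination h3
  · rw [← map_mul, ← map_mul, pr_eq_iff]
    refine ⟨-1, by ring, ?_⟩
    rw [Matrix.SpecialLinearGroup.coe_mul, Matrix.SpecialLinearGroup.coe_mul, hWs, hJs,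
      Matrix.mul_fin_two, Matrix.mul_fin_two, smul_mat2, mat2_eq_iff]
    refine ⟨?_, ?_, ?_, ?_⟩ <;> ring
  · intro h
    rw [← map_one pr, pr_eq_iff] at h
    obtain ⟨r, hr, h⟩ := h
    have h1 := congrFun (congrFun h 0) 1
    rw [Matrix.SpecialLinearGroup.coe_one] at h1
    simp only [Matrix.smul_apply, smul_eq_mul] at h1
    rw [ht4] at h1
    have hr0 : r ≠ 0 := by
      rintro rfl
      simp at hr
    have h4 : (4 : F) ≠ 0 := by
      intro h
      have h5 : (1 : F) = 0 := by linear_combination h - h3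
      exact one_ne_zero h5
    have h6 : (1 : Matrix (Fin 2) (Fin 2) F) 0 1 = 0 := by simp
    rw [h6] at h1
    have h7 : r * (4 * a * b * (a * a - b * b)) ≠ 0 :=
      mul_ne_zero hr0 (mul_ne_zero (mul_ne_zero (mul_ne_zero h4 ha0) hb0) (sub_ne_zero.mpr hab2))
    exact h7 h1.symm
  · have h1 : (pr (ts ^ 4)) ^ (2 * m₀ + 1) = 1 := by
      rw [← map_pow, ← pow_mul, ← hm₀, htq, map_one]
    exact Odd.of_dvd_nat ⟨m₀, rfl⟩ (orderOf_dvd_of_pow_eq_one h1)
  · rw [← map_mul, ← map_mul]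
    congr 1
    exact ((Commute.pow_right hJt 4).eq)
  · have h1 : Ws * ts * Ws⁻¹ = ts⁻¹ := by
      rw [hWt, mul_inv_cancel_right]
    have h2 : Ws * ts ^ 4 * Ws⁻¹ = (ts ^ 4)⁻¹ := by
      rw [← conj_pow, h1, inv_pow]
    rw [← map_inv, ← map_mul, ← map_mul, ← map_inv, h2]

end Cfsg.Agent.Helper3
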