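import Mathlib
import Cfsg.Agent.Helper3.SU2Defs
import Cfsg.Agent.Helper13.UnitRoot

set_option autoImplicit false

namespace Cfsg.Agent.Helper3

open Cfsg.Agent.Helper3.SU2 Cfsg.Agent.Helper13
open Cfsg.Agent.Helper5 (frobQ frobQ_apply)

variable {F : Type*} [Field F] [Fintype F] {n : ℕ}

theorem su2c_crit (hF : Fintype.card F = 2 ^ 2) (hn : 4 ≤ n) (M : Subgroup ↥(Cfsg.SU n F 2))
    (h : ∀ v : Fin n → F, utv hF v 1 ∈ M) : M = ⊤ := by
  rw [eq_top_iff, ← su_eq_utT hF n (by omega) (by omega)]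
  unfold utT
  rw [Subgroup.closure_le]
  intro A hA
  rcases utGen_cases A hA with h1 | h1
  · rw [h1]; exact M.one_mem
  · obtain ⟨w, c, -, hc0, -, hc, rfl⟩ := su_rank_one hF A h1
    have hc1 : c = 1 := by
      have h2 := ufld2_two hF
      rw [frobQ_apply] at hc
      have h3 : c * (c + 1) = 0 := by linear_combination hc
      rcases mul_eq_zero.1 h3 with h4 | h4
      · exact absurd h4 hc0
      · linear_combination h4 - h2
    rw [hc1]; exact h w

theorem su2c_phi (hF : Fintype.card F = 2 ^ 2) (M : Subgroup ↥(Cfsg.SU n F 2)) :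
    PhiCl {v : Fin n → F | utv hF v 1 ∈ M} := by
  have h2 := ufld2_two hF
  have hc1 : frobQ hF (1 : F) = -1 := by rw [map_one]; linear_combination h2
  refine ⟨?_, ?_, ?_, ?_⟩
  · show utv hF 0 1 ∈ M
    rw [utv_zero_left]; exact M.one_mem
  · intro l v hl hv
    show utv hF (l • v) 1 ∈ M
    rw [utv_smul hF l hl v 1, ufld2_norm hF l hl, mul_one]; exact hv
  · intro v hv
    show utv hF v 1 ∈ M
    rw [utv_of_not_iso hF v 1 hv]; exact M.one_mem
  · intro x y hx hy hxx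
    show utv hF (y + Cfsg.hermForm n F 2 y x • x) 1 ∈ M
    have h := utv_conj hF (utv hF x 1) y 1
    rw [uact_utv hF x 1 hxx hc1 y, one_mul] at h
    rw [← h]
    exact M.mul_mem (M.mul_mem hx hy) (M.inv_mem hx)

theorem su2c_phiact (hF : Fintype.card F = 2 ^ 2) (M : Subgroup ↥(Cfsg.SU n F 2))
    (m : ↥(Cfsg.SU n F 2)) (hm : m ∈ M) (v : Fin n → F) (hv : utv hF v 1 ∈ M) :
    utv hF (uact m v) 1 ∈ M := by
  rw [← utv_conj]
  exact M.mul_mem (M.mul_mem hm hv) (M.inv_mem hm)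

end Cfsg.Agent.Helper3
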