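import Mathlib
import Cfsg.Agent.Helper3.SU2Defs

set_option autoImplicit false

namespace Cfsg.Agent.Helper3

open Cfsg.Agent.Helper3.SU2 Cfsg.Agent.Helper13 Matrix

variable {F : Type*} [Field F] [Fintype F] {n : ℕ}

theorem su2c_perm (hF : Fintype.card F = 2 ^ 2) (σ : Equiv.Perm (Fin n)) :
    ∃ a : ↥(Cfsg.SU n F 2), ∀ x : Fin n → F, uact a x = fun i => x (σ.symm i) := by
  have h2 := ufld2_two hF
  have hmv : ∀ x : Fin n → F, (Equiv.Perm.permMatrix F σ⁻¹) *ᵥ x = fun i => x (σ.symm i) := by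
    intro x
    unfold Equiv.Perm.permMatrix
    rw [PEquiv.toMatrix_toPEquiv_mulVec]
    rfl
  have hdet : (Equiv.Perm.permMatrix F σ⁻¹).det = 1 := by
    rw [Matrix.det_permutation]
    rcases Int.units_eq_one_or (Equiv.Perm.sign σ⁻¹) with h | h
    · rw [h]; simp
    · rw [h]; simp; linear_combination (-1 : F) * h2
  have hmem : (⟨Equiv.Perm.permMatrix F σ⁻¹, hdet⟩ : Matrix.SpecialLinearGroup (Fin n) F) ∈
      Cfsg.SU n F 2 := by
    refine (mem_SU_iff (⟨Equiv.Perm.permMatrix F σ⁻¹, hdet⟩ :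
      Matrix.SpecialLinearGroup (Fin n) F)).2 ?_
    intro u v
    show Cfsg.hermForm n F 2 ((Equiv.Perm.permMatrix F σ⁻¹) *ᵥ u)
      ((Equiv.Perm.permMatrix F σ⁻¹) *ᵥ v) = _
    rw [hmv, hmv]
    unfold Cfsg.hermForm
    exact Equiv.sum_comp σ.symm (fun i => u i * v i ^ 2)
  refine ⟨⟨⟨Equiv.Perm.permMatrix F σ⁻¹, hdet⟩, hmem⟩, fun x => ?_⟩
  exact hmv x

end Cfsg.Agent.Helper3
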