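import Mathlib
import Cfsg.Agent.Helper3.SU2Defs
import Cfsg.Agent.Helper3.SU3TwoGen
import Cfsg.Agent.Helper3.PSU42TwoGen
import Cfsg.Agent.Helper3.SU2CCRIT
import Cfsg.Agent.Helper31.SU2CDIAG
import Cfsg.Agent.Helper31.SU2CDVEC
import Cfsg.Agent.Helper10.SU2CEALL
import Cfsg.Agent.Helper74.SU2CEDGE0
import Cfsg.Agent.Helper49.SU2CEDGE1
import Cfsg.Agent.Helper19.SU2CESHIFT
import Cfsg.Agent.Helper49.SU2CETRANS
import Cfsg.Agent.Helper10.SU2CEXTRACT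
import Cfsg.Agent.Helper19.SU2CF4
import Cfsg.Agent.Helper6.SU2CFIN
import Cfsg.Agent.Helper15.SU2CKEYE
import Cfsg.Agent.Helper15.SU2CKEYX
import Cfsg.Agent.Helper15.SU2CKEYY
import Cfsg.Agent.Helper49.SU2CKEYZ
import Cfsg.Agent.Helper22.SU2CMOVE
import Cfsg.Agent.Helper52.SU2CNORMCARD
import Cfsg.Agent.Helper3.SU2CPERM
import Cfsg.Agent.Helper6.SU2CRED
import Cfsg.Agent.Helper22.SU2CSCALE
import Cfsg.Agent.Helper52.SU2CSMALL
import Cfsg.Agent.Helper27.SU2CTG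
import Cfsg.Agent.Helper10.SU2CTPOW
import Cfsg.Agent.Helper6.SU2CW4
import Cfsg.Agent.Helper22.SU2CW4BASE
import Cfsg.Agent.Helper19.SU2CWSHIFT

/-!
# `SU_n(2)`, `n ≥ 5`, and `PSU_n(2)`, `n ≥ 4`, are generated by two elements (case `q = 2` of S2412)

`a` = the cyclic-shift permutation matrix, `b = t_w g` with `t_w` the unitary transvection with centre
`w = e_0 + e_1 + e_2 + e_3` and `g = diag(ω, ω, ω, ω, ω², 1, …, 1)`.  The pieces `su2c_*` were proved by the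
seats named in the imports (CALL S2412C).
-/

set_option autoImplicit false

namespace Cfsg.Agent.Helper3.SU2Main

open Cfsg.Agent.Helper3.SU2 Cfsg.Agent.Helper13
open Cfsg.Agent.Helper5 (frobQ frobQ_apply)

variable {F : Type*} [Field F] [Fintype F] {n : ℕ}

/-- all edges are full -/
theorem su2c_s1 (hF : Fintype.card F = 2 ^ 2) (hn : 5 ≤ n) {Φ : Set (Fin n → F)} (hΦ : PhiCl Φ)
    (ω : F) (hω0 : ω ≠ 0) (hω1 : 1 + ω ≠ 0) (hω : 1 + ω + ω ^ 2 = 0)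
    (hσ : ∀ v ∈ Φ, (fun i => v ((finRotate n).symm i)) ∈ Φ)
    (hσ' : ∀ v ∈ Φ, (fun i => v (finRotate n i)) ∈ Φ)
    (d : Fin n → F) (hd : ∀ v ∈ Φ, (fun i => d i * v i) ∈ Φ)
    (hd0 : d ⟨0, by omega⟩ = ω) (hd4 : d ⟨4, by omega⟩ = ω ^ 2)
    (hw : (win (⟨0, by omega⟩ : Fin n) ⟨1, by omega⟩ ⟨2, by omega⟩ ⟨3, by omega⟩ : Fin n → F) ∈ Φ) :
    ∀ i j : Fin n, Edge Φ i j := by
  obtain ⟨m, rfl⟩ : ∃ m, n = m + 1 := ⟨n - 1, by omega⟩
  have hs : ∀ (k : ℕ) (hk : k + 1 < m + 1),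
      finRotate (m + 1) ⟨k, by omega⟩ = ⟨k + 1, hk⟩ := by
    intro k hk
    exact finRotate_of_lt (by omega)
  have hs' : ∀ (k : ℕ) (hk : k + 1 < m + 1),
      (finRotate (m + 1))⁻¹ ⟨k + 1, hk⟩ = ⟨k, by omega⟩ := by
    intro k hk
    rw [Equiv.Perm.inv_eq_iff_eq, hs k hk]
  have hs0 : (finRotate (m + 1))⁻¹ ⟨0, by omega⟩ = ⟨m, by omega⟩ := by
    rw [Equiv.Perm.inv_eq_iff_eq]
    exact (finRotate_last).symm
  have hτ : ∀ v ∈ Φ, (fun i => v (((finRotate (m + 1))⁻¹).symm i)) ∈ Φ := hσ'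
  have hne : ∀ (a b : ℕ) (ha : a < m + 1) (hb : b < m + 1), a ≠ b →
      (⟨a, ha⟩ : Fin (m + 1)) ≠ ⟨b, hb⟩ := by
    intro a b ha hb hab h
    exact hab (congrArg Fin.val h)
  -- the second window
  have W1 : (win (⟨1, by omega⟩ : Fin (m + 1)) ⟨2, by omega⟩ ⟨3, by omega⟩ ⟨4, by omega⟩ :
      Fin (m + 1) → F) ∈ Φ := by
    have h := Cfsg.Agent.Helper19.su2c_wshift (finRotate (m + 1)) hσ _ _ _ _ hw
    rwa [hs 0 (by omega), hs 1 (by omega), hs 2 (by omega), hs 3 (by omega)] at h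
  have e04 := Cfsg.Agent.Helper74.su2c_edge0 hF hΦ ⟨0, by omega⟩ ⟨1, by omega⟩ ⟨2, by omega⟩ ⟨3, by omega⟩
    ⟨4, by omega⟩ (hne _ _ _ _ (by omega)) (hne _ _ _ _ (by omega)) (hne _ _ _ _ (by omega))
    (hne _ _ _ _ (by omega)) (hne _ _ _ _ (by omega)) (hne _ _ _ _ (by omega))
    (hne _ _ _ _ (by omega)) (hne _ _ _ _ (by omega)) (hne _ _ _ _ (by omega))
    (hne _ _ _ _ (by omega)) hw W1
  have E04 : Edge Φ (⟨0, by omega⟩ : Fin (m + 1)) ⟨4, by omega⟩ :=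
    Cfsg.Agent.Helper49.su2c_edge1 hF hΦ ω hω0 hω1 hω (Cfsg.Agent.Helper19.su2c_f4 hF ω hω0 hω1 hω) d hd _ _
      (hne _ _ _ _ (by omega)) hd0 hd4 e04
  -- the window and the edge before
  have Wm : (win (⟨m, by omega⟩ : Fin (m + 1)) ⟨0, by omega⟩ ⟨1, by omega⟩ ⟨2, by omega⟩ :
      Fin (m + 1) → F) ∈ Φ := by
    have h := Cfsg.Agent.Helper19.su2c_wshift (finRotate (m + 1))⁻¹ hτ _ _ _ _ hw
    rwa [hs0, hs' 0 (by omega), hs' 1 (by omega), hs' 2 (by omega)] at h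
  have Em3 : Edge Φ (⟨m, by omega⟩ : Fin (m + 1)) ⟨3, by omega⟩ := by
    have h := Cfsg.Agent.Helper19.su2c_eshift (finRotate (m + 1))⁻¹ hτ _ _ E04
    rwa [hs0, hs' 3 (by omega)] at h
  have X := Cfsg.Agent.Helper15.su2c_keyx hF hΦ ⟨0, by omega⟩ ⟨1, by omega⟩ ⟨2, by omega⟩ ⟨3, by omega⟩
    ⟨4, by omega⟩ (hne _ _ _ _ (by omega)) (hne _ _ _ _ (by omega)) (hne _ _ _ _ (by omega))
    (hne _ _ _ _ (by omega)) (hne _ _ _ _ (by omega)) (hne _ _ _ _ (by omega))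
    (hne _ _ _ _ (by omega)) W1 E04 ω hω0
  have Y := Cfsg.Agent.Helper15.su2c_keyy hF hΦ ⟨m, by omega⟩ ⟨0, by omega⟩ ⟨1, by omega⟩ ⟨2, by omega⟩
    ⟨3, by omega⟩ (hne _ _ _ _ (by omega)) (hne _ _ _ _ (by omega)) (hne _ _ _ _ (by omega))
    (hne _ _ _ _ (by omega)) (hne _ _ _ _ (by omega)) (hne _ _ _ _ (by omega))
    (hne _ _ _ _ (by omega)) Wm Em3 ω hω0
  have Z := Cfsg.Agent.Helper49.su2c_keyz hF hΦ ω hω0 hω1 hω ⟨0, by omega⟩ ⟨1, by omega⟩ ⟨2, by omega⟩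
    ⟨3, by omega⟩ (hne _ _ _ _ (by omega)) (hne _ _ _ _ (by omega)) (hne _ _ _ _ (by omega))
    (hne _ _ _ _ (by omega)) (hne _ _ _ _ (by omega)) (hne _ _ _ _ (by omega)) X Y
  have E34 : Edge Φ (⟨3, by omega⟩ : Fin (m + 1)) ⟨4, by omega⟩ :=
    Cfsg.Agent.Helper15.su2c_keye hF hΦ ⟨0, by omega⟩ ⟨3, by omega⟩ ⟨4, by omega⟩ (hne _ _ _ _ (by omega))
      (hne _ _ _ _ (by omega)) (hne _ _ _ _ (by omega)) Z E04
  -- adjacent edges
  have hcyc : Equiv.Perm.IsCycle (finRotate (m + 1)) := isCycle_finRotate_of_le (by omega)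
  have hmv : ∀ x : Fin (m + 1), finRotate (m + 1) x ≠ x := by
    intro x
    have hx : x ∈ (finRotate (m + 1)).support := by
      rw [support_finRotate_of_le (by omega)]; exact Finset.mem_univ x
    exact Equiv.Perm.mem_support.mp hx
  have adj : ∀ i : Fin (m + 1), Edge Φ i (finRotate (m + 1) i) := by
    intro i
    obtain ⟨k, hk⟩ := hcyc.exists_pow_eq (hmv ⟨3, by omega⟩) (hmv i)
    have h := Cfsg.Agent.Helper19.su2c_eshift (finRotate (m + 1) ^ k)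
      (Cfsg.Agent.Helper10.su2c_tpow (finRotate (m + 1)) hσ k) _ _ E34
    have h4 : (⟨4, by omega⟩ : Fin (m + 1)) = finRotate (m + 1) ⟨3, by omega⟩ :=
      (hs 3 (by omega)).symm
    rw [h4, hk] at h
    have hcomm : (finRotate (m + 1) ^ k) (finRotate (m + 1) ⟨3, by omega⟩) =
        finRotate (m + 1) ((finRotate (m + 1) ^ k) ⟨3, by omega⟩) := by
      rw [← Equiv.Perm.mul_apply, ← Equiv.Perm.mul_apply, ← pow_succ, ← pow_succ']
    rw [hcomm, hk] at h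
    exact h
  exact Cfsg.Agent.Helper10.su2c_eall (by omega) (fun i j l => Cfsg.Agent.Helper49.su2c_etrans hF hΦ i j l) adj

/-- `SU_n(2)`, `n ≥ 5`, is generated by two elements. -/
theorem su2_two_gen (hF : Fintype.card F = 2 ^ 2) (hn : 5 ≤ n) :
    ∃ a b : ↥(Cfsg.SU n F 2), Subgroup.closure ({a, b} : Set ↥(Cfsg.SU n F 2)) = ⊤ := by
  obtain ⟨ω, hω0, hω1, hω'⟩ := ufld2_omega hF
  have hω : 1 + ω + ω ^ 2 = 0 := by rw [frobQ_apply] at hω'; exact hω'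
  have hω3 : ω ^ 3 = 1 := by
    have h := ufld2_norm hF ω hω0
    rw [frobQ_apply] at h
    linear_combination h
  set d : Fin n → F := fun i => if i.val < 4 then ω else if i.val = 4 then ω ^ 2 else 1 with hd
  have hd0 : ∀ i, d i ≠ 0 := by
    intro i
    simp only [hd]
    split_ifs
    · exact hω0
    · exact pow_ne_zero 2 hω0
    · exact one_ne_zero
  obtain ⟨a, ha⟩ := Cfsg.Agent.Helper3.su2c_perm hF (finRotate n)
  obtain ⟨g, hg⟩ := Cfsg.Agent.Helper31.su2c_diag hF d hd0 (Cfsg.Agent.Helper31.su2c_dvec hn ω hω3)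
  obtain ⟨htg, ht2, hg3⟩ := Cfsg.Agent.Helper27.su2c_tg hF hn ω hω0 hω3 g hg
  set w : Fin n → F := win (⟨0, by omega⟩ : Fin n) ⟨1, by omega⟩ ⟨2, by omega⟩ ⟨3, by omega⟩
    with hwdef
  set t := utv hF w 1 with htdef
  refine ⟨a, t * g, ?_⟩
  set M := Subgroup.closure ({a, t * g} : Set ↥(Cfsg.SU n F 2)) with hM
  have haM : a ∈ M := Subgroup.subset_closure (by simp)
  have hbM : t * g ∈ M := Subgroup.subset_closure (by simp)
  have htM : t ∈ M := by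
    have h := M.pow_mem hbM 3
    rwa [Cfsg.Agent.Helper10.su2c_extract t g htg ht2 hg3] at h
  have hgM : g ∈ M := by
    have h := M.mul_mem (M.inv_mem htM) hbM
    rwa [inv_mul_cancel_left] at h
  apply Cfsg.Agent.Helper3.su2c_crit hF (by omega) M
  have hΦ : PhiCl {v : Fin n → F | utv hF v 1 ∈ M} := Cfsg.Agent.Helper3.su2c_phi hF M
  have hact : ∀ m ∈ M, ∀ v ∈ {v : Fin n → F | utv hF v 1 ∈ M},
      uact m v ∈ {v : Fin n → F | utv hF v 1 ∈ M} :=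
    fun m hm v hv => Cfsg.Agent.Helper3.su2c_phiact hF M m hm v hv
  have hσ : ∀ v ∈ {v : Fin n → F | utv hF v 1 ∈ M},
      (fun i => v ((finRotate n).symm i)) ∈ {v : Fin n → F | utv hF v 1 ∈ M} := by
    intro v hv
    have h := hact a haM v hv
    rwa [ha] at h
  have hσ' : ∀ v ∈ {v : Fin n → F | utv hF v 1 ∈ M},
      (fun i => v (finRotate n i)) ∈ {v : Fin n → F | utv hF v 1 ∈ M} := by
    intro v hv
    have h := hact a⁻¹ (M.inv_mem haM) v hv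
    have e : uact a⁻¹ v = fun i => v (finRotate n i) := by
      have h1 := ha (fun i => v (finRotate n i))
      have h2 : uact a (fun i => v (finRotate n i)) = v := by
        rw [h1]; funext i; rw [Equiv.apply_symm_apply]
      rw [← h2, uact_inv_uact, h2]
    rwa [e] at h
  have hdΦ : ∀ v ∈ {v : Fin n → F | utv hF v 1 ∈ M},
      (fun i => d i * v i) ∈ {v : Fin n → F | utv hF v 1 ∈ M} := by
    intro v hv
    have h := hact g hgM v hv
    rwa [hg] at h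
  have hwΦ : w ∈ {v : Fin n → F | utv hF v 1 ∈ M} := htM
  have hE := su2c_s1 hF hn hΦ ω hω0 hω1 hω hσ hσ' d hdΦ (by simp [hd]) (by simp [hd]) hwΦ
  have hmove : ∀ (v : Fin n → F), v ∈ {v : Fin n → F | utv hF v 1 ∈ M} → ∀ i j : Fin n, i ≠ j →
      v j = 0 → ∀ ν : F, ν ≠ 0 →
      Function.update (Function.update v i 0) j (ν * v i) ∈ {v : Fin n → F | utv hF v 1 ∈ M} :=
    fun v hv i j hij hvj ν hν => Cfsg.Agent.Helper22.su2c_move hF hΦ hE v hv i j hij hvj ν hν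
  have hscale : ∀ (v : Fin n → F), v ∈ {v : Fin n → F | utv hF v 1 ∈ M} → ∀ i j : Fin n, i ≠ j →
      v j = 0 → ∀ l : F, l ≠ 0 →
      Function.update v i (l * v i) ∈ {v : Fin n → F | utv hF v 1 ∈ M} :=
    fun v hv i j hij hvj l hl => Cfsg.Agent.Helper22.su2c_scale hmove v hv i j hij hvj l hl
  have hbase : ∀ v : Fin n → F, (∀ i : Fin n, v i ≠ 0 ↔ i.val < 4) →
      v ∈ {v : Fin n → F | utv hF v 1 ∈ M} :=
    fun v hv => Cfsg.Agent.Helper22.su2c_w4base hn hscale hwΦ v hv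
  have h4 : ∀ x : Fin n → F, (supp x).card = 4 → x ∈ {v : Fin n → F | utv hF v 1 ∈ M} :=
    fun v hv => Cfsg.Agent.Helper6.su2c_w4 hn hmove hbase v hv
  have hsmall : ∀ v : Fin n → F, (supp v).card ≤ 3 → v ∈ {v : Fin n → F | utv hF v 1 ∈ M} :=
    fun v hv => Cfsg.Agent.Helper52.su2c_small hF hΦ hE (Cfsg.Agent.Helper52.su2c_normcard hF) v hv
  exact Cfsg.Agent.Helper6.su2c_fin hsmall
    (fun v i1 i2 i3 i4 h12 h13 h14 h23 h24 h34 hv1 hv2 hv3 hv4 IH =>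
      Cfsg.Agent.Helper6.su2c_red hF hΦ ω hω0 hω1 hω h4 v i1 i2 i3 i4 h12 h13 h14 h23 h24 h34 hv1 hv2 hv3
        hv4 IH)

/-- `PSU_n(2)`, `n ≥ 4`, is generated by two elements. -/
theorem psu_q2_two_gen (hF : Fintype.card F = 2 ^ 2) (hn : 4 ≤ n) :
    ∃ a b : Cfsg.PSU n F 2, Subgroup.closure ({a, b} : Set (Cfsg.PSU n F 2)) = ⊤ := by
  rcases Nat.lt_or_ge 4 n with h | h
  · exact Cfsg.Agent.Helper3.SU3TwoGen.quot_two_gen _ (su2_two_gen hF (by omega))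
  · have h4 : n = 4 := by omega
    subst h4
    exact Cfsg.Agent.Helper3.PSU42TwoGen.psu4_2_two_gen hF

end Cfsg.Agent.Helper3.SU2Main
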