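import Mathlib
import Cfsg.Agent.Helper65.SUGDefs
import Cfsg.Agent.Helper13.UnitRoot

set_option autoImplicit false

namespace Cfsg.Agent.Helper3

open Matrix
open Cfsg.Agent.Helper5 (frobQ frobQ_apply frobQ_frobQ)
open Cfsg.Agent.Helper13
open Cfsg.Agent.Helper65

variable {F : Type*} [Field F] [Fintype F] {q n : ℕ}

/-- the step of `sug_lift` for one transvection -/
theorem sug_lift_tv (hF : Fintype.card F = q ^ 2) (k : ℕ) (hk : k ≤ n) (Φ : Set (Fin n → F))
    (hΦ : SugClosed hF Φ) (hfull : SugFull q Φ k) (z : Fin n → F)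
    (hext0 : ∀ x v : Fin k → F,
      Cfsg.hermForm n F q (sugExt k n x) (sugExt k n v) = Cfsg.hermForm k F q x v)
    (hext : ∀ x v : Fin k → F,
      Cfsg.hermForm n F q (sugExt k n x + z) (sugExt k n v) = Cfsg.hermForm k F q x v)
    (v : Fin k → F) (c : F) (hv0 : v ≠ 0) (hv : Cfsg.hermForm k F q v v = 0)
    (hc : frobQ hF c = -c) (x : Fin k → F)
    (hx : sugExt k n x + z ∈ Φ) : sugExt k n (uact (utv hF v c) x) + z ∈ Φ := by
  have hV : sugExt k n v ∈ Φ := by
    apply hfull
    · intro h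
      apply hv0
      funext i
      have h1 := congrFun h ⟨i.val, lt_of_lt_of_le i.isLt hk⟩
      unfold sugExt at h1
      rw [dif_pos (show (⟨i.val, lt_of_lt_of_le i.isLt hk⟩ : Fin n).val < k from i.isLt)] at h1
      exact h1
    · rw [hext0, hv]
    · intro i hi
      exact sug_ext_apply_of_le k n v i hi
  have h1 := hΦ.tv (sugExt k n v) hV (sugExt k n x + z) hx c hc
  rw [hext] at h1
  rw [uact_utv hF v c hv hc, sug_ext_add, sug_ext_smul]
  have e : sugExt k n x + (c * Cfsg.hermForm k F q x v) • sugExt k n v + z =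
      sugExt k n x + z + (c * Cfsg.hermForm k F q x v) • sugExt k n v := by
    abel
  rw [e]
  exact h1

theorem sug_lift (hF : Fintype.card F = q ^ 2) (k : ℕ) (hk : k ≤ n) (Φ : Set (Fin n → F))
    (hΦ : SugClosed hF Φ) (hfull : SugFull q Φ k) (z : Fin n → F)
    (hext0 : ∀ x v : Fin k → F,
      Cfsg.hermForm n F q (sugExt k n x) (sugExt k n v) = Cfsg.hermForm k F q x v)
    (hext : ∀ x v : Fin k → F,
      Cfsg.hermForm n F q (sugExt k n x + z) (sugExt k n v) = Cfsg.hermForm k F q x v)
    (t : ↥(Cfsg.SU k F q)) (ht : t ∈ utT k F q) (x : Fin k → F)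
    (hx : sugExt k n x + z ∈ Φ) : sugExt k n (uact t x) + z ∈ Φ := by
  unfold utT at ht
  revert x
  induction ht using Subgroup.closure_induction'' with
  | one =>
    intro x hx
    rw [uact_one]; exact hx
  | mem A hA =>
    intro x hx
    rcases utGen_cases A hA with h1 | h1
    · rw [h1, uact_one]; exact hx
    · obtain ⟨v, c, hv0, -, hv, hc, rfl⟩ := su_rank_one hF A h1
      exact sug_lift_tv hF k hk Φ hΦ hfull z hext0 hext v c hv0 hv hc x hx
  | inv_mem A hA =>
    intro x hx
    rcases utGen_cases A hA with h1 | h1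
    · rw [h1, inv_one, uact_one]; exact hx
    · obtain ⟨v, c, hv0, -, hv, hc, rfl⟩ := su_rank_one hF A h1
      rw [utv_inv hF v c hv hc]
      exact sug_lift_tv hF k hk Φ hΦ hfull z hext0 hext v (-c) hv0 hv
        (by rw [map_neg, hc]) x hx
  | mul a b _ _ iha ihb =>
    intro x hx
    rw [uact_mul]
    exact iha _ (ihb x hx)

end Cfsg.Agent.Helper3
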