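import Mathlib
import Cfsg.Prelude.Def_GeometricClasses
import Cfsg.Agent.Helper96.T5Defs
import Cfsg.Agent.Helper51.T5L6P
import Cfsg.Agent.Helper51.T5NSV

/-!
# CALL S5704 piece SCE2 (helper3)
-/

set_option autoImplicit false
set_option linter.unusedVariables false

namespace Cfsg.Agent.Helper3.T5SCE2

open Matrix Cfsg Cfsg.Geo Cfsg.Agent.Helper71.T4 Cfsg.Agent.Helper96.T5
open scoped Kronecker

variable {F : Type*} [Field F] {a b : ℕ}

/-- conjugation of a rank one operator by a transvection -/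
theorem tv_conj_rk (J : Matrix (Fin a) (Fin a) F) (halt : ∀ x, bf J x x = 0)
    (z u v : Fin a → F) (c : F) :
    tv J z c * rk J u v * tv J z (-c) = rk J (tv J z c *ᵥ u) (tv J z c *ᵥ v) := by
  apply Cfsg.Agent.Helper51.T5L6P.ext_mulVec
  intro w
  rw [← Matrix.mulVec_mulVec, ← Matrix.mulVec_mulVec, rk_mulVec, rk_mulVec, Matrix.mulVec_smul]
  congr 1
  rw [tv_mulVec, tv_mulVec, bf_add_left, bf_smul_left, bf_add_right, bf_smul_right,
    bf_swap J halt z v]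
  ring

theorem tv_conj_dm (J : Matrix (Fin a) (Fin a) F) (halt : ∀ x, bf J x x = 0)
    (z u v : Fin a → F) (c : F) :
    tv J z c * dm J u v * tv J z (-c) = dm J (tv J z c *ᵥ u) (tv J z c *ᵥ v) := by
  rw [dm, Matrix.mul_sub, Matrix.sub_mul, tv_conj_rk J halt, tv_conj_rk J halt, dm]

/-- a vector dual to `x` and orthogonal to `y` -/
theorem exists_dual (J : Matrix (Fin a) (Fin a) F) (hdet : J.det ≠ 0)
    (x y : Fin a → F) (hx : x ≠ 0) (hy : ∀ c : F, y ≠ c • x) :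
    ∃ v, bf J x v = 1 ∧ bf J y v = 0 := by
  obtain ⟨g, hg⟩ := exists_bf_eq_one J hdet x hx
  have hz : y - bf J y g • x ≠ 0 := by
    intro h
    exact hy _ (sub_eq_zero.mp h)
  obtain ⟨h, hh⟩ := exists_bf_eq_one J hdet _ hz
  have hzg : bf J (y - bf J y g • x) g = 0 := by
    rw [bf_sub_left, bf_smul_left, hg]; ring
  refine ⟨g - bf J y g • (h - bf J x h • g), ?_, ?_⟩
  · rw [bf_sub_right, bf_smul_right, bf_sub_right, bf_smul_right, hg]; ring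
  · have h1 : bf J y (g - bf J y g • (h - bf J x h • g)) =
        bf J (y - bf J y g • x) (g - bf J y g • (h - bf J x h • g)) +
          bf J y g * bf J x (g - bf J y g • (h - bf J x h • g)) := by
      rw [bf_sub_left, bf_smul_left]; ring
    rw [h1, bf_sub_right, bf_smul_right, bf_sub_right, bf_smul_right, hzg, hh, bf_sub_right,
      bf_smul_right, bf_sub_right, bf_smul_right, hg]
    ring

/-- a non-zero vector orthogonal to four given vectors -/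
theorem exists_perp4 (J : Matrix (Fin a) (Fin a) F) (ha : 5 ≤ a) (c : Fin 4 → Fin a → F) :
    ∃ v : Fin a → F, v ≠ 0 ∧ ∀ i, bf J v (c i) = 0 := by
  obtain ⟨L, hL⟩ : ∃ L : (Fin a → F) →ₗ[F] (Fin 4 → F),
      L = Matrix.toLin' (Matrix.of fun i => J *ᵥ c i) := ⟨_, rfl⟩
  have hlt : Module.finrank F (Fin 4 → F) < Module.finrank F (Fin a → F) := by
    rw [Module.finrank_fin_fun, Module.finrank_fin_fun]; omega
  have hker := LinearMap.ker_ne_bot_of_finrank_lt (f := L) hlt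
  obtain ⟨v, hv, hv0⟩ := (Submodule.ne_bot_iff _).mp hker
  refine ⟨v, hv0, fun i => ?_⟩
  have h1 := congrFun (LinearMap.mem_ker.mp hv) i
  rw [hL, Matrix.toLin'_apply] at h1
  rw [bf, dotProduct_comm]
  exact h1

/-- PIECE SCE2: characteristic two, `a ≥ 5`, all of `𝔖` alternating: `𝔖` consists of scalars. -/
theorem sce2 (J₁ : Matrix (Fin a) (Fin a) F) (halt : ∀ x, bf J₁ x x = 0) (hdet : J₁.det ≠ 0)
    (ha : 5 ≤ a) (h2 : (2 : F) = 0) (𝔖 : AddSubgroup (Matrix (Fin a) (Fin a) F))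
    (hconj : ∀ (e : Fin a → F) (c : F) (A : Matrix (Fin a) (Fin a) F), A ∈ 𝔖 →
      tv J₁ e c * A * tv J₁ e (-c) ∈ 𝔖)
    (hpair : ∀ A ∈ 𝔖, ∀ A' ∈ 𝔖, ∃ κ : F,
      adj J₁ A * A' + adj J₁ A' * A = κ • (1 : Matrix (Fin a) (Fin a) F))
    (hal : ∀ A ∈ 𝔖, ∀ u : Fin a → F, bf J₁ (A *ᵥ u) u = 0) :
    ∀ A ∈ 𝔖, ∃ c : F, A = c • (1 : Matrix (Fin a) (Fin a) F) := by
  intro A hA
  by_contra hns
  obtain ⟨x, hx0, hxA⟩ := Cfsg.Agent.Helper51.T5NSV.nsv A hns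
  have hself : ∀ u w, bf J₁ (A *ᵥ u) w = bf J₁ u (A *ᵥ w) := by
    intro u w
    have h := hal A hA (u + w)
    rw [Matrix.mulVec_add, bf_add_left, bf_add_right, bf_add_right, hal A hA u, hal A hA w] at h
    rw [bf_swap J₁ halt u (A *ᵥ w)]
    linear_combination h
  obtain ⟨y, hy⟩ : ∃ y, y = A *ᵥ x := ⟨_, rfl⟩
  have hyx : bf J₁ y x = 0 := by rw [hy]; exact hal A hA x
  have hxy : bf J₁ x y = 0 := by rw [bf_swap J₁ halt, hyx, neg_zero]
  have hyne : ∀ c : F, y ≠ c • x := by rw [hy]; exact hxA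
  have hy0 : y ≠ 0 := by intro h; exact hyne 0 (by rw [h, zero_smul])
  have hxne : ∀ c : F, x ≠ c • y := by
    intro c hc
    by_cases hc0 : c = 0
    · rw [hc0, zero_smul] at hc; exact hx0 hc
    · apply hyne c⁻¹
      rw [hc, smul_smul, inv_mul_cancel₀ hc0, one_smul]
  have hD : dm J₁ x y ∈ 𝔖 := by
    have h1 := 𝔖.sub_mem (hconj x 1 A hA) hA
    rw [Cfsg.Agent.Helper51.T5L6P.l6p J₁ A hself (hal A hA) x 1, one_smul, ← hy] at h1
    exact h1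
  obtain ⟨f₁, hf1x, hf1y⟩ := exists_dual J₁ hdet x y hx0 hyne
  obtain ⟨f₂, hf2y, hf2x⟩ := exists_dual J₁ hdet y x hy0 hxne
  obtain ⟨fy, hfy⟩ : ∃ fy, fy = f₂ + bf J₁ f₁ f₂ • x := ⟨_, rfl⟩
  have hxfy : bf J₁ x fy = 0 := by rw [hfy, bf_add_right, bf_smul_right, hf2x, halt]; ring
  have hyfy : bf J₁ y fy = 1 := by rw [hfy, bf_add_right, bf_smul_right, hf2y, hyx]; ring
  have hf1fy : bf J₁ f₁ fy = 0 := by
    rw [hfy, bf_add_right, bf_smul_right, bf_swap J₁ halt f₁ x, hf1x]; ring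
  have hC1x : tv J₁ (x - f₁) 1 *ᵥ x = f₁ := by
    rw [tv_mulVec, bf_sub_right, halt, hf1x]
    simp
  have hC1y : tv J₁ (x - f₁) 1 *ᵥ y = y := by
    rw [tv_mulVec, bf_sub_right, hyx, hf1y]
    simp
  have hC2f : tv J₁ (y - fy) 1 *ᵥ f₁ = f₁ := by
    rw [tv_mulVec, bf_sub_right, bf_swap J₁ halt f₁ y, hf1y, hf1fy]
    simp
  have hC2y : tv J₁ (y - fy) 1 *ᵥ y = fy := by
    rw [tv_mulVec, bf_sub_right, halt, hyfy]
    simp
  have hD' : dm J₁ f₁ fy ∈ 𝔖 := by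
    have h1 := hconj (y - fy) 1 _ (hconj (x - f₁) 1 _ hD)
    rw [tv_conj_dm J₁ halt, tv_conj_dm J₁ halt, hC1x, hC1y, hC2f, hC2y] at h1
    exact h1
  obtain ⟨κ, hκ⟩ := hpair _ hD _ hD'
  have hform : ∀ u w, bf J₁ (dm J₁ x y *ᵥ u) (dm J₁ f₁ fy *ᵥ w) +
      bf J₁ (dm J₁ f₁ fy *ᵥ u) (dm J₁ x y *ᵥ w) = κ * bf J₁ u w := by
    intro u w
    have h1 := congrArg (fun M => bf J₁ u (M *ᵥ w)) hκ
    simp only [Matrix.add_mulVec, Matrix.smul_mulVec, Matrix.one_mulVec, bf_add_right,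
      bf_smul_right] at h1
    rw [← Matrix.mulVec_mulVec, ← Matrix.mulVec_mulVec, ← bf_adj J₁ hdet, ← bf_adj J₁ hdet] at h1
    exact h1
  have e1 : dm J₁ x y *ᵥ x = 0 := by
    rw [dm_mulVec, hxy, halt]; simp
  have e2 : dm J₁ f₁ fy *ᵥ x = -fy := by
    rw [dm_mulVec, hxfy, hf1x]; simp
  have e3 : dm J₁ x y *ᵥ f₁ = y := by
    rw [dm_mulVec, bf_swap J₁ halt f₁ y, hf1y, bf_swap J₁ halt f₁ x, hf1x]; simp
  have hκ1 : κ = 1 := by
    have h1 := hform x f₁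
    rw [e1, e2, e3, bf_zero_left, zero_add, bf_neg_left, bf_swap J₁ halt fy y, hyfy, neg_neg,
      hf1x, mul_one] at h1
    exact h1.symm
  obtain ⟨v, hv0, hv⟩ := exists_perp4 J₁ ha ![x, y, f₁, fy]
  have hvx : bf J₁ v x = 0 := hv 0
  have hvy : bf J₁ v y = 0 := hv 1
  have hvf : bf J₁ v f₁ = 0 := hv 2
  have hvfy : bf J₁ v fy = 0 := hv 3
  have e4 : dm J₁ x y *ᵥ v = 0 := by
    rw [dm_mulVec, hvy, hvx]; simp
  have e5 : dm J₁ f₁ fy *ᵥ v = 0 := by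
    rw [dm_mulVec, hvfy, hvf]; simp
  obtain ⟨w, hw⟩ := exists_bf_eq_one J₁ hdet v hv0
  have h1 := hform v w
  rw [e4, e5, bf_zero_left, bf_zero_left, hw, hκ1] at h1
  simp at h1

end Cfsg.Agent.Helper3.T5SCE2
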