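import Mathlib
import Cfsg.Agent.Helper13.TIDefs

set_option autoImplicit false

/-!
# CALL S5955, piece MULTFREE, core (helper3)

The pieces PROJ, AEVALM, FGEN enter as explicit hypotheses `hproj`, `haev`, `hfgen`.
-/

namespace Cfsg.Agent.Helper3.TI5955

open Module Polynomial
open Cfsg.Agent.Helper42.SpForm Cfsg.Agent.Helper42.SpGroup Cfsg.Agent.Helper42.SpModels
open Cfsg.Agent.Helper13.TIsp Cfsg.Agent.Helper90.BG

/-- invariance under polynomials (no finiteness) -/
theorem ti_aeval_mem' {F : Type*} [Field F] {V : Type*} [AddCommGroup V] [Module F V]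
    (f : V →ₗ[F] V) (U : Submodule F V) (hU : U.map f ≤ U) (Q : F[X]) {v : V}
    (hv : v ∈ U) : aeval f Q v ∈ U := by
  have hf : ∀ u ∈ U, f u ∈ U := fun u hu => hU (Submodule.mem_map_of_mem hu)
  have hpow : ∀ k : ℕ, ∀ u ∈ U, (f ^ k) u ∈ U := by
    intro k
    induction k with
    | zero => intro u hu; simpa using hu
    | succ k ih => intro u hu; rw [pow_succ, Module.End.mul_apply]; exact ih _ (hf u hu)
  induction Q using Polynomial.induction_on' with
  | add p q hp hq => rw [map_add, LinearMap.add_apply]; exact U.add_mem hp hq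
  | monomial n a =>
    rw [aeval_monomial, Module.End.mul_apply, Module.algebraMap_end_apply]
    exact U.smul_mem _ (hpow n v hv)

section models

variable {F : Type*} [Field F]

theorem ti_multfree_core {K : Type*} [Field K] [Algebra F K] {S : Type*}
    [AddCommGroup S] [Module F S] {u : ℕ} (B₁ : LinearMap.BilinForm F K)
    (B₂ : LinearMap.BilinForm F S) (hnd₁ : ∀ v, (∀ w, B₁ v w = 0) → v = 0) (ω : Fin u → K)
    (hproj : ∀ j, ∃ g : F[X], aeval (ω j) g = 1 ∧ (∀ l, l ≠ j → aeval (ω l) g = 0) ∧
      g.eval 1 = 0)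
    (haev : ∀ (g : F[X]) (w : (Fin u → K) × S),
      aeval ((piMap (fun j => LinearMap.mulLeft F (ω j))).prodMap (1 : Module.End F S)) g w =
        (fun l => aeval (ω l) g * w.1 l, g.eval 1 • w.2))
    (hfgen : ∀ (j : Fin u) (A : Submodule F K), (∀ a ∈ A, ω j * a ∈ A) → A = ⊥ ∨ A = ⊤)
    (W : Submodule F ((Fin u → K) × S)) (hTI : TI (sumForm (piForm (Fin u) B₁) B₂) W)
    (hW : W.map ((piMap (fun j => LinearMap.mulLeft F (ω j))).prodMap (1 : Module.End F S)) ≤ W) :
    ∀ w ∈ W, w.1 = 0 := by
  classical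
  intro w hw
  funext j
  let ι : K →ₗ[F] (Fin u → K) × S :=
    (LinearMap.inl F (Fin u → K) S).comp (LinearMap.single F (fun _ => K) j)
  have hι : ∀ a, ι a = (Pi.single j a, 0) := fun a => rfl
  let A : Submodule F K := W.comap ι
  have hAmem : ∀ a, a ∈ A ↔ ((Pi.single j a : Fin u → K), (0 : S)) ∈ W := fun a => Iff.rfl
  have hA : ∀ a ∈ A, ω j * a ∈ A := by
    intro a ha
    have h1 : ((Pi.single j a : Fin u → K), (0 : S)) ∈ W := ha
    have h2 := hW (Submodule.mem_map_of_mem h1)
    rw [hAmem]
    convert h2 using 1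
    refine Prod.ext ?_ ?_
    · funext l
      show (Pi.single j (ω j * a) : Fin u → K) l = ω l * (Pi.single j a : Fin u → K) l
      by_cases hl : l = j
      · subst hl; simp
      · simp [Pi.single_apply, hl]
    · simp
  have hmem : w.1 j ∈ A := by
    obtain ⟨g, hg1, hg2, hg3⟩ := hproj j
    have h3 := ti_aeval_mem' _ W hW g hw
    rw [haev] at h3
    rw [hAmem]
    convert h3 using 1
    refine Prod.ext ?_ ?_
    · funext l
      show (Pi.single j (w.1 j) : Fin u → K) l = aeval (ω l) g * w.1 l
      by_cases hl : l = j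
      · subst hl; simp [hg1]
      · simp [Pi.single_apply, hl, hg2 l hl]
    · simp [hg3]
  rcases hfgen j A hA with h | h
  · rw [h] at hmem
    simpa using hmem
  · exfalso
    have hall : ∀ a b : K, B₁ a b = 0 := by
      intro a b
      have ha : ((Pi.single j a : Fin u → K), (0 : S)) ∈ W := by
        rw [← hAmem, h]; trivial
      have hb : ((Pi.single j b : Fin u → K), (0 : S)) ∈ W := by
        rw [← hAmem, h]; trivial
      have h4 := hTI _ ha _ hb
      rw [sumForm_apply, piForm_apply] at h4
      simp only [map_zero, add_zero] at h4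
      rw [Finset.sum_eq_single j] at h4
      · simpa using h4
      · intro l _ hl
        simp [Pi.single_apply, hl]
      · intro hj; exact absurd (Finset.mem_univ j) hj
    exact one_ne_zero (hnd₁ 1 (fun w => hall 1 w))

end models

end Cfsg.Agent.Helper3.TI5955
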