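import Mathlib
import Cfsg.Agent.Helper97.TNDefs

set_option autoImplicit false

/-!
Piece KSFO of CALL S2413 (helper97), by helper3: the basis vector `f_{i0}` of the odd-dimensional
form is a full Eichler centre of `M` as soon as all other basis vectors orthogonal to it lie in
`tD M f_{i0}`.
-/

universe u

namespace Cfsg.Agent.Helper3

open Cfsg Matrix Cfsg.Agent.Helper45 Cfsg.Agent.Helper98 Cfsg.Agent.Helper97.TM
  Cfsg.Agent.Helper97.TN

variable {m : ℕ} {F : Type u} [Field F]

/-- KSFO -/
theorem tn_centre_f [Fintype F] (M : Subgroup ↥(isometryGroup F ⇑(QO m F))) (i0 : Fin m)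
    (hE : ∀ j, j ≠ i0 → eO m F j ∈ tD (QO m F) M (fO m F i0) (QO_fO i0))
    (hF : ∀ j, j ≠ i0 → fO m F j ∈ tD (QO m F) M (fO m F i0) (QO_fO i0))
    (hZ : zO m F ∈ tD (QO m F) M (fO m F i0) (QO_fO i0)) :
    fO m F i0 ∈ op_C (QO m F) M := by
  classical
  refine ⟨QO_fO i0, fun x hx => ?_⟩
  have hxb : x (Sum.inr (Sum.inl i0)) = 0 := by rwa [polar_fO_left] at hx
  have hself : fO m F i0 ∈ tD (QO m F) M (fO m F i0) (QO_fO i0) := by
    have h0 : QuadraticMap.polar ⇑(QO m F) (fO m F i0) (fO m F i0) = 0 := by
      rw [polar_fO_left]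
      simp
    refine ⟨h0, fun c => ?_⟩
    have e : eichO (QO m F) (fO m F i0) (c • fO m F i0) (QO_fO i0)
        (by rw [QuadraticMap.polar_smul_right, h0, smul_zero]) = 1 := by
      apply ext_mv
      intro y
      rw [mv_eichO, mv_one]
      unfold Helper44.eich
      rw [QO_smul_fO, QuadraticMap.polar_smul_left, polar_fO_left]
      simp only [smul_eq_mul, zero_mul, sub_zero, smul_smul]
      rw [mul_comm, add_sub_cancel_right]
    rw [e]
    exact M.one_mem
  have hx_eq : x = ∑ j : Fin m, (x (Sum.inr (Sum.inl j)) • eO m F j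
      + x (Sum.inr (Sum.inr j)) • fO m F j) + x (Sum.inl ()) • zO m F := by
    funext idx
    rcases idx with u | j | j
    · cases u
      simp [Finset.sum_apply]
    · simp [Finset.sum_apply]
    · simp [Finset.sum_apply]
  have hxT : x ∈ tD (QO m F) M (fO m F i0) (QO_fO i0) := by
    rw [hx_eq]
    apply Submodule.add_mem
    · apply Submodule.sum_mem
      intro j _
      apply Submodule.add_mem
      · by_cases hj : j = i0
        · subst hj
          rw [hxb, zero_smul]
          exact Submodule.zero_mem _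
        · exact Submodule.smul_mem _ _ (hE j hj)
      · apply Submodule.smul_mem
        by_cases hj : j = i0
        · subst hj
          exact hself
        · exact hF j hj
    · exact Submodule.smul_mem _ _ hZ
  obtain ⟨h, hM⟩ := hxT
  have h1 := hM 1
  rw [eichO_congr (QO m F) (QO_fO i0) _ hx (one_smul F x)] at h1
  exact h1

end Cfsg.Agent.Helper3
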