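import Mathlib
import Cfsg.Agent.Helper97.TNDefs

set_option autoImplicit false

/-!
Piece N0A of CALL S2413 (helper97), by helper3: the action of the Weyl element `n0 i` on the odd
form: `e_i ↦ -f_i`, `f_i ↦ -e_i`, `z ↦ -z` (with the general formula `tn_n0_mv`).
-/

universe u

namespace Cfsg.Agent.Helper3

open Cfsg Matrix Cfsg.Agent.Helper45 Cfsg.Agent.Helper98 Cfsg.Agent.Helper97.TM
  Cfsg.Agent.Helper97.TN

variable {m : ℕ} {F : Type u} [Field F]

/-- the action of `n0 i` on an arbitrary vector -/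
theorem tn_n0_mv (i : Fin m) (x : Unit ⊕ (Fin m ⊕ Fin m) → F) :
    mv ⇑(QO m F) (n0 i) x =
      x - (x (Sum.inr (Sum.inl i)) + x (Sum.inr (Sum.inr i))) • eO m F i
        - (x (Sum.inr (Sum.inl i)) + x (Sum.inr (Sum.inr i))) • fO m F i
        - (2 * x (Sum.inl ())) • zO m F := by
  unfold n0
  rw [mv_mul, mv_mul, mv_eichO, mv_eichO, mv_eichO]
  unfold Helper44.eich
  simp only [polar_eO_left, polar_fO_left, polar_zO_left, QO_zO, Pi.add_apply, Pi.sub_apply,
    Pi.smul_apply, smul_eq_mul, eO_ee, eO_ff, eO_z, fO_ff, fO_z, zO_ee, zO_ff, zO_z,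
    if_true, mul_one, mul_zero, add_zero, sub_zero, one_mul]
  module

/-- N0A (three statements) -/
theorem tn_n0_e (i : Fin m) : mv ⇑(QO m F) (n0 i) (eO m F i) = -fO m F i := by
  rw [tn_n0_mv]
  simp only [eO_ee, eO_ff, eO_z, if_true, add_zero, mul_zero, zero_smul, sub_zero, one_smul]
  abel

theorem tn_n0_f (i : Fin m) : mv ⇑(QO m F) (n0 i) (fO m F i) = -eO m F i := by
  rw [tn_n0_mv]
  simp only [fO_ee, fO_ff, fO_z, if_true, zero_add, mul_zero, zero_smul, sub_zero, one_smul]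
  abel

theorem tn_n0_z (i : Fin m) : mv ⇑(QO m F) (n0 i) (zO m F) = -zO m F := by
  rw [tn_n0_mv]
  simp only [zO_ee, zO_ff, zO_z, add_zero, mul_one, zero_smul, sub_zero]
  module

end Cfsg.Agent.Helper3
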