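import Mathlib
import Cfsg.Agent.Helper97.TNDefs
import Cfsg.Agent.Helper3.TNN0A

set_option autoImplicit false

/-!
Piece N0B of CALL S2413 (helper97), by helper3: the Weyl element `n0 i` fixes `e_c`, `f_c` for
`c ≠ i`.
-/

universe u

namespace Cfsg.Agent.Helper3

open Cfsg Matrix Cfsg.Agent.Helper45 Cfsg.Agent.Helper98 Cfsg.Agent.Helper97.TM
  Cfsg.Agent.Helper97.TN

variable {m : ℕ} {F : Type u} [Field F]

/-- N0B (two statements) -/
theorem tn_n0_other_e (i c : Fin m) (hc : c ≠ i) :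
    mv ⇑(QO m F) (n0 i) (eO m F c) = eO m F c := by
  rw [tn_n0_mv]
  simp only [eO_ee, eO_ff, eO_z, if_neg hc.symm, add_zero, mul_zero, zero_smul, sub_zero]

theorem tn_n0_other_f (i c : Fin m) (hc : c ≠ i) :
    mv ⇑(QO m F) (n0 i) (fO m F c) = fO m F c := by
  rw [tn_n0_mv]
  simp only [fO_ee, fO_ff, fO_z, if_neg hc.symm, add_zero, mul_zero, zero_smul, sub_zero]

end Cfsg.Agent.Helper3
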