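import Mathlib
import Cfsg.Prelude.Def_GeometricClasses
import Cfsg.Prelude.Def_Classical
import Cfsg.Agent.Helper58.TSDefs
import Cfsg.Agent.Helper43.OrthEven
import Cfsg.Agent.Helper98.OPar
import Cfsg.Agent.Helper3.TSR2Lib

set_option autoImplicit false

/-!
# CALL TS, stage R2BPB (helper3, double): `q ≡ 3 (4)`, plus type, `d` even.

An element `x ∈ Ω` with `x ^ 2 = -1`: transport the commutator of two isometries of the standard
plus form.  Its invariant subspaces have even dimension since `-1` is not a square.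
-/

namespace Cfsg.Agent.Helper3.TS5973

open Module Cfsg Cfsg.Geo Cfsg.Agent.Helper58.TS
open scoped MatrixGroups

section stages

variable {ι : Type} [Fintype ι] [DecidableEq ι] {F : Type*} [Field F] [Fintype F]

/-- R2-BAD-PLUS-B [BIG].  `q ≡ 3 (4)`, `d` even: an element `x ∈ Ω` with `x ^ 2 = -1`
(spinor norm `2 ^ d`, a square); invariant subspaces are `F_{q²}`-subspaces: even dimension. -/
theorem ts_two_bad_plus_b (Q : (ι → F) → F) (hQ : IsNondegenerateQuadraticForm Q) (d : ℕ)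
    (hd : 4 ≤ d) (hcard : Fintype.card ι = 2 * d) (hplus : IsPlusTypeOn Q ⊤) (q : ℕ)
    (hq : Fintype.card F = q) (h3 : q % 4 = 3) (hde : Even d) :
    ∃ x : GL ι F, x ∈ Cfsg.Geo.omegaGL Q ∧
      ((x ^ 2 : GL ι F) : Matrix ι ι F) = (-1 : F) • (1 : Matrix ι ι F) ∧
      (∀ z : F, (x : Matrix ι ι F) ≠ z • (1 : Matrix ι ι F)) ∧
      ∀ k, InvTS Q (x : Matrix ι ι F) k → Even k := by
  classical
  -- arithmetic of the field
  have hm1 : ¬ IsSquare (-1 : F) := by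
    rw [FiniteField.isSquare_neg_one_iff, hq]
    omega
  have h2 : (2 : F) ≠ 0 := by
    intro h
    apply hm1
    refine ⟨1, ?_⟩
    have : (-1 : F) = 1 := by linear_combination -h
    rw [this, mul_one]
  -- the standard model
  have hfin : finrank F (ι → F) = 2 * d := by
    rw [Module.finrank_fintype_fun_eq_card, hcard]
  have hnd : Cfsg.Agent.Helper43.PolarNondeg (Cfsg.Agent.Helper98.op_qf Q hQ) := by
    intro v hv
    by_contra hv0
    obtain ⟨x, hx⟩ := (hQ.nondegenerate v hv0).2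
    exact hx (hv x)
  have hTS : Cfsg.Agent.Helper43.OrthEven.HasTS (Cfsg.Agent.Helper98.op_qf Q hQ) d := by
    obtain ⟨U, -, hU0, hUd⟩ := hplus
    refine ⟨U, ?_, fun u hu => hU0 u hu⟩
    rw [finrank_top, hfin] at hUd
    omega
  obtain ⟨Ψ, hΨ⟩ := Cfsg.Agent.Helper43.OrthEven.exists_plus_of_hasTS (m := d) (by omega) hfin
    (Cfsg.Agent.Helper98.op_qf Q hQ) hnd hTS
  have hΨ' : ∀ z, Q (Ψ z) = Cfsg.quadFormPlus d F z := hΨ
  obtain ⟨x, hxΩ, hxv⟩ := Cfsg.Agent.Helper3.TSR2.tsr_omega_of_comm Q (Cfsg.quadFormPlus d F) Ψ hΨ'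
    (Cfsg.Agent.Helper3.TSR2.tsr_gA d hde) (Cfsg.Agent.Helper3.TSR2.tsr_gA' d hde)
    (Cfsg.Agent.Helper3.TSR2.tsr_gB d) (Cfsg.Agent.Helper3.TSR2.tsr_gB d)
    (Cfsg.Agent.Helper3.TSR2.tsr_gA_isom h2 d hde) (Cfsg.Agent.Helper3.TSR2.tsr_gB_isom d)
    (Cfsg.Agent.Helper3.TSR2.tsr_gA_gA' h2 d hde) (Cfsg.Agent.Helper3.TSR2.tsr_gA'_gA h2 d hde)
    (Cfsg.Agent.Helper3.TSR2.tsr_gB_gB d) (Cfsg.Agent.Helper3.TSR2.tsr_gB_gB d)
  have hsq : (x : Matrix ι ι F) * (x : Matrix ι ι F) = (-1 : F) • (1 : Matrix ι ι F) := by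
    rw [hxv, ← Cfsg.Agent.Helper3.TSR2.tsr_mat_comp, Cfsg.Agent.Helper3.TSR2.tsr_comm_sq h2 d hde,
      Cfsg.Agent.Helper3.TSR2.tsr_mat_neg, Cfsg.Agent.Helper3.TSR2.tsr_mat_id]
    simp
  have hne : Nonempty ι := by
    rw [← Fintype.card_pos_iff, hcard]
    omega
  refine ⟨x, hxΩ, ?_, ?_, ?_⟩
  · rw [pow_two]
    exact hsq
  · exact Cfsg.Agent.Helper3.TSR2.tsr_nonscalar _ hsq hm1
  · rintro k ⟨W, hWk, -, hWinv⟩
    rw [← hWk]
    exact Cfsg.Agent.Helper3.TSR2.tsr_even_of_sq _ hsq hm1 W hWinv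

end stages

end Cfsg.Agent.Helper3.TS5973
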