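import Mathlib
import Cfsg.Agent.Helper95.UBNDefs
import Cfsg.Agent.Helper13.UnitTv

/-!
# CALL S2546, piece FLD (helper3, doubling): the involutory automorphism `x ↦ x ^ q` of the field
with `q ^ 2` elements, a skew element, surjectivity of the trace
-/

set_option autoImplicit false

namespace Cfsg.Agent.Helper3.UBN

open Matrix Cfsg.Agent.Helper95.UBN

-- === PIECE FLD ===
theorem p_FLD {F : Type*} [Field F] [Fintype F] (p : ℕ) [Fact p.Prime] [CharP F p] (q : ℕ)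
    (hF : Fintype.card F = q ^ 2) :
    ∃ τ : F →+* F, (∀ x, τ x = x ^ q) ∧ (∀ x, τ (τ x) = x) ∧ (∃ e : F, e ≠ 0 ∧ τ e = -e) ∧
      (∀ s : F, τ s = s → ∃ u : F, u + τ u = s) := by
  refine ⟨Cfsg.Agent.Helper5.frobQ hF, fun x => Cfsg.Agent.Helper5.frobQ_apply hF x,
    fun x => Cfsg.Agent.Helper5.frobQ_frobQ hF x, ?_, ?_⟩
  · obtain ⟨c, hc0, hc⟩ := Cfsg.Agent.Helper13.ufld_exists_skew hF
    exact ⟨c, hc0, hc⟩
  · intro s hs
    obtain ⟨b, hb⟩ := Cfsg.Agent.Helper13.ufld_exists_trace_one hF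
    refine ⟨s * b, ?_⟩
    rw [map_mul, hs]
    linear_combination s * hb

end Cfsg.Agent.Helper3.UBN
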