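import Mathlib
import Cfsg.Agent.Helper95.UBNDefs
import Cfsg.Agent.Helper40.BNStD
import Cfsg.Agent.Helper6.BN

/-!
# CALL S2546, piece GCEN (helper3): the centre of a finite group with a BN-pair lies in `B`
-/

set_option autoImplicit false

namespace Cfsg.Agent.Helper3.UBN

open Matrix Cfsg.Agent.Helper95.UBN

-- === PIECE GCEN ===
theorem p_GCEN {G : Type*} [Group G] [Finite G] (P : Cfsg.BNPair G) :
    Subgroup.center G ≤ P.B := by
  classical
  obtain ⟨M, hM⟩ : ∃ M : Subgroup G, M = P.B ⊔ Subgroup.center G := ⟨_, rfl⟩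
  have hBM : P.B ≤ M := by rw [hM]; exact le_sup_left
  have hpar := Cfsg.Agent.Helper6.eq_parabolic_of_le P M hBM
  have hempty : P.S ∩ (M : Set G) = ∅ := by
    rw [Set.eq_empty_iff_forall_notMem]
    rintro s ⟨hs, hsM⟩
    have hsM' : s ∈ P.B ⊔ Subgroup.center G := by rw [← hM]; exact hsM
    rw [Subgroup.mem_sup_of_normal_right] at hsM'
    obtain ⟨b, hb, z, hz, rfl⟩ := hsM'
    apply P.conj_ne (b * z) hs
    have hz' := Subgroup.mem_center_iff.mp hz
    have hss : (b * z) * (b * z) ∈ P.B := P.sq_mem _ hs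
    have hconj : ∀ b' ∈ P.B, (b * z) * b' * (b * z)⁻¹ ∈ P.B := by
      intro b' hb'
      have h1 : z * b' = b' * z := (hz' b').symm
      have h2 : (b * z) * b' * (b * z)⁻¹ = b * b' * b⁻¹ := by
        calc (b * z) * b' * (b * z)⁻¹ = b * (z * b') * z⁻¹ * b⁻¹ := by group
          _ = b * (b' * z) * z⁻¹ * b⁻¹ := by rw [h1]
          _ = b * b' * b⁻¹ := by group
      rw [h2]
      exact P.B.mul_mem (P.B.mul_mem hb hb') (P.B.inv_mem hb)
    have hconj' : ∀ b' ∈ P.B, (b * z)⁻¹ * b' * (b * z) ∈ P.B := by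
      intro b' hb'
      have h1 : z * (b⁻¹ * b' * b) = (b⁻¹ * b' * b) * z := (hz' _).symm
      have h2 : (b * z)⁻¹ * b' * (b * z) = b⁻¹ * b' * b := by
        calc (b * z)⁻¹ * b' * (b * z) = z⁻¹ * ((b⁻¹ * b' * b) * z) := by group
          _ = z⁻¹ * (z * (b⁻¹ * b' * b)) := by rw [h1]
          _ = b⁻¹ * b' * b := by group
      rw [h2]
      exact P.B.mul_mem (P.B.mul_mem (P.B.inv_mem hb) hb') hb
    ext g
    simp only [Set.mem_image, SetLike.mem_coe]
    constructor
    · rintro ⟨b', hb', rfl⟩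
      have h3 : (b * z) * b' * (b * z) = ((b * z) * b' * (b * z)⁻¹) * ((b * z) * (b * z)) := by
        group
      rw [h3]
      exact P.B.mul_mem (hconj b' hb') hss
    · intro hg
      refine ⟨(b * z)⁻¹ * (g * ((b * z) * (b * z))⁻¹) * (b * z), ?_, by group⟩
      exact hconj' _ (P.B.mul_mem hg (P.B.inv_mem hss))
  rw [hempty] at hpar
  have hMB : M = P.B := by
    rw [hpar]
    unfold Cfsg.BNPair.parabolic
    rw [Subgroup.closure_empty, sup_bot_eq]
  rw [← hMB, hM]
  exact le_sup_right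

end Cfsg.Agent.Helper3.UBN
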