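import Mathlib
import Cfsg.Agent.Helper95.UBNDefs
import Cfsg.Agent.Helper40.BNStD
import Cfsg.Agent.Helper6.BN
import Cfsg.Agent.Helper79.Quotient
import Cfsg.Agent.S0165

/-!
# CALL S2546, piece GDEFL (helper3): deflation of a character of degree `|Sylow_p|` that is
constant on the centre (of order prime to `p`) to the central quotient
-/

set_option autoImplicit false

namespace Cfsg.Agent.Helper3.UBN

open Matrix Cfsg.Agent.Helper95.UBN

-- === PIECE GDEFL ===
theorem p_GDEFL {G : Type*} [Group G] [Finite G] (p : ℕ) [Fact p.Prime] (θ : G → ℂ)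
    (hθ : Cfsg.IsIrrCharacter G θ) (hz : ∀ z ∈ Subgroup.center G, θ z = θ 1)
    (hZ : ¬ p ∣ Nat.card (Subgroup.center G))
    (h1 : ∀ Q : Sylow p G, θ 1 = (Nat.card Q : ℂ)) :
    ∃ χ : G ⧸ Subgroup.center G → ℂ, Cfsg.IsIrrCharacter (G ⧸ Subgroup.center G) χ ∧
      ∀ Q : Sylow p (G ⧸ Subgroup.center G), χ 1 = Nat.card Q ∧
        ∀ x : G ⧸ Subgroup.center G, x ∈ Q → x ≠ 1 → χ x = 0 := by
  classical
  have hp : p.Prime := Fact.out
  let _ : Fintype G := Fintype.ofFinite G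
  obtain ⟨ψ, hψ, hψθ⟩ := Cfsg.Agent.Helper79.exists_irr_deflation (Subgroup.center G) hθ hz
  refine ⟨ψ, hψ, fun Q => ?_⟩
  obtain ⟨k, hk⟩ : ∃ k, k = (Nat.card G).factorization p := ⟨_, rfl⟩
  have hcardG : Nat.card G =
      Nat.card (G ⧸ Subgroup.center G) * Nat.card (Subgroup.center G) :=
    Subgroup.card_eq_card_quotient_mul_card_subgroup _
  have hfacQ : (Nat.card (G ⧸ Subgroup.center G)).factorization p = k := by
    rw [hk, hcardG, Nat.factorization_mul Nat.card_pos.ne' Nat.card_pos.ne', Finsupp.add_apply,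
      Nat.factorization_eq_zero_of_not_dvd hZ, add_zero]
  have Q₀ : Sylow p G := default
  have hQ₀ : Nat.card Q₀ = p ^ k := by rw [Sylow.card_eq_multiplicity, hk]
  have hψ1 : ψ 1 = (p : ℂ) ^ k := by
    have h := hψθ 1
    rw [QuotientGroup.mk_one] at h
    rw [h, h1 Q₀, hQ₀]
    push_cast
    rfl
  have hcardQ : Nat.card Q = p ^ k := by rw [Sylow.card_eq_multiplicity, hfacQ]
  refine ⟨by rw [hψ1, hcardQ]; push_cast; rfl, fun x hx hx1 => ?_⟩
  obtain ⟨d, ρ, hρ, hχ⟩ := hψ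
  have hd : d = p ^ k := by
    have h := Representation.char_one ρ
    rw [hχ, hψ1, Module.finrank_fin_fun] at h
    exact_mod_cast h.symm
  have hpx : p ∣ orderOf x := by
    obtain ⟨j', hk'⟩ := Q.isPGroup' ⟨x, hx⟩
    have hk'' : x ^ (p ^ j') = 1 := by
      have := congrArg Subtype.val hk'
      simpa using this
    obtain ⟨j, -, hjo⟩ := (Nat.dvd_prime_pow hp).1 (orderOf_dvd_of_pow_eq_one hk'')
    have hj0 : j ≠ 0 := by
      rintro rfl
      rw [pow_zero, orderOf_eq_one_iff] at hjo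
      exact hx1 hjo
    rw [hjo]
    exact dvd_pow_self p hj0
  have hdvd : p ^ k ∣ Nat.card (G ⧸ Subgroup.center G) := by
    rw [← hfacQ]
    exact Nat.ordProj_dvd _ _
  have hnd : ¬ p ^ (k + 1) ∣ Nat.card (G ⧸ Subgroup.center G) := by
    rw [← hfacQ]
    exact Nat.pow_succ_factorization_not_dvd Nat.card_pos.ne' hp
  have h0 := Cfsg.Agent.S0165.result ρ p k hp hdvd hnd
    (by rw [Module.finrank_fin_fun, hd]) x hpx
  rw [← hχ]
  exact h0

end Cfsg.Agent.Helper3.UBN
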