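import Mathlib
import Cfsg.Agent.Helper95.UBNDefs
import Cfsg.Agent.Helper40.BNStD
import Cfsg.Agent.Helper6.BN

/-!
# CALL S2546, piece GSYL (helper3): in a finite group with a BN-pair whose Borel subgroup is
`U ⋊ (B ⊓ N)` with `U` a normal `p`-subgroup of `B` and `p ∤ |B ⊓ N|`, the subgroup `U` has the
order of a Sylow `p`-subgroup
-/

set_option autoImplicit false

namespace Cfsg.Agent.Helper3.UBN

open Matrix Cfsg.Agent.Helper95.UBN

/-- no distinguished generator `s` of a BN-pair normalises `B` -/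
theorem ubn_no_normalizing_s {G : Type*} [Group G] (P : Cfsg.BNPair G) (s : G) (hs : s ∈ P.S)
    (h1 : ∀ b ∈ P.B, s * b * s⁻¹ ∈ P.B) (h2 : ∀ b ∈ P.B, s⁻¹ * b * s ∈ P.B) : False := by
  apply P.conj_ne s hs
  have hss : s * s ∈ P.B := P.sq_mem _ hs
  ext g
  simp only [Set.mem_image, SetLike.mem_coe]
  constructor
  · rintro ⟨b', hb', rfl⟩
    have h3 : s * b' * s = (s * b' * s⁻¹) * (s * s) := by group
    rw [h3]
    exact P.B.mul_mem (h1 b' hb') hss
  · intro hg
    refine ⟨s⁻¹ * (g * (s * s)⁻¹) * s, ?_, by group⟩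
    exact h2 _ (P.B.mul_mem hg (P.B.inv_mem hss))

-- === PIECE GSYL ===
theorem p_GSYL {G : Type*} [Group G] [Finite G] (P : Cfsg.BNPair G) (p : ℕ) [Fact p.Prime]
    (U : Subgroup G) (hUB : U ≤ P.B) (hUn : ∀ b ∈ P.B, ∀ u ∈ U, b * u * b⁻¹ ∈ U)
    (hU : IsPGroup p U) (hBUT : ∀ b ∈ P.B, ∃ u ∈ U, ∃ t ∈ P.B ⊓ P.N, b = u * t)
    (hT : ¬ p ∣ Nat.card ↥(P.B ⊓ P.N)) (Q : Sylow p G) : Nat.card Q = Nat.card U := by
  classical
  have hp : p.Prime := Fact.out
  -- `B` normalises `U`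
  have hBN : P.B ≤ Subgroup.normalizer (U : Set G) := by
    intro b hb
    rw [Subgroup.mem_normalizer_iff]
    intro h
    constructor
    · intro hh
      exact hUn b hb h hh
    · intro hh
      have h3 := hUn b⁻¹ (P.B.inv_mem hb) _ hh
      have e : b⁻¹ * (b * h * b⁻¹) * b⁻¹⁻¹ = h := by group
      rwa [e] at h3
  have hpar := Cfsg.Agent.Helper6.eq_parabolic_of_le P (Subgroup.normalizer (U : Set G)) hBN
  have hempty : P.S ∩ ((Subgroup.normalizer (U : Set G) : Subgroup G) : Set G) = ∅ := by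
    rw [Set.eq_empty_iff_forall_notMem]
    rintro s ⟨hs, hsM⟩
    have hsN : s ∈ P.N := P.subset hs
    have hsM' : s ∈ Subgroup.normalizer (U : Set G) := hsM
    have hsinv : s⁻¹ ∈ Subgroup.normalizer (U : Set G) := inv_mem hsM'
    rw [Subgroup.mem_normalizer_iff] at hsM' hsinv
    apply ubn_no_normalizing_s P s hs
    · intro b hb
      obtain ⟨u, hu, t, ht, rfl⟩ := hBUT b hb
      have e : s * (u * t) * s⁻¹ = (s * u * s⁻¹) * (s * t * s⁻¹) := by group
      rw [e]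
      exact P.B.mul_mem (hUB ((hsM' u).mp hu)) (P.conj_mem s hsN t ht)
    · intro b hb
      obtain ⟨u, hu, t, ht, rfl⟩ := hBUT b hb
      have e : s⁻¹ * (u * t) * s = (s⁻¹ * u * s⁻¹⁻¹) * (s⁻¹ * t * s⁻¹⁻¹) := by group
      rw [e]
      exact P.B.mul_mem (hUB ((hsinv u).mp hu)) (P.conj_mem s⁻¹ (P.N.inv_mem hsN) t ht)
  have hNB : Subgroup.normalizer (U : Set G) ≤ P.B := by
    intro x hx
    rw [hpar, hempty] at hx
    unfold Cfsg.BNPair.parabolic at hx
    rw [Subgroup.closure_empty, sup_bot_eq] at hx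
    exact hx
  obtain ⟨n, hn⟩ := IsPGroup.iff_card.mp hU
  have hnd : ¬ p ^ (n + 1) ∣ Nat.card G := by
    intro hdvd
    have h1 : p ∣ Nat.card (↥(Subgroup.normalizer (U : Set G)) ⧸
        U.subgroupOf (Subgroup.normalizer (U : Set G))) :=
      Sylow.prime_dvd_card_quotient_normalizer hdvd hn
    have hle : P.B ⊓ P.N ≤ Subgroup.normalizer (U : Set G) := fun x hx => hBN hx.1
    obtain ⟨φ, hφ⟩ : ∃ φ : ↥(P.B ⊓ P.N) →* (↥(Subgroup.normalizer (U : Set G)) ⧸
        U.subgroupOf (Subgroup.normalizer (U : Set G))),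
        φ = (QuotientGroup.mk' (U.subgroupOf (Subgroup.normalizer (U : Set G)))).comp
          (Subgroup.inclusion hle) := ⟨_, rfl⟩
    have hsurj : Function.Surjective φ := by
      intro y
      obtain ⟨x, rfl⟩ := QuotientGroup.mk_surjective y
      obtain ⟨u, hu, t, ht, hxut⟩ := hBUT x.1 (hNB x.2)
      refine ⟨⟨t, ht⟩, ?_⟩
      rw [hφ]
      show (QuotientGroup.mk (Subgroup.inclusion hle ⟨t, ht⟩) :
        ↥(Subgroup.normalizer (U : Set G)) ⧸ U.subgroupOf (Subgroup.normalizer (U : Set G))) =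
        QuotientGroup.mk x
      rw [QuotientGroup.eq, Subgroup.mem_subgroupOf]
      have e : ((Subgroup.inclusion hle ⟨t, ht⟩)⁻¹ * x : ↥(Subgroup.normalizer (U : Set G))).1 =
          t⁻¹ * u * t⁻¹⁻¹ := by
        show t⁻¹ * x.1 = t⁻¹ * u * t⁻¹⁻¹
        rw [hxut]
        group
      rw [e]
      exact hUn t⁻¹ (P.B.inv_mem ht.1) u hu
    have h2 := Subgroup.card_dvd_of_surjective φ hsurj
    exact hT (dvd_trans h1 h2)
  have hdvd : p ^ n ∣ Nat.card G := by
    rw [← hn]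
    exact Subgroup.card_subgroup_dvd_card U
  have hG0 : Nat.card G ≠ 0 := Nat.card_pos.ne'
  have hfac : (Nat.card G).factorization p = n := by
    have h1 : n ≤ (Nat.card G).factorization p := (hp.pow_dvd_iff_le_factorization hG0).mp hdvd
    have h2 : ¬ n + 1 ≤ (Nat.card G).factorization p := fun h =>
      hnd ((hp.pow_dvd_iff_le_factorization hG0).mpr h)
    omega
  rw [Sylow.card_eq_multiplicity, hfac, hn]

end Cfsg.Agent.Helper3.UBN
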