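import Mathlib
import Cfsg.Prelude.Def_Characters
import Cfsg.Prelude.Def_LieExceptional
import Cfsg.Agent.Helper3.IndFun
import Cfsg.Agent.Helper3.Induced
import Cfsg.Agent.Helper3.Frobenius
import Cfsg.Agent.Helper15.LinChar
import Cfsg.Agent.Helper15.Zassenhaus

/-!
# Induced linear characters of Zassenhaus groups (helper3)

* `sum_hom_units_eq_zero`: the sum of the values of a nontrivial linear character is zero.
* `transfer_stabilizer_two_fix`: the transfer into a point stabilizer `G_a`, evaluated at an
  element `n` fixing `a` and `x • a` all of whose powers with a third fixed point are trivial,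
  is `ϕ n * ϕ (x⁻¹ n x)`.
* `hom_eq_one_of_simple`: homomorphisms from a nonabelian simple group to a commutative group
  are trivial.
* `zass_indFun_irr`: in a simple Zassenhaus group with two-point stabilizers of odd order, a
  nonprincipal linear character of a point stabilizer trivial on its Frobenius kernel induces
  irreducibly.
-/

set_option autoImplicit false

namespace Cfsg.Agent.Helper3

open MulAction

theorem sum_hom_units_eq_zero {K : Type*} [Group K] [Fintype K] (f : K →* ℂˣ)
    (hf : ∃ k, f k ≠ 1) : ∑ k : K, (f k : ℂ) = 0 := by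
  obtain ⟨g₀, hg₀⟩ := hf
  have h1 : (f g₀ : ℂ) * ∑ k : K, (f k : ℂ) = ∑ k : K, (f k : ℂ) := by
    rw [Finset.mul_sum]
    refine Fintype.sum_bijective (fun k => g₀ * k) (Group.mulLeft_bijective g₀) _ _ ?_
    intro k
    rw [map_mul, Units.val_mul]
  have h2 : ((f g₀ : ℂ) - 1) * ∑ k : K, (f k : ℂ) = 0 := by
    rw [sub_mul, h1, one_mul, sub_self]
  rcases mul_eq_zero.mp h2 with h | h
  · exfalso
    apply hg₀
    apply Units.ext
    rw [Units.val_one]
    exact sub_eq_zero.mp h
  · exact h

theorem hom_eq_one_of_simple {G A : Type*} [Group G] [IsSimpleGroup G] [CommGroup A]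
    (hG : ∃ x y : G, x * y ≠ y * x) (f : G →* A) (g : G) : f g = 1 := by
  rcases f.normal_ker.eq_bot_or_eq_top with h | h
  · exfalso
    obtain ⟨x, y, hxy⟩ := hG
    apply hxy
    apply (MonoidHom.ker_eq_bot_iff f).mp h
    rw [map_mul, map_mul, mul_comm]
  · have : g ∈ f.ker := by rw [h]; trivial
    exact MonoidHom.mem_ker.mp this

theorem transfer_stabilizer_two_fix {G Ω A : Type*} [Group G] [MulAction G Ω] [CommGroup A]
    (a : Ω) [(stabilizer G a).FiniteIndex] (ϕ : stabilizer G a →* A) (n x : G)
    (hn : n • a = a) (hxa : x • a ≠ a) (hnx : n • (x • a) = x • a)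
    (h3 : ∀ (k : ℕ) (d : Ω), d ≠ a → d ≠ x • a → n ^ k • d = d → n ^ k = 1) :
    MonoidHom.transfer ϕ n = ϕ ⟨n, hn⟩ * ϕ ⟨x⁻¹ * n * x, by
      rw [mem_stabilizer_iff, mul_smul, mul_smul, hnx, inv_smul_smul]⟩ := by
  classical
  have : Fintype (G ⧸ stabilizer G a) := (stabilizer G a).fintypeQuotientOfFiniteIndex
  have : Fintype (Quotient (orbitRel (Subgroup.zpowers n) (G ⧸ stabilizer G a))) :=
    Fintype.ofFinite _
  rw [MonoidHom.transfer_eq_prod_quotient_orbitRel_zpowers_quot]
  -- the equivariant map to `Ω`
  have hπ : ∀ c : G ⧸ stabilizer G a, ofQuotientStabilizer G a c = c.out • a := by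
    intro c
    conv_lhs => rw [← QuotientGroup.out_eq' c]
    rfl
  have hzp : ∀ m ∈ Subgroup.zpowers n, m • a = a ∧ m • (x • a) = x • a := by
    intro m hm
    constructor
    · exact (Subgroup.zpowers_le.mpr (show n ∈ stabilizer G a from hn)) hm
    · exact (Subgroup.zpowers_le.mpr (show n ∈ stabilizer G (x • a) from hnx)) hm
  -- the two special orbits
  set qa : Quotient (orbitRel (Subgroup.zpowers n) (G ⧸ stabilizer G a)) :=
    Quotient.mk'' ((1 : G) : G ⧸ stabilizer G a) with hqa
  set qc : Quotient (orbitRel (Subgroup.zpowers n) (G ⧸ stabilizer G a)) :=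
    Quotient.mk'' ((x : G) : G ⧸ stabilizer G a) with hqc
  have hqa_pt : qa.out.out • a = a := by
    have h1 : Quotient.mk'' qa.out = qa := Quotient.out_eq' qa
    have h2 := Quotient.eq''.mp h1
    obtain ⟨m, hm⟩ := h2
    have hm' : (m : G) • ((1 : G) : G ⧸ stabilizer G a) = qa.out := hm
    rw [← hπ, ← hm', ofQuotientStabilizer_smul, ofQuotientStabilizer_mk, one_smul]
    exact (hzp m m.2).1
  have hqc_pt : qc.out.out • a = x • a := by
    have h1 : Quotient.mk'' qc.out = qc := Quotient.out_eq' qc
    have h2 := Quotient.eq''.mp h1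
    obtain ⟨m, hm⟩ := h2
    have hm' : (m : G) • ((x : G) : G ⧸ stabilizer G a) = qc.out := hm
    rw [← hπ, ← hm', ofQuotientStabilizer_smul, ofQuotientStabilizer_mk]
    exact (hzp m m.2).2
  have hne : qa ≠ qc := by
    intro h
    apply hxa
    rw [← hqc_pt, ← h, hqa_pt]
  -- periods
  have hper : ∀ q : Quotient (orbitRel (Subgroup.zpowers n) (G ⧸ stabilizer G a)),
      n ^ Function.minimalPeriod (n • ·) q.out • (q.out.out • a) = q.out.out • a := by
    intro q
    have h1 := Function.isPeriodicPt_minimalPeriod (n • ·) q.out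
    rw [Function.IsPeriodicPt, Function.IsFixedPt, smul_iterate] at h1
    have h1' : n ^ Function.minimalPeriod (n • ·) q.out • q.out = q.out := h1
    rw [← hπ, ← ofQuotientStabilizer_smul, h1']
  have hper1 : ∀ q : Quotient (orbitRel (Subgroup.zpowers n) (G ⧸ stabilizer G a)),
      n • (q.out.out • a) = q.out.out • a → Function.minimalPeriod (n • ·) q.out = 1 := by
    intro q h
    rw [Function.minimalPeriod_eq_one_iff_isFixedPt, Function.IsFixedPt]
    apply injective_ofQuotientStabilizer G a
    rw [ofQuotientStabilizer_smul, hπ, h]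
  rw [Finset.prod_eq_mul qa qc hne]
  · congr 1
    · -- the orbit of the coset `N`
      have hk := hper1 qa (by rw [hqa_pt]; exact hn)
      have hy : qa.out.out ∈ stabilizer G a := hqa_pt
      have : (⟨qa.out.out⁻¹ * n ^ Function.minimalPeriod (n • ·) qa.out * qa.out.out,
          QuotientGroup.out_conj_pow_minimalPeriod_mem (stabilizer G a) n qa.out⟩ :
            stabilizer G a)
          = (⟨qa.out.out, hy⟩ : stabilizer G a)⁻¹ * ⟨n, hn⟩ * ⟨qa.out.out, hy⟩ := by
        apply Subtype.ext
        simp [hk]
      rw [this, map_mul, map_mul, map_inv, mul_right_comm, inv_mul_cancel, one_mul]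
    · have hk := hper1 qc (by rw [hqc_pt]; exact hnx)
      have hy : x⁻¹ * qc.out.out ∈ stabilizer G a := by
        rw [mem_stabilizer_iff, mul_smul, hqc_pt, inv_smul_smul]
      have : (⟨qc.out.out⁻¹ * n ^ Function.minimalPeriod (n • ·) qc.out * qc.out.out,
          QuotientGroup.out_conj_pow_minimalPeriod_mem (stabilizer G a) n qc.out⟩ :
            stabilizer G a)
          = (⟨x⁻¹ * qc.out.out, hy⟩ : stabilizer G a)⁻¹ * ⟨x⁻¹ * n * x, by
              rw [mem_stabilizer_iff, mul_smul, mul_smul, hnx, inv_smul_smul]⟩ *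
            ⟨x⁻¹ * qc.out.out, hy⟩ := by
        apply Subtype.ext
        simp [hk]
        group
      rw [this, map_mul, map_mul, map_inv, mul_right_comm, inv_mul_cancel, one_mul]
  · intro q _ hq
    have hda : q.out.out • a ≠ a := by
      intro h
      apply hq.1
      have h1 : q.out = ((1 : G) : G ⧸ stabilizer G a) := by
        apply injective_ofQuotientStabilizer G a
        rw [hπ, h, ofQuotientStabilizer_mk, one_smul]
      rw [← Quotient.out_eq' q, h1]
    have hdx : q.out.out • a ≠ x • a := by
      intro h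
      apply hq.2
      have h1 : q.out = ((x : G) : G ⧸ stabilizer G a) := by
        apply injective_ofQuotientStabilizer G a
        rw [hπ, h, ofQuotientStabilizer_mk]
      rw [← Quotient.out_eq' q, h1]
    have h1 := h3 _ _ hda hdx (hper q)
    have : (⟨q.out.out⁻¹ * n ^ Function.minimalPeriod (n • ·) q.out * q.out.out,
        QuotientGroup.out_conj_pow_minimalPeriod_mem (stabilizer G a) n q.out⟩ :
          stabilizer G a) = 1 := by
      apply Subtype.ext
      simp [h1]
    rw [this, map_one]
  · intro h
    exact absurd (Finset.mem_univ _) h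
  · intro h
    exact absurd (Finset.mem_univ _) h

/-- In a simple Zassenhaus group whose two-point stabilizers have odd order, a nonprincipal
linear character of a point stabilizer which is trivial on the Frobenius kernel `H` induces to
an irreducible character, with value `1` on `H - 1`. -/
theorem zass_indFun_irr {G Ω : Type*} [Group G] [Fintype G] [MulAction G Ω] [Fintype Ω]
    (hZ : Cfsg.IsZassenhausGroup G Ω) {a b : Ω} (hab : a ≠ b) [IsSimpleGroup G]
    (hodd : Odd (Nat.card ↥(stabilizer G a ⊓ stabilizer G b : Subgroup G)))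
    (H : Subgroup G) (hHa : H ≤ stabilizer G a) (hHcard : Nat.card H + 1 = Fintype.card Ω)
    (hHfix : ∀ u ∈ H, u ≠ 1 → ∀ c : Ω, u • c = c → c = a)
    (μ : stabilizer G a → ℂ) (hμ : Cfsg.IsCharacter (stabilizer G a) μ ∧ μ 1 = 1)
    (hμH : ∀ u : stabilizer G a, (u : G) ∈ H → μ u = 1) (hμne : μ ≠ fun _ => 1) :
    Cfsg.IsIrrCharacter G (Cfsg.indFun (stabilizer G a) μ) ∧
      ∀ u ∈ H, u ≠ 1 → Cfsg.indFun (stabilizer G a) μ u = 1 := by
  classical
  obtain ⟨f, hf⟩ := Helper15.linChar_exists_hom μ hμ
  have hcardN : (Nat.card (stabilizer G a) : ℂ) ≠ 0 := by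
    exact_mod_cast Nat.card_pos.ne'
  have hnorm : ∀ n : stabilizer G a, (f n : ℂ) * (starRingEnd ℂ) (f n : ℂ) = 1 := by
    intro n
    have h1 : (f n : ℂ) ^ Nat.card (stabilizer G a) = 1 := by
      rw [← Units.val_pow_eq_pow_val, ← map_pow, pow_card_eq_one', map_one, Units.val_one]
    have h2 : ‖(f n : ℂ)‖ = 1 := Complex.norm_eq_one_of_pow_eq_one h1 Nat.card_pos.ne'
    rw [Complex.mul_conj, Complex.normSq_eq_norm_sq, h2]
    simp
  -- `G` is not abelian
  have hnonab : ∃ x y : G, x * y ≠ y * x := by
    by_contra hcon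
    push Not at hcon
    obtain ⟨g, hg, a', b', -, ha', -⟩ := hZ.2.2.2.1
    apply hg
    have := hZ.1
    apply FaithfulSMul.eq_of_smul_eq_smul (α := Ω)
    intro c
    have := Helper15.zass_pretrans hZ
    obtain ⟨y, rfl⟩ := MulAction.exists_smul_eq G a' c
    rw [one_smul, ← mul_smul, hcon g y, mul_smul, ha']
  -- `H` is transitive on the points other than `a`
  have hHtrans : ∀ c d : Ω, c ≠ a → d ≠ a → ∃ u ∈ H, u • c = d := by
    intro c d hc hd
    have hmap : ∀ u : H, (u : G) • c ≠ a := by
      intro u h
      apply hc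
      have h1 : (u : G) • a = a := hHa u.2
      rw [← h1] at h
      exact smul_left_cancel _ h
    let φ : H → {d : Ω // d ≠ a} := fun u => ⟨(u : G) • c, hmap u⟩
    have hinj : Function.Injective φ := by
      intro u u' h
      have h1 : (u : G) • c = (u' : G) • c := congrArg Subtype.val h
      by_contra hne
      apply hc
      apply hHfix ((u' : G)⁻¹ * (u : G)) (H.mul_mem (H.inv_mem u'.2) u.2)
      · intro h2
        apply hne
        apply Subtype.ext
        have := inv_mul_eq_one.mp h2
        exact this.symm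
      · rw [mul_smul, h1, inv_smul_smul]
    have hcard : Fintype.card H = Fintype.card {d : Ω // d ≠ a} := by
      rw [Fintype.card_subtype_compl, Fintype.card_subtype_eq, ← Nat.card_eq_fintype_card]
      omega
    have hbij := (Fintype.bijective_iff_injective_and_card φ).mpr ⟨hinj, hcard⟩
    obtain ⟨u, hu⟩ := hbij.2 ⟨d, hd⟩
    exact ⟨u, u.2, congrArg Subtype.val hu⟩
  -- the transfer is trivial
  have hT : ∀ g : G, MonoidHom.transfer f g = 1 := hom_eq_one_of_simple hnonab _
  have key : ∀ (x : G) (hx : x • a ≠ a) (n : G) (hn : n • a = a) (hnx : n • (x • a) = x • a),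
      f ⟨n, hn⟩ * f ⟨x⁻¹ * n * x, by
        rw [mem_stabilizer_iff, mul_smul, mul_smul, hnx, inv_smul_smul]⟩ = 1 := by
    intro x hx n hn hnx
    rw [← transfer_stabilizer_two_fix a f n x hn hx hnx ?_]
    · exact hT n
    · intro k d hda hdx hd
      exact Helper15.zass_eq_one_of_fix_three hZ (a := a) (b := x • a) (c := d) (Ne.symm hx)
        (Ne.symm hdx) (Ne.symm hda) ((stabilizer G a).pow_mem hn k)
        ((stabilizer G (x • a)).pow_mem hnx k) hd
  -- `f ^ 2` is nontrivial on every two-point stabilizer
  have hKne : ∀ c : Ω, c ≠ a → ∃ (n : G) (hn : n • a = a), n • c = c ∧ f ⟨n, hn⟩ ^ 2 ≠ 1 := by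
    intro c hc
    by_contra hcon
    push Not at hcon
    have h1 : ∀ (n : G) (hn : n • a = a), n • c = c → f ⟨n, hn⟩ = 1 := by
      intro n hn hnc
      have h2 := hcon n hn hnc
      have hodd' : Odd (Nat.card ↥(stabilizer G a ⊓ stabilizer G c : Subgroup G)) := by
        rw [Helper15.zass_card_stab_inf hZ hab (Ne.symm hc)]
        exact hodd
      have hmem : n ∈ stabilizer G a ⊓ stabilizer G c := ⟨hn, hnc⟩
      have h3 : n ^ Nat.card ↥(stabilizer G a ⊓ stabilizer G c : Subgroup G) = 1 := by
        have := pow_card_eq_one' (G := ↥(stabilizer G a ⊓ stabilizer G c : Subgroup G))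
          (x := ⟨n, hmem⟩)
        exact congrArg Subtype.val this
      have h4 : f ⟨n, hn⟩ ^ Nat.card ↥(stabilizer G a ⊓ stabilizer G c : Subgroup G) = 1 := by
        rw [← map_pow]
        have : (⟨n, hn⟩ : stabilizer G a) ^
            Nat.card ↥(stabilizer G a ⊓ stabilizer G c : Subgroup G) = 1 :=
          Subtype.ext h3
        rw [this, map_one]
      obtain ⟨m, hm⟩ := hodd'
      rw [hm, pow_succ, pow_mul, h2, one_pow, one_mul] at h4
      exact h4
    apply hμne
    funext n
    rw [hf]
    have hna : (n : G) • a = a := n.2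
    have hnc : (n : G) • c ≠ a := by
      intro h
      apply hc
      exact smul_left_cancel _ (h.trans hna.symm)
    obtain ⟨u, hu, huc⟩ := hHtrans c ((n : G) • c) hc hnc
    have hua : u • a = a := hHa hu
    have h5 : (u⁻¹ * (n : G)) • a = a := by
      rw [mul_smul, hna, inv_smul_eq_iff, hua]
    have h6 : (u⁻¹ * (n : G)) • c = c := by
      rw [mul_smul, inv_smul_eq_iff, huc]
    have h7 := h1 _ h5 h6
    have h8 : n = ⟨u, hua⟩ * ⟨u⁻¹ * (n : G), h5⟩ := Subtype.ext (by simp)
    rw [h8, map_mul, h7, mul_one]
    have := hμH ⟨u, hua⟩ hu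
    rw [hf] at this
    exact this
  have hcount : ∀ z : ℂ, ∑ x : G, (if x ∈ stabilizer G a then z else 0)
      = (Nat.card (stabilizer G a) : ℂ) * z := by
    intro z
    rw [← Finset.sum_filter, Finset.sum_const, nsmul_eq_mul, Nat.card_eq_fintype_card,
      Fintype.card_subtype]
  have hcharInd : Cfsg.IsCharacter G (Cfsg.indFun (stabilizer G a) μ) :=
    isCharacter_indFun (stabilizer G a) μ hμ.1
  refine ⟨isIrrCharacter_of_norm_one _ hcharInd ?_, ?_⟩
  · rw [frobenius_reciprocity (stabilizer G a) μ _ (indFun_isClassFunction (stabilizer G a) μ)]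
    have hinner : ∀ x : G, ∑ n : stabilizer G a,
        μ n * (starRingEnd ℂ) (Cfsg.extendByZero (stabilizer G a) μ (x⁻¹ * (n : G) * x))
        = if x ∈ stabilizer G a then (Nat.card (stabilizer G a) : ℂ) else 0 := by
      intro x
      by_cases hx : x ∈ stabilizer G a
      · rw [if_pos hx]
        have h1 : ∀ n : stabilizer G a,
            μ n * (starRingEnd ℂ) (Cfsg.extendByZero (stabilizer G a) μ (x⁻¹ * (n : G) * x))
              = 1 := by
          intro n
          have hmem : x⁻¹ * (n : G) * x ∈ stabilizer G a :=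
            (stabilizer G a).mul_mem ((stabilizer G a).mul_mem ((stabilizer G a).inv_mem hx) n.2)
              hx
          rw [extendByZero_of_mem (stabilizer G a) μ hmem, hf, hf]
          have : (⟨x⁻¹ * (n : G) * x, hmem⟩ : stabilizer G a) = ⟨x, hx⟩⁻¹ * n * ⟨x, hx⟩ := rfl
          rw [this, map_mul, map_mul, map_inv, mul_right_comm, inv_mul_cancel, one_mul]
          exact hnorm n
        simp only [h1]
        rw [Finset.sum_const, Finset.card_univ, nsmul_eq_mul, mul_one,
          Nat.card_eq_fintype_card]
      · rw [if_neg hx]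
        have hxa : x • a ≠ a := hx
        obtain ⟨n₀, hn₀, hn₀c, hn₀f⟩ := hKne (x • a) hxa
        let K : Subgroup (stabilizer G a) := (stabilizer G (x • a)).subgroupOf (stabilizer G a)
        have h1 : ∀ n : stabilizer G a,
            μ n * (starRingEnd ℂ) (Cfsg.extendByZero (stabilizer G a) μ (x⁻¹ * (n : G) * x))
              = if n ∈ K then ((f n ^ 2 : ℂˣ) : ℂ) else 0 := by
          intro n
          by_cases hnK : n ∈ K
          · rw [if_pos hnK]
            have hnx : (n : G) • (x • a) = x • a := hnK
            have hmem : x⁻¹ * (n : G) * x ∈ stabilizer G a := by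
              rw [mem_stabilizer_iff, mul_smul, mul_smul, hnx, inv_smul_smul]
            rw [extendByZero_of_mem (stabilizer G a) μ hmem, hf, hf]
            have hk := key x hxa (n : G) n.2 hnx
            have hk' : f ⟨x⁻¹ * (n : G) * x, hmem⟩ = (f n)⁻¹ := by
              rw [eq_inv_iff_mul_eq_one, mul_comm]
              exact hk
            rw [hk', Units.val_inv_eq_inv_val, map_inv₀]
            have hn1 := hnorm n
            have hne0 : (f n : ℂ) ≠ 0 := (f n).ne_zero
            have hconj : (starRingEnd ℂ) (f n : ℂ) = (f n : ℂ)⁻¹ := by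
              field_simp
              rw [mul_comm]
              exact hn1
            rw [hconj, inv_inv, Units.val_pow_eq_pow_val, pow_two]
          · rw [if_neg hnK]
            have hmem : x⁻¹ * (n : G) * x ∉ stabilizer G a := by
              intro h
              apply hnK
              show (n : G) • (x • a) = x • a
              rw [mem_stabilizer_iff, mul_smul, mul_smul, inv_smul_eq_iff] at h
              exact h
            rw [extendByZero_of_not_mem (stabilizer G a) μ hmem, map_zero, mul_zero]
        simp only [h1]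
        rw [← Finset.sum_filter, Finset.sum_subtype (p := fun n => n ∈ K)
          (Finset.univ.filter fun n => n ∈ K) (by intro n; simp)
          (fun n => ((f n ^ 2 : ℂˣ) : ℂ))]
        let g : K →* ℂˣ :=
          { toFun := fun k => f (k : stabilizer G a) ^ 2
            map_one' := by simp
            map_mul' := fun k k' => by
              show f ((k : stabilizer G a) * (k' : stabilizer G a)) ^ 2 = _
              rw [map_mul, mul_pow] }
        have hg : ∃ k, g k ≠ 1 :=
          ⟨⟨⟨n₀, hn₀⟩, hn₀c⟩, hn₀f⟩
        exact sum_hom_units_eq_zero g hg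
    unfold Cfsg.classInner
    have hsum : ∑ n : stabilizer G a,
        μ n * (starRingEnd ℂ) (Cfsg.indFun (stabilizer G a) μ (n : G))
        = (Nat.card (stabilizer G a) : ℂ) := by
      unfold Cfsg.indFun
      have h1 : ∀ n : stabilizer G a,
          μ n * (starRingEnd ℂ) ((Nat.card (stabilizer G a) : ℂ)⁻¹ *
            ∑ x : G, Cfsg.extendByZero (stabilizer G a) μ (x⁻¹ * (n : G) * x))
          = (Nat.card (stabilizer G a) : ℂ)⁻¹ * ∑ x : G, μ n * (starRingEnd ℂ)
              (Cfsg.extendByZero (stabilizer G a) μ (x⁻¹ * (n : G) * x)) := by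
        intro n
        rw [map_mul, map_inv₀, Complex.conj_natCast, map_sum, Finset.mul_sum, Finset.mul_sum,
          Finset.mul_sum]
        apply Finset.sum_congr rfl
        intro x _
        ring
      simp only [h1]
      rw [← Finset.mul_sum, Finset.sum_comm]
      simp only [hinner]
      rw [hcount]
      field_simp
    rw [hsum]
    field_simp
  · intro u hu hu1
    unfold Cfsg.indFun
    have h1 : ∀ x : G, Cfsg.extendByZero (stabilizer G a) μ (x⁻¹ * u * x)
        = if x ∈ stabilizer G a then 1 else 0 := by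
      intro x
      by_cases hx : x ∈ stabilizer G a
      · rw [if_pos hx]
        have hmem : x⁻¹ * u * x ∈ stabilizer G a :=
          (stabilizer G a).mul_mem ((stabilizer G a).mul_mem ((stabilizer G a).inv_mem hx)
            (hHa hu)) hx
        rw [extendByZero_of_mem (stabilizer G a) μ hmem, hf]
        have : (⟨x⁻¹ * u * x, hmem⟩ : stabilizer G a) = ⟨x, hx⟩⁻¹ * ⟨u, hHa hu⟩ * ⟨x, hx⟩ := rfl
        rw [this, map_mul, map_mul, map_inv, mul_right_comm, inv_mul_cancel, one_mul]
        have := hμH ⟨u, hHa hu⟩ hu
        rw [hf] at this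
        exact this
      · rw [if_neg hx]
        apply extendByZero_of_not_mem
        intro hmem
        apply hx
        have h2 : u • (x • a) = x • a := by
          rw [mem_stabilizer_iff, mul_smul, mul_smul, inv_smul_eq_iff] at hmem
          exact hmem
        exact hHfix u hu hu1 _ h2
    simp only [h1]
    rw [hcount]
    field_simp

end Cfsg.Agent.Helper3
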